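import Cfsg.Agent.Lib.SchF4.Gen
import Cfsg.Agent.Lib.SzIso.SchurSz

/-!
Sections over a subgroup that is abelian modulo a central part: the norm construction.
-/

set_option autoImplicit false
set_option linter.unusedSectionVars false
set_option linter.unusedVariables false
set_option linter.ambiguousOpen false
set_option linter.unusedSimpArgs false
set_option linter.unusedTactic false
set_option linter.unreachableTactic false
set_option linter.dupNamespace false

namespace Cfsg.Agent.Lib.SchF4.Sec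

open Cfsg.Agent.Lib.SchD4.Sys (cj cj_mul cj_one cj_inv cj_cj one_cj cj_inv_cj cj_cj_inv map_cj cj_eq_self_iff)
open Cfsg.Agent.Lib.SchF4.Gen
open scoped commutatorElement

universe u v

variable {E : Type u} {G : Type v} [Group E] [Group G] {σ : E →* G}

/-- The norm. -/
def Nm (g y : E) : ℕ → E
  | 0 => 1
  | k + 1 => cj (g ^ k) y * Nm g y k

lemma cj_pow_mem {P : Subgroup E} {g : E} (hgP : ∀ x ∈ P, cj g x ∈ P) : ∀ (k : ℕ), ∀ x ∈ P, cj (g ^ k) x ∈ P := by
  intro k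
  induction k with
  | zero =>
    intro x hx
    rw [pow_zero, one_cj]
    exact hx
  | succ k ih =>
    intro x hx
    rw [pow_succ', ← cj_cj]
    exact hgP _ (ih x hx)

lemma Nm_mem {P : Subgroup E} {g y : E} (hgP : ∀ x ∈ P, cj g x ∈ P) (hy : y ∈ P) : ∀ k, Nm g y k ∈ P := by
  intro k
  induction k with
  | zero => exact P.one_mem
  | succ k ih => exact P.mul_mem (cj_pow_mem hgP k y hy) ih

lemma Nm_one (g : E) : ∀ k, Nm g 1 k = 1 := by
  intro k
  induction k with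
  | zero => rfl
  | succ k ih => rw [Nm, ih, cj_one, one_mul]

lemma Nm_mul {P R₀ : Subgroup E} {g : E} (hgP : ∀ x ∈ P, cj g x ∈ P) (hcomm : ∀ a ∈ P, ∀ b ∈ P, a * b * a⁻¹ * b⁻¹ ∈ R₀)
    (hnor : ∀ a ∈ P, ∀ r ∈ R₀, cj a r ∈ R₀) {y y' : E} (hy : y ∈ P) (hy' : y' ∈ P) :
    ∀ k, ∃ r ∈ R₀, Nm g (y * y') k = Nm g y k * Nm g y' k * r := by
  intro k
  induction k with
  | zero => exact ⟨1, R₀.one_mem, by simp [Nm]⟩
  | succ k ih =>
    obtain ⟨r, hr, e⟩ := ih
    have ha' := cj_pow_mem hgP k y' hy'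
    have hb := Nm_mem (g := g) hgP hy k
    have hb' := Nm_mem (g := g) hgP hy' k
    have hc := hcomm _ (P.inv_mem hb) _ ha'
    set a' := cj (g ^ k) y' with ha'def
    set b := Nm g y k with hbdef
    set b' := Nm g y' k with hb'def
    set c := b⁻¹ * a' * b⁻¹⁻¹ * a'⁻¹ with hcdef
    refine ⟨cj (a' * b')⁻¹ c * r, R₀.mul_mem (hnor _ (P.inv_mem (P.mul_mem ha' hb')) _ hc) hr, ?_⟩
    simp only [Nm]
    rw [e, cj_mul, ← ha'def, ← hbdef, ← hb'def]
    simp only [cj, hcdef]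
    group

lemma Nm_central {z : E} (hz : ∀ w, z * w = w * z) (g y : E) : ∀ k, Nm g (y * z) k = Nm g y k * z ^ k := by
  intro k
  induction k with
  | zero => simp [Nm]
  | succ k ih =>
    have e : cj (g ^ k) z = z := by
      simp only [cj]
      rw [← hz]
      group
    simp only [Nm]
    rw [ih, cj_mul, e, pow_succ']
    have hzc : Commute z (Nm g y k) := hz _
    calc cj (g ^ k) y * z * (Nm g y k * z ^ k) = cj (g ^ k) y * (z * Nm g y k) * z ^ k := by group
      _ = cj (g ^ k) y * (Nm g y k * z) * z ^ k := by rw [hzc.eq]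
      _ = _ := by group

lemma Nm_of_central {z : E} (hz : ∀ w, z * w = w * z) (g : E) (k : ℕ) : Nm g z k = z ^ k := by
  have := Nm_central hz g 1 k
  rwa [one_mul, Nm_one, one_mul] at this

lemma Nm_conj {g β : E} (hβ : ∀ (j : ℕ) (x : E), cj β (cj (g ^ j) x) = cj (g ^ j) (cj β x)) (y : E) :
    ∀ k, Nm g (cj β y) k = cj β (Nm g y k) := by
  intro k
  induction k with
  | zero => simp [Nm, cj_one]
  | succ k ih => simp only [Nm]; rw [ih, cj_mul, hβ]

/-- Conjugations by elements commuting in the quotient commute. -/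
lemma conj_comm_of_map (hc : σ.ker ≤ Subgroup.center E) {g β : E} (h : σ β * σ g = σ g * σ β) (j : ℕ) (x : E) :
    cj β (cj (g ^ j) x) = cj (g ^ j) (cj β x) := by
  have h1 : σ (β * g ^ j * β⁻¹ * (g ^ j)⁻¹) = 1 := by
    have hp : Commute (σ β) (σ g ^ j) := Commute.pow_right h j
    simp only [map_mul, map_inv, map_pow]
    rw [hp.eq]
    group
  have h2 := ker_comm hc (MonoidHom.mem_ker.mpr h1)
  set d := β * g ^ j * β⁻¹ * (g ^ j)⁻¹ with hd
  have e : β * g ^ j = d * (g ^ j * β) := by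
    rw [hd]; group
  simp only [cj]
  calc β * (g ^ j * x * (g ^ j)⁻¹) * β⁻¹ = (β * g ^ j) * x * (β * g ^ j)⁻¹ := by group
    _ = (d * (g ^ j * β)) * x * (d * (g ^ j * β))⁻¹ := by rw [e]
    _ = d * ((g ^ j * β) * x * (g ^ j * β)⁻¹) * d⁻¹ := by group
    _ = ((g ^ j * β) * x * (g ^ j * β)⁻¹) * d * d⁻¹ := by rw [h2]
    _ = _ := by group

/-- The norm construction. -/
theorem exists_sec (hc : σ.ker ≤ Subgroup.center E) (h2 : Ker2 σ) {P R₀ : Subgroup E} {g : E} {n : ℕ} (hn : Odd n)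
    (hcomm : ∀ a ∈ P, ∀ b ∈ P, a * b * a⁻¹ * b⁻¹ ∈ R₀) (hnor : ∀ a ∈ P, ∀ r ∈ R₀, cj a r ∈ R₀)
    (hR₀1 : ∀ r ∈ R₀, σ r = 1 → r = 1) (hkP : σ.ker ≤ P) (hgP : ∀ x ∈ P, cj g x ∈ P)
    (hN : ∀ y ∈ P, ∃ r ∈ R₀, σ (Nm g y n) = σ r) :
    ∃ R : Subgroup E, R ≤ P ∧ (∀ y ∈ P, ∃ w ∈ R, σ w = σ y) ∧ (∀ r ∈ R, σ r = 1 → r = 1) ∧
      (∀ β : E, σ β * σ g = σ g * σ β → (∀ x ∈ P, cj β x ∈ P) → (∀ r ∈ R₀, cj β r ∈ R₀) → ∀ x ∈ R, cj β x ∈ R) := by
  let R : Subgroup E :=
    { carrier := {y | y ∈ P ∧ Nm g y n ∈ R₀}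
      one_mem' := ⟨P.one_mem, by rw [Nm_one]; exact R₀.one_mem⟩
      mul_mem' := by
        rintro a b ⟨ha, ha'⟩ ⟨hb, hb'⟩
        refine ⟨P.mul_mem ha hb, ?_⟩
        obtain ⟨r, hr, e⟩ := Nm_mul hgP hcomm hnor ha hb n
        rw [e]
        exact R₀.mul_mem (R₀.mul_mem ha' hb') hr
      inv_mem' := by
        rintro a ⟨ha, ha'⟩
        refine ⟨P.inv_mem ha, ?_⟩
        obtain ⟨r, hr, e⟩ := Nm_mul hgP hcomm hnor ha (P.inv_mem ha) n
        rw [mul_inv_cancel, Nm_one] at e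
        have e2 : Nm g a⁻¹ n = (Nm g a n)⁻¹ * r⁻¹ := by
          have h3 : Nm g a n * Nm g a⁻¹ n * r * r⁻¹ = r⁻¹ := by rw [← e, one_mul]
          have h4 : Nm g a n * Nm g a⁻¹ n = r⁻¹ := by simpa using h3
          calc Nm g a⁻¹ n = (Nm g a n)⁻¹ * (Nm g a n * Nm g a⁻¹ n) := by group
            _ = _ := by rw [h4]
        rw [e2]
        exact R₀.mul_mem (R₀.inv_mem ha') (R₀.inv_mem hr) }
  refine ⟨R, fun x hx => hx.1, ?_, ?_, ?_⟩
  · intro y hy
    obtain ⟨r, hr, e⟩ := hN y hy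
    set z₀ := (r)⁻¹ * Nm g y n with hz₀
    have hz₀k : z₀ ∈ σ.ker := by
      rw [MonoidHom.mem_ker, hz₀, map_mul, map_inv, e, inv_mul_cancel]
    obtain ⟨k, hk⟩ := h2 z₀ hz₀k
    obtain ⟨f, hf⟩ := exists_root_odd hn hk
    set w := z₀ ^ f with hw
    have hwk : w ∈ σ.ker := pow_mem hz₀k f
    have hwc := ker_comm hc hwk
    have hwi : ∀ a, w⁻¹ * a = a * w⁻¹ := by
      intro a
      have := hwc a⁻¹
      calc w⁻¹ * a = (a⁻¹ * w)⁻¹ := by group
        _ = (w * a⁻¹)⁻¹ := by rw [hwc]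
        _ = a * w⁻¹ := by group
    refine ⟨y * w⁻¹, ⟨P.mul_mem hy (hkP (inv_mem hwk)), ?_⟩, ?_⟩
    · rw [Nm_central hwi, inv_pow, hf]
      have e1 : Nm g y n = r * z₀ := by rw [hz₀]; group
      rw [e1]
      simpa using hr
    · rw [map_mul, map_inv, MonoidHom.mem_ker.mp hwk, inv_one, mul_one]
  · rintro r ⟨hr, hr'⟩ h1
    have hrk : r ∈ σ.ker := MonoidHom.mem_ker.mpr h1
    rw [Nm_of_central (ker_comm hc hrk)] at hr'
    have h3 := hR₀1 _ hr' (by rw [map_pow, h1, one_pow])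
    obtain ⟨k, hk⟩ := h2 r hrk
    exact eq_one_of_odd hn h3 hk
  · rintro β hβ hβP hβR x ⟨hx, hx'⟩
    refine ⟨hβP x hx, ?_⟩
    rw [Nm_conj (conj_comm_of_map hc hβ)]
    exact hβR _ hx'

section fields

variable {K : Type*} [Field K] [Fintype K] [CharP K 2]

lemma geom_zero {l : K} (hl : l ≠ 1) {n : ℕ} (hn : l ^ n = 1) : ∑ i ∈ Finset.range n, l ^ i = 0 := by
  have h := geom_sum_mul l n
  rw [hn, sub_self] at h
  exact (mul_eq_zero.mp h).resolve_right (sub_ne_zero.mpr hl)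

/-- A section over an additive group with a transitive action of the scalars. -/
theorem add_sec (hs : Function.Surjective σ) (hc : σ.ker ≤ Subgroup.center E) (h2 : Ker2 σ)
    (hq : 8 ≤ Fintype.card K) (X : K → G) (hX : ∀ a b, X (a + b) = X a * X b)
    (hsc : ∀ l : K, l ≠ 0 → ∃ w : G, ∀ a, w * X a * w⁻¹ = X (l * a))
    {P : Subgroup E} (hP : ∀ e, e ∈ P ↔ ∃ a, σ e = X a)
    {g : E} {l : K} (hl : l ≠ 1) (hg : ∀ a, σ g * X a * (σ g)⁻¹ = X (l * a)) {n : ℕ} (hn : Odd n) (hln : l ^ n = 1) :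
    ∃ R : Subgroup E, R ≤ P ∧ (∀ a, ∃ w ∈ R, σ w = X a) ∧ (∀ r ∈ R, σ r = 1 → r = 1) ∧
      (∀ β : E, σ β * σ g = σ g * σ β → (∀ x ∈ P, cj β x ∈ P) → ∀ x ∈ R, cj β x ∈ R) := by
  open Cfsg.Agent.Lib.SzIso.SchurSz in
  have hX0 : X 0 = 1 := by
    have := hX 0 0
    rw [add_zero] at this
    exact (mul_eq_left.mp this.symm)
  have hXc : ∀ a b, Commute (X a) (X b) := by
    intro a b
    show X a * X b = X b * X a
    rw [← hX, ← hX, add_comm]
  letI : CommGroup ↥(Subgroup.center E) :=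
    { (inferInstance : Group ↥(Subgroup.center E)) with
      mul_comm := fun a b => Subtype.ext (Subgroup.mem_center_iff.1 b.2 a.1) }
  let F : K → K → ↥(Subgroup.center E) := fun a b => ⟨cf σ hs (X a) (X b), hc (cf_mem_ker σ hs (hXc a b))⟩
  have hF : ∀ a b, F a b = 1 := by
    apply form_eq_one hq F
    · intro a a' b
      apply Subtype.ext
      show cf σ hs (X (a + a')) (X b) = _
      rw [hX, cf_mul_left' σ hs hc (hXc _ _) (hXc _ _)]
      rfl
    · intro a b b'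
      apply Subtype.ext
      show cf σ hs (X a) (X (b + b')) = _
      rw [hX, cf_mul_right' σ hs hc (hXc _ _) (hXc _ _)]
      rfl
    · intro l' hl' a b
      apply Subtype.ext
      show cf σ hs (X (l' * a)) (X (l' * b)) = cf σ hs (X a) (X b)
      obtain ⟨w, hw⟩ := hsc l' hl'
      rw [← hw, ← hw]
      exact cf_conj σ hs hc w (hXc a b)
  have hab : ∀ a ∈ P, ∀ b ∈ P, a * b * a⁻¹ * b⁻¹ = 1 := by
    intro a ha b hb
    obtain ⟨s, hs'⟩ := (hP a).mp ha
    obtain ⟨t, ht'⟩ := (hP b).mp hb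
    have := cf_eq σ hs hc hs' ht'
    have h3 : cf σ hs (X s) (X t) = 1 := congrArg Subtype.val (hF s t)
    rw [h3, commutatorElement_def] at this
    exact this
  have hgP : ∀ x ∈ P, cj g x ∈ P := by
    intro x hx
    obtain ⟨s, hs'⟩ := (hP x).mp hx
    refine (hP _).mpr ⟨l * s, ?_⟩
    rw [map_cj, hs', cj]
    exact hg s
  have hpow : ∀ (k : ℕ) (a : K), σ (g ^ k) * X a * (σ (g ^ k))⁻¹ = X (l ^ k * a) := by
    intro k
    induction k with
    | zero => simp
    | succ k ih =>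
      intro a
      rw [pow_succ', map_mul, mul_inv_rev]
      calc σ g * σ (g ^ k) * X a * ((σ (g ^ k))⁻¹ * (σ g)⁻¹) = σ g * (σ (g ^ k) * X a * (σ (g ^ k))⁻¹) * (σ g)⁻¹ := by group
        _ = X (l * (l ^ k * a)) := by rw [ih, hg]
        _ = X (l ^ (k + 1) * a) := by rw [pow_succ']; ring_nf
  have hNm : ∀ (a : K) (y : E), σ y = X a → ∀ k, σ (Nm g y k) = X ((∑ i ∈ Finset.range k, l ^ i) * a) := by
    intro a y hy k
    induction k with
    | zero => simp [Nm, hX0]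
    | succ k ih =>
      simp only [Nm, map_mul]
      rw [ih, map_cj, hy, cj, hpow, ← hX, Finset.sum_range_succ]
      congr 1
      ring
  obtain ⟨R, h1, h3, h4, h5⟩ := exists_sec (P := P) (R₀ := ⊥) (g := g) hc h2 hn
    (fun a ha b hb => by rw [hab a ha b hb]; exact Subgroup.one_mem _)
    (fun a ha r hr => by
      rw [Subgroup.mem_bot] at hr ⊢
      rw [hr, cj_one])
    (fun r hr _ => (Subgroup.mem_bot.mp hr))
    (fun z hz => (hP z).mpr ⟨0, by rw [MonoidHom.mem_ker.mp hz, hX0]⟩)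
    hgP
    (fun y hy => by
      obtain ⟨s, hs'⟩ := (hP y).mp hy
      refine ⟨1, Subgroup.one_mem _, ?_⟩
      rw [hNm s y hs', geom_zero hl hln, zero_mul, hX0, map_one])
  refine ⟨R, h1, ?_, h4, ?_⟩
  · intro a
    obtain ⟨y, hy⟩ := hs (X a)
    obtain ⟨w, hw, e⟩ := h3 y ((hP y).mpr ⟨a, hy⟩)
    exact ⟨w, hw, e.trans hy⟩
  · intro β hβ hβP
    exact h5 β hβ hβP (fun r hr => by
      rw [Subgroup.mem_bot] at hr ⊢
      rw [hr, cj_one])


lemma comm_restr {a b q q' d d' : E} (h1 : d * q' = q' * d) (h2 : d * d' = d' * d) (h3 : d' * q = q * d') (ha : a = q * d)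
    (hb : b = q' * d') : a * b * a⁻¹ * b⁻¹ = q * q' * q⁻¹ * q'⁻¹ := by
  subst ha hb
  have h4 : d * (q' * d') = (q' * d') * d := by
    calc d * (q' * d') = (d * q') * d' := by group
      _ = (q' * d) * d' := by rw [h1]
      _ = q' * (d * d') := by group
      _ = q' * (d' * d) := by rw [h2]
      _ = _ := by group
  have h5 : d' * q⁻¹ = q⁻¹ * d' := by
    have : q⁻¹ * (d' * q) * q⁻¹ = q⁻¹ * (q * d') * q⁻¹ := by rw [h3]
    calc d' * q⁻¹ = q⁻¹ * (q * d') * q⁻¹ := by group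
      _ = q⁻¹ * (d' * q) * q⁻¹ := by rw [h3]
      _ = _ := by group
  calc q * d * (q' * d') * (q * d)⁻¹ * (q' * d')⁻¹ = q * (d * (q' * d')) * d⁻¹ * q⁻¹ * d'⁻¹ * q'⁻¹ := by group
    _ = q * ((q' * d') * d) * d⁻¹ * q⁻¹ * d'⁻¹ * q'⁻¹ := by rw [h4]
    _ = q * q' * (d' * q⁻¹) * d'⁻¹ * q'⁻¹ := by group
    _ = q * q' * (q⁻¹ * d') * d'⁻¹ * q'⁻¹ := by rw [h5]
    _ = _ := by group

/-- A section over a group of Suzuki type, with a lift of the centre that centralises the whole preimage. -/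
theorem even_sec (hs : Function.Surjective σ) (hc : σ.ker ≤ Subgroup.center E) (h2 : Ker2 σ)
    (hq : 8 ≤ Fintype.card K) (Y : K → K → G) (φ : K →+* K)
    (hY : ∀ t u t' u', Y t u * Y t' u' = Y (t + t') (u + u' + φ t * t'))
    (hYinj : ∀ c, Y 0 c = 1 → c = 0)
    {P : Subgroup E} (hP : ∀ e, e ∈ P ↔ ∃ t u, σ e = Y t u)
    (z : K → E) (hzadd : ∀ a b, z (a + b) = z a * z b) (hzσ : ∀ c, σ (z c) = Y 0 c) (hzP : ∀ c, ∀ x ∈ P, x * z c = z c * x)
    (hscale : ∀ l : K, l ≠ 0 → ∃ β : E, (∀ t u, σ β * Y t u * (σ β)⁻¹ = Y (l * t) (φ l * l * u)) ∧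
      ∀ c, cj β (z c) = z (φ l * l * c))
    {g : E} {l : K} (hl : l ≠ 1) (hg : ∀ t u, σ g * Y t u * (σ g)⁻¹ = Y (l * t) (φ l * l * u)) {n : ℕ} (hn : Odd n)
    (hln : l ^ n = 1) :
    ∃ R : Subgroup E, R ≤ P ∧ (∀ t u, ∃ w ∈ R, σ w = Y t u) ∧ (∀ r ∈ R, σ r = 1 → r = 1) ∧
      (∀ β : E, σ β * σ g = σ g * σ β → (∀ x ∈ P, cj β x ∈ P) → (∀ c, ∃ c', cj β (z c) = z c') → ∀ x ∈ R, cj β x ∈ R) := by
  have h2K : ∀ x : K, x + x = 0 := CharTwo.add_self_eq_zero
  -- the group law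
  have hY00 : Y 0 0 = 1 := by
    have := hY 0 0 0 0
    simp only [add_zero, map_zero, mul_zero] at this
    exact mul_eq_left.mp this
  have hY1 : ∀ t c, Y 0 c * Y t 0 = Y t c := by
    intro t c
    rw [hY]
    simp
  have hY2 : ∀ t c, Y t 0 * Y 0 c = Y t c := by
    intro t c
    rw [hY]
    simp
  have hYinv : ∀ t, (Y t 0)⁻¹ = Y t (φ t * t) := by
    intro t
    rw [inv_eq_iff_mul_eq_one, hY, h2K, zero_add, h2K, hY00]
  have hz0 : z 0 = 1 := by
    have := hzadd 0 0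
    rw [add_zero] at this
    exact mul_eq_left.mp this.symm
  have hzinv : ∀ c, (z c)⁻¹ = z c := by
    intro c
    rw [inv_eq_iff_mul_eq_one, ← hzadd, h2K, hz0]
  have hzc : ∀ c c', z c * z c' = z c' * z c := by
    intro c c'
    rw [← hzadd, ← hzadd, add_comm]
  let f : K → K → K := fun t t' => φ t * t' + φ t' * t
  have hfl : ∀ t s t', f (t + s) t' = f t t' + f s t' := by
    intro t s t'
    simp only [f, map_add]
    ring
  have hfr : ∀ t s t', f t (s + t') = f t s + f t t' := by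
    intro t s t'
    simp only [f, map_add]
    ring
  have hfs : ∀ l t t', f (l * t) (l * t') = φ l * l * f t t' := by
    intro l t t'
    simp only [f, map_mul]
    ring
  have h20 : (2 : K) = 0 := CharTwo.two_eq_zero
  have hcomG : ∀ t t', Y t 0 * Y t' 0 * (Y t 0)⁻¹ * (Y t' 0)⁻¹ = Y 0 (f t t') := by
    intro t t'
    rw [hYinv, hYinv, hY, hY, hY]
    have e1 : t + t' + t + t' = 0 := by linear_combination h2K t + h2K t'
    rw [e1]
    congr 1
    simp only [f, map_add]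
    linear_combination (φ t * t' + φ t * t + φ t' * t') * h20
  let L : K → E := fun t => Function.surjInv hs (Y t 0)
  have hL : ∀ t, σ (L t) = Y t 0 := fun t => Function.surjInv_eq hs _
  have hLP : ∀ t, L t ∈ P := fun t => (hP _).mpr ⟨t, 0, hL t⟩
  let F : K → K → E := fun t t' => L t * L t' * (L t)⁻¹ * (L t')⁻¹
  have hFσ : ∀ t t', σ (F t t') = Y 0 (f t t') := by
    intro t t'
    simp only [F, map_mul, map_inv, hL]
    exact hcomG t t'
  have hFP' : ∀ t t', F t t' ∈ P := fun t t' =>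
    P.mul_mem (P.mul_mem (P.mul_mem (hLP t) (hLP t')) (P.inv_mem (hLP t))) (P.inv_mem (hLP t'))
  let Ee : K → K → E := fun t t' => F t t' * (z (f t t'))⁻¹
  have hEk : ∀ t t', Ee t t' ∈ σ.ker := by
    intro t t'
    rw [MonoidHom.mem_ker]
    simp only [Ee, map_mul, map_inv, hFσ, hzσ, mul_inv_cancel]
  have hFE : ∀ t t', F t t' = Ee t t' * z (f t t') := by
    intro t t'
    simp only [Ee]
    group
  have hFc : ∀ t t', ∀ x ∈ P, x * F t t' = F t t' * x := by
    intro t t' x hx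
    have h5 := ker_comm hc (hEk t t') x
    rw [hFE]
    calc x * (Ee t t' * z (f t t')) = (x * Ee t t') * z (f t t') := by group
      _ = (Ee t t' * x) * z (f t t') := by rw [h5]
      _ = Ee t t' * (x * z (f t t')) := by group
      _ = Ee t t' * (z (f t t') * x) := by rw [hzP _ x hx]
      _ = _ := by group
  have hFc' : ∀ t t' t₁ t₁', F t t' * F t₁ t₁' = F t₁ t₁' * F t t' := by
    intro t t' t₁ t₁'
    exact (hFc t₁ t₁' _ (hFP' t t'))
  -- lifts of products
  have hprod : ∀ t s, ∃ b, L t * L s = L (t + s) * b ∧ ∀ x ∈ P, b * x = x * b := by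
    intro t s
    set d := (L (t + s) * z (φ t * s))⁻¹ * (L t * L s) with hd
    have hdk : d ∈ σ.ker := by
      rw [MonoidHom.mem_ker, hd]
      simp only [map_mul, map_inv, hL, hzσ]
      rw [hY2, hY]
      simp
    refine ⟨z (φ t * s) * d, by rw [hd]; group, ?_⟩
    intro x hx
    rw [mul_assoc, ker_comm hc hdk x, ← mul_assoc, ← hzP _ x hx, mul_assoc]
  have hFl : ∀ t s t', F (t + s) t' = F s t' * F t t' := by
    intro t s t'
    obtain ⟨b, e, hb⟩ := hprod t s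
    have h1 : (L (t + s) * b) * L t' * (L (t + s) * b)⁻¹ * (L t')⁻¹ = F (t + s) t' := by
      have := comm_restr (a := L (t + s) * b) (b := L t') (q := L (t + s)) (q' := L t') (d := b) (d' := 1)
        (hb _ (hLP t')) (by simp) (by simp) rfl (by simp)
      exact this
    rw [← h1, ← e]
    have h3 : L s * L t' = F s t' * (L t' * L s) := by
      simp only [F]; group
    calc L t * L s * L t' * (L t * L s)⁻¹ * (L t')⁻¹ = L t * (L s * L t') * (L s)⁻¹ * (L t)⁻¹ * (L t')⁻¹ := by group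
      _ = L t * (F s t' * (L t' * L s)) * (L s)⁻¹ * (L t)⁻¹ * (L t')⁻¹ := by rw [h3]
      _ = (L t * F s t') * L t' * (L t)⁻¹ * (L t')⁻¹ := by group
      _ = (F s t' * L t) * L t' * (L t)⁻¹ * (L t')⁻¹ := by rw [hFc s t' _ (hLP t)]
      _ = F s t' * F t t' := by simp only [F]; group
  have hFr : ∀ t s t', F t (s + t') = F t s * F t t' := by
    intro t s t'
    obtain ⟨b, e, hb⟩ := hprod s t'
    have h1 : L t * (L (s + t') * b) * (L t)⁻¹ * (L (s + t') * b)⁻¹ = F t (s + t') := by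
      have := comm_restr (a := L t) (b := L (s + t') * b) (q := L t) (q' := L (s + t')) (d := 1) (d' := b)
        (by simp) (by simp) (hb _ (hLP t)) (by simp) rfl
      exact this
    rw [← h1, ← e]
    have h3 : L t * L t' * (L t)⁻¹ = F t t' * L t' := by
      simp only [F]; group
    calc L t * (L s * L t') * (L t)⁻¹ * (L s * L t')⁻¹ = L t * L s * (L t)⁻¹ * (L t * L t' * (L t)⁻¹) * (L t')⁻¹ * (L s)⁻¹ := by group
      _ = L t * L s * (L t)⁻¹ * (F t t' * L t') * (L t')⁻¹ * (L s)⁻¹ := by rw [h3]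
      _ = (L t * L s * (L t)⁻¹) * F t t' * (L s)⁻¹ := by group
      _ = F t t' * (L t * L s * (L t)⁻¹) * (L s)⁻¹ := by
          rw [hFc t t' _ (P.mul_mem (P.mul_mem (hLP t) (hLP s)) (P.inv_mem (hLP t)))]
      _ = F t t' * F t s := by simp only [F]; group
      _ = F t s * F t t' := hFc' _ _ _ _
  letI : CommGroup ↥(Subgroup.center E) :=
    { (inferInstance : Group ↥(Subgroup.center E)) with
      mul_comm := fun a b => Subtype.ext (Subgroup.mem_center_iff.1 b.2 a.1) }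
  let Ef : K → K → ↥(Subgroup.center E) := fun t t' => ⟨Ee t t', hc (hEk t t')⟩
  have hEf : ∀ t t', Ef t t' = 1 := by
    apply Cfsg.Agent.Lib.SzIso.SchurSz.form_eq_one hq Ef
    · intro t s t'
      apply Subtype.ext
      show Ee (t + s) t' = Ee t t' * Ee s t'
      have e1 : Ee (t + s) t' = F s t' * F t t' * (z (f t t') * z (f s t'))⁻¹ := by
        simp only [Ee]
        rw [hFl, hfl, hzadd]
      rw [e1, hFE s t', hFE t t']
      have h5 := ker_comm hc (hEk t t')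
      have h6 := ker_comm hc (hEk s t')
      generalize Ee t t' = e at *
      generalize Ee s t' = e' at *
      have h7 := hzc (f t t') (f s t')
      calc e' * z (f s t') * (e * z (f t t')) * (z (f t t') * z (f s t'))⁻¹
          = e' * (z (f s t') * e) * z (f t t') * (z (f t t') * z (f s t'))⁻¹ := by group
        _ = e' * (e * z (f s t')) * z (f t t') * (z (f t t') * z (f s t'))⁻¹ := by rw [h5]
        _ = e' * e * (z (f s t') * z (f t t')) * (z (f t t') * z (f s t'))⁻¹ := by group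
        _ = e' * e * (z (f t t') * z (f s t')) * (z (f t t') * z (f s t'))⁻¹ := by rw [h7]
        _ = e' * e := by group
        _ = e * e' := h6 e |>.symm ▸ rfl
    · intro t s t'
      apply Subtype.ext
      show Ee t (s + t') = Ee t s * Ee t t'
      have e1 : Ee t (s + t') = F t s * F t t' * (z (f t s) * z (f t t'))⁻¹ := by
        simp only [Ee]
        rw [hFr, hfr, hzadd]
      rw [e1, hFE t s, hFE t t']
      have h5 := ker_comm hc (hEk t t')
      generalize Ee t s = e at *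
      generalize Ee t t' = e' at *
      have h7 := hzc (f t s) (f t t')
      calc e * z (f t s) * (e' * z (f t t')) * (z (f t s) * z (f t t'))⁻¹
          = e * (z (f t s) * e') * z (f t t') * (z (f t s) * z (f t t'))⁻¹ := by group
        _ = e * (e' * z (f t s)) * z (f t t') * (z (f t s) * z (f t t'))⁻¹ := by rw [h5]
        _ = e * e' * (z (f t s) * z (f t t')) * (z (f t s) * z (f t t'))⁻¹ := by group
        _ = e * e' := by group
    · intro l' hl' t t'
      apply Subtype.ext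
      show Ee (l' * t) (l' * t') = Ee t t'
      obtain ⟨β, hβ1, hβ2⟩ := hscale l' hl'
      have hlift : ∀ s, (L (l' * s))⁻¹ * cj β (L s) ∈ σ.ker := by
        intro s
        rw [MonoidHom.mem_ker, map_mul, map_inv, map_cj, hL, hL, cj, hβ1, mul_zero, inv_mul_cancel]
      have e1 : cj β (F t t') = F (l' * t) (l' * t') := by
        have h3 := comm_central (a := cj β (L t)) (b := cj β (L t')) (q := L (l' * t)) (q' := L (l' * t'))
          (ker_comm hc (hlift t)) (ker_comm hc (hlift t')) (by group) (by group)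
        simp only [F]
        rw [← h3]
        simp only [cj]
        group
      have e2 : Ee (l' * t) (l' * t') = cj β (Ee t t') := by
        simp only [Ee]
        rw [cj_mul, cj_inv, e1, hβ2, hfs]
      rw [e2]
      simp only [cj]
      rw [← ker_comm hc (hEk t t') β]
      group
  have hFz : ∀ t t', F t t' = z (f t t') := by
    intro t t'
    have h3 : Ee t t' = 1 := congrArg Subtype.val (hEf t t')
    rw [hFE, h3, one_mul]
  -- the central part
  let R₀ : Subgroup E :=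
    { carrier := Set.range z
      one_mem' := ⟨0, hz0⟩
      mul_mem' := by
        rintro _ _ ⟨a, rfl⟩ ⟨b, rfl⟩
        exact ⟨a + b, hzadd a b⟩
      inv_mem' := by
        rintro _ ⟨a, rfl⟩
        exact ⟨a, (hzinv a).symm⟩ }
  have hform : ∀ a ∈ P, ∃ t u d, d ∈ σ.ker ∧ a = L t * (z u * d) := by
    intro a ha
    obtain ⟨t, u, e⟩ := (hP a).mp ha
    refine ⟨t, u, (L t * z u)⁻¹ * a, ?_, by group⟩
    rw [MonoidHom.mem_ker, map_mul, map_inv, e]
    simp only [map_mul, hL, hzσ]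
    rw [hY2, inv_mul_cancel]
  have hcomm : ∀ a ∈ P, ∀ b ∈ P, a * b * a⁻¹ * b⁻¹ ∈ R₀ := by
    intro a ha b hb
    obtain ⟨t, u, d, hd, ea⟩ := hform a ha
    obtain ⟨t', u', d', hd', eb⟩ := hform b hb
    have hc1 : ∀ x ∈ P, (z u * d) * x = x * (z u * d) := by
      intro x hx
      rw [mul_assoc, ker_comm hc hd x, ← mul_assoc, ← hzP _ x hx, mul_assoc]
    have hc2 : ∀ x ∈ P, (z u' * d') * x = x * (z u' * d') := by
      intro x hx
      rw [mul_assoc, ker_comm hc hd' x, ← mul_assoc, ← hzP _ x hx, mul_assoc]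
    have hz'P : z u' * d' ∈ P := by
      refine P.mul_mem ((hP _).mpr ⟨0, u', hzσ u'⟩) ?_
      exact (hP _).mpr ⟨0, 0, by rw [MonoidHom.mem_ker.mp hd', hY00]⟩
    have h3 := comm_restr (q := L t) (q' := L t') (hc1 _ (hLP t')) (hc1 _ hz'P) (hc2 _ (hLP t)) ea eb
    rw [h3]
    exact ⟨f t t', (hFz t t').symm⟩
  have hnor : ∀ a ∈ P, ∀ r ∈ R₀, cj a r ∈ R₀ := by
    rintro a ha _ ⟨c, rfl⟩
    refine ⟨c, ?_⟩
    simp only [cj]
    rw [hzP c a ha]
    group
  have hR₀1 : ∀ r ∈ R₀, σ r = 1 → r = 1 := by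
    rintro _ ⟨c, rfl⟩ h1
    rw [hzσ] at h1
    rw [hYinj c h1, hz0]
  have hkP : σ.ker ≤ P := fun w hw => (hP w).mpr ⟨0, 0, by rw [MonoidHom.mem_ker.mp hw, hY00]⟩
  have hgP : ∀ x ∈ P, cj g x ∈ P := by
    intro x hx
    obtain ⟨t, u, e⟩ := (hP x).mp hx
    refine (hP _).mpr ⟨l * t, φ l * l * u, ?_⟩
    rw [map_cj, e, cj, hg]
  have hpow : ∀ (k : ℕ) (t u : K), ∃ v, σ (g ^ k) * Y t u * (σ (g ^ k))⁻¹ = Y (l ^ k * t) v := by
    intro k
    induction k with
    | zero =>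
      intro t u
      exact ⟨u, by simp⟩
    | succ k ih =>
      intro t u
      obtain ⟨v, hv⟩ := ih t u
      refine ⟨φ l * l * v, ?_⟩
      rw [pow_succ', map_mul, mul_inv_rev]
      calc σ g * σ (g ^ k) * Y t u * ((σ (g ^ k))⁻¹ * (σ g)⁻¹) = σ g * (σ (g ^ k) * Y t u * (σ (g ^ k))⁻¹) * (σ g)⁻¹ := by group
        _ = Y (l * (l ^ k * t)) (φ l * l * v) := by rw [hv, hg]
        _ = _ := by rw [pow_succ']; ring_nf
  have hNm : ∀ (t u : K) (y : E), σ y = Y t u → ∀ k, ∃ v, σ (Nm g y k) = Y ((∑ i ∈ Finset.range k, l ^ i) * t) v := by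
    intro t u y hy k
    induction k with
    | zero => exact ⟨0, by simp [Nm, hY00]⟩
    | succ k ih =>
      obtain ⟨v, hv⟩ := ih
      obtain ⟨v₁, hv₁⟩ := hpow k t u
      refine ⟨v₁ + v + φ (l ^ k * t) * ((∑ i ∈ Finset.range k, l ^ i) * t), ?_⟩
      simp only [Nm, map_mul]
      rw [hv, map_cj, hy, cj, hv₁, hY, Finset.sum_range_succ]
      congr 1
      · ring
      · simp only [map_mul]
  have hN : ∀ y ∈ P, ∃ r ∈ R₀, σ (Nm g y n) = σ r := by
    intro y hy
    obtain ⟨t, u, e⟩ := (hP y).mp hy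
    obtain ⟨v, hv⟩ := hNm t u y e n
    refine ⟨z v, ⟨v, rfl⟩, ?_⟩
    rw [hv, geom_zero hl hln, zero_mul, hzσ]
  obtain ⟨R, h1, h3, h4, h5⟩ := exists_sec (P := P) (R₀ := R₀) (g := g) hc h2 hn hcomm hnor hR₀1 hkP hgP hN
  refine ⟨R, h1, ?_, h4, ?_⟩
  · intro t u
    obtain ⟨y, hy⟩ := hs (Y t u)
    obtain ⟨w, hw, e⟩ := h3 y ((hP y).mpr ⟨t, u, hy⟩)
    exact ⟨w, hw, e.trans hy⟩
  · intro β hβ hβP hβz
    refine h5 β hβ hβP ?_
    rintro _ ⟨c, rfl⟩
    obtain ⟨c', hc'⟩ := hβz c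
    exact ⟨c', hc'.symm⟩

end fields

end Cfsg.Agent.Lib.SchF4.Sec
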