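import Cfsg.Agent.Lib.SchF4.Cl3
import Cfsg.Agent.Lib.SchF4.Sec

/-!
Sections over the root classes of `²F₄` in a central extension with kernel a `2`-group.
-/

set_option autoImplicit false
set_option linter.unusedSectionVars false
set_option linter.unusedVariables false
set_option linter.ambiguousOpen false
set_option linter.dupNamespace false
set_option linter.unusedSimpArgs false
set_option maxRecDepth 100000

open scoped MatrixGroups Matrix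
open Cfsg _root_.Cfsg.Lie ChevalleyDatum
open Cfsg.Agent.Lib.Chev
open Tables Tables2 Tables3 Raise Basic AxBasic Torus Products Products2 Mono1 Mono2 Mono3 Bn ChevSimple
open Cfsg.Agent.Lib.Twisted.Fact Cfsg.Agent.Lib.Twisted.Bruhat Cfsg.Agent.Lib.Twisted.Tw
open Cfsg.Agent.Lib.Twisted.Struct Cfsg.Agent.Lib.Twisted.Check Cfsg.Agent.Lib.Twisted.Ortho
open Cfsg.Agent.Lib.Twisted.TorusFix Cfsg.Agent.Lib.Twisted.OutA Cfsg.Agent.Lib.Twisted.OutB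
open Cfsg.Agent.Lib.F24.F4Data Cfsg.Agent.Lib.F24.Tw Cfsg.Agent.Lib.F24.WordEq
open Cfsg.Agent.Lib.F24.TD Cfsg.Agent.Lib.F24.Main Cfsg.Agent.Lib.F24.H1 Cfsg.Agent.Lib.F24.PerfF4
open Cfsg.Agent.Lib.F24.Coll Cfsg.Agent.Lib.F24.Cls Cfsg.Agent.Lib.F24.InvCls Cfsg.Agent.Lib.F24.OutF
open Cfsg.Agent.Lib.SchF4.Cl Cfsg.Agent.Lib.SchF4.Cl2
open Cfsg.Agent.Lib.Twisted.Struct.TD
open Cfsg.Agent.Lib.SchD4.Sys (cj cj_mul cj_one cj_inv cj_cj one_cj cj_inv_cj cj_cj_inv map_cj cj_eq_self_iff)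
open Cfsg.Agent.Lib.SchF4.Gen Cfsg.Agent.Lib.SchF4.Sec

namespace Cfsg.Agent.Lib.F24.OutF.Ctx

variable {K : Type*} [Field K] [Fintype K] [CharP K 2] {e : ℕ} (C : Ctx K e)
variable {E : Type*} [Group E] {σ : E →* GG K e}

/-- An abstract lemma: commuting of lifts by a fixed point free action. -/
theorem comm_of_fpf {G : Type*} [Group G] {σ : E →* G} (hs : Function.Surjective σ) (hc : σ.ker ≤ Subgroup.center E)
    (h2 : Ker2 σ) {T : Subgroup G} [Finite T] {h : G} {n : ℕ} (hn : Odd n) (hp : h ^ n = 1)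
    (hT : ∀ x ∈ T, cj h x ∈ T) (hfp : ∀ x ∈ T, cj h x = x → x = 1) {a b : E} (ha : h * σ a = σ a * h)
    (hat : ∀ x ∈ T, σ a * x = x * σ a) (hb : σ b ∈ T) : a * b = b * a := by
  obtain ⟨w, hw, ew⟩ := fp_surj hT hfp (σ b) hb
  obtain ⟨g, rfl⟩ := hs h
  obtain ⟨v, rfl⟩ := hs w
  have h1 : g * a = a * g := comm_of_odd hc h2 hn hp ha
  set z := a * v * a⁻¹ * v⁻¹ with hz
  have hzk : z ∈ σ.ker := by
    rw [MonoidHom.mem_ker, hz]
    simp only [map_mul, map_inv]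
    rw [hat _ hw]
    group
  have hzc := ker_comm hc hzk
  set d := (cj g v * v⁻¹)⁻¹ * b with hd
  have hdk : d ∈ σ.ker := by
    rw [MonoidHom.mem_ker, hd]
    simp only [map_mul, map_inv, map_cj]
    rw [ew]
    simp [map_cj]
  have hdc := ker_comm hc hdk
  have hb' : b = cj g v * v⁻¹ * d := by rw [hd]; group
  have e1 : a * v * a⁻¹ = z * v := by rw [hz]; group
  have e2 : a * cj g v * a⁻¹ = z * cj g v := by
    have h3 : a * cj g v * a⁻¹ = cj g (a * v * a⁻¹) := by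
      simp only [cj]
      have h4 : a * g = g * a := h1.symm
      have h5 : g⁻¹ * a⁻¹ = a⁻¹ * g⁻¹ := by
        rw [← mul_inv_rev, ← mul_inv_rev, h1]
      calc a * (g * v * g⁻¹) * a⁻¹ = (a * g) * v * (g⁻¹ * a⁻¹) := by group
        _ = (g * a) * v * (a⁻¹ * g⁻¹) := by rw [h4, h5]
        _ = _ := by group
    rw [h3, e1, cj_mul]
    have h6 : cj g z = z := by
      simp only [cj]
      rw [← hzc g]
      group
    rw [h6]
  have e3 : a * v⁻¹ * a⁻¹ = v⁻¹ * z⁻¹ := by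
    have : a * v⁻¹ * a⁻¹ = (a * v * a⁻¹)⁻¹ := by group
    rw [this, e1, mul_inv_rev]
  have e4 : a * (cj g v * v⁻¹) * a⁻¹ = cj g v * v⁻¹ := by
    calc a * (cj g v * v⁻¹) * a⁻¹ = (a * cj g v * a⁻¹) * (a * v⁻¹ * a⁻¹) := by group
      _ = z * cj g v * (v⁻¹ * z⁻¹) := by rw [e2, e3]
      _ = (z * (cj g v * v⁻¹)) * z⁻¹ := by group
      _ = ((cj g v * v⁻¹) * z) * z⁻¹ := by rw [hzc]
      _ = _ := by group
  have e5 : a * (cj g v * v⁻¹) = (cj g v * v⁻¹) * a := mul_inv_eq_iff_eq_mul.mp e4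
  rw [hb']
  calc a * (cj g v * v⁻¹ * d) = (a * (cj g v * v⁻¹)) * d := by group
    _ = (cj g v * v⁻¹) * a * d := by rw [e5]
    _ = (cj g v * v⁻¹) * (a * d) := by group
    _ = (cj g v * v⁻¹) * (d * a) := by rw [hdc]
    _ = _ := by group

/-- The order of the torus is odd. -/
lemma odd_card_sub : Odd (Fintype.card K - 1) := by
  obtain ⟨n, hp, hn⟩ := FiniteField.card K 2
  rw [hn]
  have h1 : 2 ^ (n : ℕ) = 2 * 2 ^ ((n : ℕ) - 1) := by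
    rw [← pow_succ']
    congr 1
    have := n.pos
    omega
  have h2 : 1 ≤ 2 ^ ((n : ℕ) - 1) := Nat.one_le_two_pow
  rw [h1]
  exact ⟨2 ^ ((n : ℕ) - 1) - 1, by omega⟩

lemma unit_pow_card (l : Kˣ) : (l : K) ^ (Fintype.card K - 1) = 1 := FiniteField.pow_card_sub_one_eq_one (l : K) l.ne_zero

/-- Lifts of commuting classes commute. -/
theorem comm_lift [Finite E] (hs : Function.Surjective σ) (hc : σ.ker ≤ Subgroup.center E) (h2 : Ker2 σ) {i j : ℕ}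
    (hi : 1 ≤ i ∧ i ≤ 8) (hj : 1 ≤ j ∧ j ≤ 8) (hij : i ≠ j)
    (hcomm : ∀ t u t' u', C.cl i t u * C.cl j t' u' = C.cl j t' u' * C.cl i t u) {a b : E}
    (ha : ∃ t u, σ a = C.cl i t u) (hb : ∃ t u, σ b = C.cl j t u) : a * b = b * a := by
  haveI : Finite (GG K e) := Finite.of_surjective σ hs
  obtain ⟨s, hs1, -⟩ := C.exists_unit
  have hs1' : s ≠ 1 := fun h => hs1 (by rw [h]; rfl)
  obtain ⟨x, y, hx1, hx2⟩ := sep C.hφ2 hi hj hij hs1'
  obtain ⟨t, u, htu⟩ := ha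
  refine comm_of_fpf hs hc h2 (T := C.clS hj.1 hj.2) (h := C.hh x y) odd_card_sub (C.hh_pow_card x y) ?_ ?_ ?_ ?_ ?_
  · rintro _ ⟨t', u', rfl⟩
    exact ⟨_, _, C.hh_cl j x y t' u'⟩
  · rintro _ ⟨t', u', rfl⟩ h
    exact C.fix_cl hj.1 hj.2 hx2 h
  · rw [htu]
    exact C.comm_cl i hx1 t u
  · rintro _ ⟨t', u', rfl⟩
    rw [htu]
    exact hcomm _ _ _ _
  · obtain ⟨t', u', h⟩ := hb
    exact ⟨t', u', h⟩

/-- Commutators in the group. -/
lemma commG {i j : ℕ} (h : commOne i j = true) (t u t' u' : K) :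
    C.cl i t u * C.cl j t' u' = C.cl j t' u' * C.cl i t u := by
  have h1 := comm_of_one C.ax C.φ C.hφ2 h t u t' u'
  have h3 : C.cl i t u * C.cl j t' u' * (C.cl i t u)⁻¹ * (C.cl j t' u')⁻¹ = 1 := Subtype.ext h1
  have h4 := mul_inv_eq_one.mp h3
  exact mul_inv_eq_iff_eq_mul.mp h4

/-- The conjugation of a lift by a Weyl element. -/
lemma nn_H (j : Fin 2) (x y : Kˣ) : ∃ x' y', C.nn j * C.hh x y * (C.nn j)⁻¹ = C.hh x' y' := by
  have h := C.R.n_H j (C.hh x y) (C.hh_mem x y)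
  obtain ⟨x', y', e'⟩ := C.mem_H.mp h
  exact ⟨x', y', Subtype.ext e'⟩

lemma nn_H' (j : Fin 2) (x y : Kˣ) : ∃ x' y', (C.nn j)⁻¹ * C.hh x y * C.nn j = C.hh x' y' := by
  have h := C.R.n_H' j (C.hh x y) (C.hh_mem x y)
  obtain ⟨x', y', e'⟩ := C.mem_H.mp h
  exact ⟨x', y', Subtype.ext e'⟩

/-- A section over a class. -/
structure Sc (σ : E →* GG K e) (k : ℕ) (R : Subgroup E) : Prop where
  m1 : ∀ w ∈ R, ∃ t u, σ w = C.cl k t u
  m2 : ∀ t u, ∃ w ∈ R, σ w = C.cl k t u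
  inj : ∀ r ∈ R, σ r = 1 → r = 1
  inv : ∀ β x y, σ β = C.hh x y → ∀ r ∈ R, cj β r ∈ R

variable {C}

lemma Sc.ext {k : ℕ} {R : Subgroup E} (h : C.Sc σ k R) {a b : E} (ha : a ∈ R) (hb : b ∈ R) (e1 : σ a = σ b) : a = b := by
  have h1 := h.inj (a * b⁻¹) (R.mul_mem ha (R.inv_mem hb)) (by rw [map_mul, map_inv, e1, mul_inv_cancel])
  exact mul_inv_eq_one.mp h1

theorem Sc.transfer {k k' : ℕ} {R : Subgroup E} (h : C.Sc σ k R) {n : E}
    (hk : ∀ t u, σ n * C.cl k t u * (σ n)⁻¹ = C.cl k' t u)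
    (hH : ∀ x y, ∃ x' y', (σ n)⁻¹ * C.hh x y * σ n = C.hh x' y') :
    C.Sc σ k' (R.map (MulAut.conj n).toMonoidHom) := by
  refine ⟨?_, ?_, ?_, ?_⟩
  · rintro _ ⟨r, hr, rfl⟩
    obtain ⟨t, u, h1⟩ := h.m1 r hr
    refine ⟨t, u, ?_⟩
    show σ (n * r * n⁻¹) = _
    simp only [map_mul, map_inv]
    rw [h1, hk]
  · intro t u
    obtain ⟨w, hw, h1⟩ := h.m2 t u
    refine ⟨n * w * n⁻¹, ⟨w, hw, rfl⟩, ?_⟩
    simp only [map_mul, map_inv]
    rw [h1, hk]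
  · rintro _ ⟨r, hr, rfl⟩ h1
    have h2 : σ (n * r * n⁻¹) = 1 := h1
    simp only [map_mul, map_inv] at h2
    have h3 : σ r = 1 := by
      have h4 : σ n * σ r * (σ n)⁻¹ * σ n = σ n := by rw [h2, one_mul]
      simpa using h4
    rw [h.inj r hr h3]
    simp
  · rintro β x y hβ _ ⟨r, hr, rfl⟩
    obtain ⟨x', y', h1⟩ := hH x y
    have h2 : σ (n⁻¹ * β * n) = C.hh x' y' := by
      simp only [map_mul, map_inv]
      rw [hβ, h1]
    refine ⟨cj (n⁻¹ * β * n) r, h.inv _ _ _ h2 r hr, ?_⟩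
    show n * ((n⁻¹ * β * n) * r * (n⁻¹ * β * n)⁻¹) * n⁻¹ = β * (n * r * n⁻¹) * β⁻¹
    group

variable (C)

/-- Normalising a class. -/
lemma clS_conj {k : ℕ} (h1 : 1 ≤ k) (h8 : k ≤ 8) {β : E} {x y : Kˣ} (hβ : σ β = C.hh x y) :
    ∀ w ∈ (C.clS h1 h8).comap σ, cj β w ∈ (C.clS h1 h8).comap σ := by
  rintro w ⟨t, u, hw⟩
  show ∃ t u, σ (cj β w) = C.cl k t u
  rw [map_cj, hβ, hw]
  exact ⟨_, _, C.hh_cl k x y t u⟩

/-- The section over the first class. -/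
theorem exists_R1 [Finite E] (hq : 8 ≤ Fintype.card K) (hs : Function.Surjective σ) (hc : σ.ker ≤ Subgroup.center E)
    (h2 : Ker2 σ) : ∃ R, C.Sc σ 1 R := by
  obtain ⟨a, ha, -⟩ := C.exists_unit
  obtain ⟨g, hg⟩ := hs (C.hh a 1)
  have hinvg : ∀ t : K, σ g * C.cl 1 t 0 * (σ g)⁻¹ = C.cl 1 ((a : K) * t) 0 := by
    intro t
    rw [hg, C.hh_cl]
    exact C.cl_odd (Or.inl rfl) _ _ _
  obtain ⟨R, hR, hm, hinj, hinv⟩ := add_sec hs hc h2 hq (fun t : K => C.cl 1 t 0) (fun s t => by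
      rw [C.law (le_refl 1) (by norm_num)]
      exact C.cl_odd (Or.inl rfl) _ _ _)
    (fun l hl => ⟨C.hh (Units.mk0 l hl) 1, fun t => by
      rw [C.hh_cl]
      exact C.cl_odd (Or.inl rfl) _ _ _⟩)
    (P := (C.clS (k := 1) le_rfl (by norm_num)).comap σ) (fun w => ⟨fun ⟨t, u, h⟩ => ⟨t, by
        rw [h]; exact C.cl_odd (Or.inl rfl) _ _ _⟩, fun ⟨t, h⟩ => ⟨t, 0, h⟩⟩)
    (g := g) (l := (a : K)) ha hinvg (odd_card_sub) (unit_pow_card a)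
  refine ⟨R, ⟨fun w hw => hR hw, fun t u => ?_, hinj, fun β x y hβ r hr => ?_⟩⟩
  · obtain ⟨w, hw, e1⟩ := hm t
    exact ⟨w, hw, by rw [e1]; exact C.cl_odd (Or.inl rfl) _ _ _⟩
  · refine hinv β ?_ (C.clS_conj _ _ hβ) r hr
    rw [hβ, hg, hh_comm]

end Cfsg.Agent.Lib.F24.OutF.Ctx
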