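import Cfsg.Agent.Lib.SchF4.A1

/-!
The section over the fourth class.
-/

set_option autoImplicit false
set_option linter.unusedSectionVars false
set_option linter.unusedVariables false
set_option linter.ambiguousOpen false
set_option linter.dupNamespace false
set_option linter.unusedSimpArgs false
set_option maxRecDepth 100000

open scoped MatrixGroups Matrix
open Cfsg _root_.Cfsg.Lie ChevalleyDatum
open Cfsg.Agent.Lib.Chev
open Tables Tables2 Tables3 Raise Basic AxBasic Torus Products Products2 Mono1 Mono2 Mono3 Bn ChevSimple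
open Cfsg.Agent.Lib.Twisted.Fact Cfsg.Agent.Lib.Twisted.Bruhat Cfsg.Agent.Lib.Twisted.Tw
open Cfsg.Agent.Lib.Twisted.Struct Cfsg.Agent.Lib.Twisted.Check Cfsg.Agent.Lib.Twisted.Ortho
open Cfsg.Agent.Lib.Twisted.TorusFix Cfsg.Agent.Lib.Twisted.OutA Cfsg.Agent.Lib.Twisted.OutB
open Cfsg.Agent.Lib.F24.F4Data Cfsg.Agent.Lib.F24.Tw Cfsg.Agent.Lib.F24.WordEq
open Cfsg.Agent.Lib.F24.TD Cfsg.Agent.Lib.F24.Main Cfsg.Agent.Lib.F24.H1 Cfsg.Agent.Lib.F24.PerfF4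
open Cfsg.Agent.Lib.F24.Coll Cfsg.Agent.Lib.F24.Cls Cfsg.Agent.Lib.F24.InvCls Cfsg.Agent.Lib.F24.OutF
open Cfsg.Agent.Lib.SchF4.Cl Cfsg.Agent.Lib.SchF4.Cl2
open Cfsg.Agent.Lib.Twisted.Struct.TD
open Cfsg.Agent.Lib.SchD4.Sys (cj cj_mul cj_one cj_inv cj_cj one_cj cj_inv_cj cj_cj_inv map_cj cj_eq_self_iff)
open Cfsg.Agent.Lib.SchF4.Gen Cfsg.Agent.Lib.SchF4.Sec

namespace Cfsg.Agent.Lib.F24.OutF.Ctx

variable {K : Type*} [Field K] [Fintype K] [CharP K 2] {e : ℕ} (C : Ctx K e)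
variable {E : Type*} [Group E] {σ : E →* GG K e}

lemma G25 (a b c d : K) : C.cl 2 a b * C.cl 5 c d * (C.cl 2 a b)⁻¹ * (C.cl 5 c d)⁻¹ = C.cl 4 0 (C.φ a * C.φ c) :=
  Subtype.ext (comm25 C.ax C.φ C.hφ2 a b c d)

lemma G24 (a b c d : K) : C.cl 2 a b * C.cl 4 c d * (C.cl 2 a b)⁻¹ * (C.cl 4 c d)⁻¹ = C.cl 3 (a * c) 0 :=
  Subtype.ext (comm24 C.ax C.φ C.hφ2 a b c d)

lemma cl3_inv (a b : K) : (C.cl 3 a b)⁻¹ = C.cl 3 a 0 := by
  rw [C.cl_inv (by norm_num) (by norm_num)]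
  exact C.cl_odd (Or.inr (Or.inl rfl)) _ _ _

/-- Additive lifts of the fifth class. -/
structure XH (σ : E →* GG K e) (xh : K → E) : Prop where
  add : ∀ a b, xh (a + b) = xh a * xh b
  map : ∀ a, σ (xh a) = C.cl 5 a 0
  eqv : ∀ β x y, σ β = C.hh x y → ∀ a, cj β (xh a) = xh ((chv C.φ 5 x y : K) * a)

theorem exists_xh {R : Subgroup E} (h : C.Sc σ 5 R) : ∃ xh, C.XH σ xh := by
  choose xh hxR hxσ using fun a : K => h.m2 a 0
  refine ⟨xh, fun a b => ?_, hxσ, fun β x y hβ a => ?_⟩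
  · apply h.ext (hxR _) (R.mul_mem (hxR _) (hxR _))
    rw [map_mul, hxσ, hxσ, hxσ, C.law (by norm_num) (by norm_num)]
    exact C.cl_odd (Or.inr (Or.inr (Or.inl rfl))) _ _ _
  · apply h.ext (h.inv β x y hβ _ (hxR a)) (hxR _)
    rw [map_cj, hβ, hxσ, hxσ, cj, C.hh_cl]
    exact C.cl_odd (Or.inr (Or.inr (Or.inl rfl))) _ _ _

/-- The lift of the centre of the fourth class. -/
def zz (xh : K → E) (A : E) (φ : K →+* K) (c : K) : E := A * xh ((φ c) ^ 2) * A⁻¹ * (xh ((φ c) ^ 2))⁻¹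

lemma φθ (c : K) : C.φ ((C.φ c) ^ 2) = c := by rw [map_pow, C.hφ2]

variable {C} {xh : K → E} {A : E}

lemma comm_of_val {y : E} {b : K} {t : K} (H : C.XH σ xh) (hy : σ y = C.cl 2 t 0) :
    σ (y * xh b * y⁻¹ * (xh b)⁻¹) = C.cl 4 0 (C.φ t * C.φ b) := by
  simp only [map_mul, map_inv]
  rw [hy, H.map, C.G25]

lemma zz_σ (H : C.XH σ xh) (hA : σ A = C.cl 2 1 0) (c : K) : σ (zz xh A C.φ c) = C.cl 4 0 c := by
  rw [zz, comm_of_val H hA, map_one, one_mul, C.φθ]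

lemma units_id1 (a b : Kˣ) : a * b * (b * a ^ 2) * b⁻¹ ^ 2 * ((a ^ 2)⁻¹) ^ 2 = a⁻¹ := by
  ext
  push_cast
  have ha : (a : K) ≠ 0 := a.ne_zero
  have hb : (b : K) ≠ 0 := b.ne_zero
  field_simp

lemma units_id2 (a b : Kˣ) : (b * a ^ 2) * (b⁻¹ * (a ^ 2)⁻¹) = 1 := by
  ext
  push_cast
  have ha : (a : K) ≠ 0 := a.ne_zero
  have hb : (b : K) ≠ 0 := b.ne_zero
  field_simp

variable (C) in
/-- The element of the torus used in the key lemma. -/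
lemma exists_tor (t : Kˣ) : ∃ x y : Kˣ, chv C.φ 2 x y = t ∧ chv C.φ 5 x y = t⁻¹ ∧ chv C.φ 4 x y = 1 := by
  set θ := θu C.φ t with hθ
  refine ⟨t * θ, θ⁻¹, ?_, ?_, ?_⟩
  · show t * θ * θ⁻¹ = t
    group
  · show t * θ * θu C.φ (t * θ) * θ⁻¹ ^ 2 * (θu C.φ θ⁻¹) ^ 2 = t⁻¹
    rw [map_mul, map_inv, hθ, θu_θu C.hφ2]
    exact units_id1 t _
  · show θu C.φ (t * θ) * (θ⁻¹ * θu C.φ θ⁻¹) = 1
    rw [map_mul, map_inv, hθ, θu_θu C.hφ2]
    exact units_id2 t _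

/-- The key lemma. -/
theorem zz_key [Finite E] (hs : Function.Surjective σ) (hc : σ.ker ≤ Subgroup.center E) (h2 : Ker2 σ)
    (H : C.XH σ xh) (hA : σ A = C.cl 2 1 0) {y : E} {t : K} (ht : t ≠ 0) (hy : σ y = C.cl 2 t 0) (b : K) :
    y * xh b * y⁻¹ * (xh b)⁻¹ = zz xh A C.φ (C.φ t * C.φ b) := by
  obtain ⟨x₂, y₂, c2, c5, c4⟩ := C.exists_tor (Units.mk0 t ht)
  obtain ⟨g, hg⟩ := hs (C.hh x₂ y₂)
  have e1 : (C.φ (C.φ t * C.φ b)) ^ 2 = t * b := by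
    rw [map_mul, mul_pow, C.hφ2, C.hφ2]
  have hz := zz_σ H hA (C.φ t * C.φ b)
  rw [zz, e1] at hz ⊢
  set B := xh (t * b) with hB
  -- `g` commutes with the left hand side
  have hfix : g * (A * B * A⁻¹ * B⁻¹) = (A * B * A⁻¹ * B⁻¹) * g := by
    refine comm_of_odd hc h2 (odd_card_sub (K := K)) ?_ ?_
    · rw [hg]
      exact C.hh_pow_card _ _
    · rw [hg, hz]
      exact C.comm_cl 4 c4 _ _
  have h5 : cj g B = xh b := by
    rw [hB, H.eqv g x₂ y₂ hg, c5]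
    congr 1
    show ((Units.mk0 t ht)⁻¹ : Kˣ) * (t * b) = b
    simp only [Units.val_inv_eq_inv_val, Units.val_mk0]
    field_simp
  have h6 : σ (cj g A) = σ y := by
    rw [map_cj, hg, hA, hy, cj, C.hh_cl, c2]
    simp
  have h7 : cj g (A * B * A⁻¹ * B⁻¹) = A * B * A⁻¹ * B⁻¹ := by
    simp only [cj]
    rw [hfix]
    group
  rw [← h7]
  simp only [cj_mul, cj_inv]
  rw [h5]
  have hd : y⁻¹ * cj g A ∈ σ.ker := by
    rw [MonoidHom.mem_ker, map_mul, map_inv, h6, inv_mul_cancel]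
  have h8 := comm_central (a := cj g A) (b := xh b) (q := y) (q' := xh b) (d := y⁻¹ * cj g A) (d' := 1)
    (ker_comm hc hd) (by simp) (by group) (by simp)
  exact h8.symm

/-- The action of the torus. -/
theorem zz_cj [Finite E] (hs : Function.Surjective σ) (hc : σ.ker ≤ Subgroup.center E) (h2 : Ker2 σ)
    (H : C.XH σ xh) (hA : σ A = C.cl 2 1 0) {β : E} {x y : Kˣ} (hβ : σ β = C.hh x y) (c : K) :
    cj β (zz xh A C.φ c) = zz xh A C.φ (C.φ (chv C.φ 2 x y) * C.φ (chv C.φ 5 x y) * c) := by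
  have h1 : σ (cj β A) = C.cl 2 (chv C.φ 2 x y : K) 0 := by
    rw [map_cj, hβ, hA, cj, C.hh_cl]
    simp
  have h3 := zz_key hs hc h2 H hA (chv C.φ 2 x y).ne_zero h1 ((chv C.φ 5 x y : K) * (C.φ c) ^ 2)
  rw [zz]
  simp only [cj_mul, cj_inv]
  rw [H.eqv β x y hβ, h3, map_mul, C.φθ, mul_assoc]

lemma chv_id (x y : Kˣ) : C.φ (chv C.φ 2 x y) * C.φ (chv C.φ 5 x y) = C.φ (chv C.φ 4 x y) * (chv C.φ 4 x y : K) := by
  simp only [chv, Units.val_mul, θu_coe, Units.val_pow_eq_pow_val, map_mul, map_pow, C.hφ2]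
  ring

lemma zz_add [Finite E] (hs : Function.Surjective σ) (hc : σ.ker ≤ Subgroup.center E) (h2 : Ker2 σ)
    (H : C.XH σ xh) (hA : σ A = C.cl 2 1 0) (a b : K) : zz xh A C.φ (a + b) = zz xh A C.φ a * zz xh A C.φ b := by
  have e1 : (C.φ (a + b)) ^ 2 = (C.φ a) ^ 2 + (C.φ b) ^ 2 := by rw [map_add, add_pow_two]; simp [CharTwo.two_eq_zero]
  have h3 : xh ((C.φ a) ^ 2) * zz xh A C.φ b = zz xh A C.φ b * xh ((C.φ a) ^ 2) :=
    (comm_lift C hs hc h2 (i := 4) (j := 5) (by norm_num) (by norm_num) (by norm_num)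
      (C.commG commOne_45) ⟨0, b, zz_σ H hA b⟩ ⟨_, 0, H.map _⟩).symm
  rw [zz, e1, H.add]
  set B₁ := xh ((C.φ a) ^ 2)
  set B₂ := xh ((C.φ b) ^ 2) with hB₂
  have h4 : zz xh A C.φ a = A * B₁ * A⁻¹ * B₁⁻¹ := rfl
  have h5 : zz xh A C.φ b = A * B₂ * A⁻¹ * B₂⁻¹ := rfl
  rw [h5] at h3
  rw [h4, h5]
  calc A * (B₁ * B₂) * A⁻¹ * (B₁ * B₂)⁻¹ = A * B₁ * A⁻¹ * B₁⁻¹ * (B₁ * (A * B₂ * A⁻¹ * B₂⁻¹)) * B₁⁻¹ := by group
    _ = A * B₁ * A⁻¹ * B₁⁻¹ * ((A * B₂ * A⁻¹ * B₂⁻¹) * B₁) * B₁⁻¹ := by rw [h3]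
    _ = _ := by group

/-- The lift of the centre centralises the preimage. -/
theorem zz_P [Finite E] (hs : Function.Surjective σ) (hc : σ.ker ≤ Subgroup.center E) (h2 : Ker2 σ)
    (H : C.XH σ xh) (hA : σ A = C.cl 2 1 0) (c : K) {W : E} {t u : K} (hW : σ W = C.cl 4 t u) :
    W * zz xh A C.φ c = zz xh A C.φ c * W := by
  have hz := zz_σ H hA c
  rw [zz] at hz ⊢
  set B := xh ((C.φ c) ^ 2) with hB
  have hBσ : σ B = C.cl 5 ((C.φ c) ^ 2) 0 := H.map _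
  have h1 : W * B = B * W := comm_lift C hs hc h2 (i := 4) (j := 5) (by norm_num) (by norm_num) (by norm_num)
    (C.commG commOne_45) ⟨_, _, hW⟩ ⟨_, _, hBσ⟩
  set τ := W * A * W⁻¹ * A⁻¹ with hτ
  have hτσ : σ τ = C.cl 3 (1 * t) 0 := by
    have h3 := C.G24 1 0 t u
    have h4 : σ τ = (C.cl 2 1 0 * C.cl 4 t u * (C.cl 2 1 0)⁻¹ * (C.cl 4 t u)⁻¹)⁻¹ := by
      rw [hτ]
      simp only [map_mul, map_inv]
      rw [hW, hA]
      group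
    rw [h4, h3, C.cl3_inv]
  have h5 : τ * B = B * τ := comm_lift C hs hc h2 (i := 3) (j := 5) (by norm_num) (by norm_num) (by norm_num)
    (C.commG commOne_35) ⟨_, _, hτσ⟩ ⟨_, _, hBσ⟩
  have h6 : τ * (A * B * A⁻¹ * B⁻¹) = (A * B * A⁻¹ * B⁻¹) * τ :=
    comm_lift C hs hc h2 (i := 3) (j := 4) (by norm_num) (by norm_num) (by norm_num)
      (C.commG commOne_34) ⟨_, _, hτσ⟩ ⟨_, _, hz⟩
  have h7 : W * A * W⁻¹ = τ * A := by rw [hτ]; group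
  have h8 : W * B * W⁻¹ = B := by rw [h1]; group
  have h9 : τ⁻¹ * B⁻¹ = B⁻¹ * τ⁻¹ := by
    rw [← mul_inv_rev, ← mul_inv_rev, h5]
  have h10 : W * (A * B * A⁻¹ * B⁻¹) * W⁻¹ = A * B * A⁻¹ * B⁻¹ := by
    calc W * (A * B * A⁻¹ * B⁻¹) * W⁻¹ = (W * A * W⁻¹) * (W * B * W⁻¹) * (W * A * W⁻¹)⁻¹ * (W * B * W⁻¹)⁻¹ := by group
      _ = τ * A * B * (A⁻¹ * (τ⁻¹ * B⁻¹)) := by rw [h7, h8]; group
      _ = τ * A * B * (A⁻¹ * (B⁻¹ * τ⁻¹)) := by rw [h9]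
      _ = τ * (A * B * A⁻¹ * B⁻¹) * τ⁻¹ := by group
      _ = (A * B * A⁻¹ * B⁻¹) * τ * τ⁻¹ := by rw [h6]
      _ = _ := by group
  exact mul_inv_eq_iff_eq_mul.mp h10

variable (C)

/-- The section over the fourth class. -/
theorem exists_R4 [Finite E] (hq : 8 ≤ Fintype.card K) (hs : Function.Surjective σ) (hc : σ.ker ≤ Subgroup.center E)
    (h2 : Ker2 σ) {xh : K → E} (H : C.XH σ xh) : ∃ R, C.Sc σ 4 R := by
  obtain ⟨A, hA⟩ := hs (C.cl 2 1 0)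
  obtain ⟨a, ha, -⟩ := C.exists_unit
  have c4 : ∀ l : Kˣ, chv C.φ 4 (φu C.φ l) 1 = l := by
    intro l
    show θu C.φ (φu C.φ l) * (1 * θu C.φ 1) = l
    rw [θu_φu C.hφ2]
    simp
  obtain ⟨g, hg⟩ := hs (C.hh (φu C.φ a) 1)
  have htor : ∀ (l : Kˣ) (t u : K), C.hh (φu C.φ l) 1 * C.cl 4 t u * (C.hh (φu C.φ l) 1)⁻¹ = C.cl 4 ((l : K) * t) (C.φ l * l * u) := by
    intro l t u
    rw [C.hh_cl, c4]
  obtain ⟨R, hR, hm, hinj, hinv⟩ := even_sec hs hc h2 hq (C.cl 4) C.φ (C.law (by norm_num) (by norm_num))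
    (fun c h => by
      have h3 : C.cl 4 0 c = C.cl 4 0 0 := by rw [h, cl_zero]
      exact C.inj_u (Or.inr (Or.inl rfl)) h3)
    (P := (C.clS (k := 4) (by norm_num) (by norm_num)).comap σ) (fun w => Iff.rfl)
    (zz xh A C.φ) (zz_add hs hc h2 H hA) (zz_σ H hA)
    (fun c x hx => by
      obtain ⟨t, u, h⟩ := hx
      exact zz_P hs hc h2 H hA c h)
    (fun l hl => by
      obtain ⟨β, hβ⟩ := hs (C.hh (φu C.φ (Units.mk0 l hl)) 1)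
      refine ⟨β, fun t u => ?_, fun c => ?_⟩
      · rw [hβ, htor]
        rfl
      · rw [zz_cj hs hc h2 H hA hβ, chv_id, c4]
        rfl)
    (g := g) (l := (a : K)) ha (fun t u => by rw [hg, htor]) odd_card_sub (unit_pow_card a)
  refine ⟨R, ⟨fun w hw => hR hw, hm, hinj, fun β x y hβ r hr => ?_⟩⟩
  refine hinv β ?_ (C.clS_conj _ _ hβ) (fun c => ⟨_, zz_cj hs hc h2 H hA hβ c⟩) r hr
  rw [hβ, hg, hh_comm]

end Cfsg.Agent.Lib.F24.OutF.Ctx
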