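import Cfsg.Agent.Lib.SchF4.A2

/-!
Central extensions of `²F₄` with kernel a `2`-group are trivial if they are stem extensions.
-/

set_option autoImplicit false
set_option linter.unusedSectionVars false
set_option linter.unusedVariables false
set_option linter.ambiguousOpen false
set_option linter.dupNamespace false
set_option linter.unusedSimpArgs false
set_option maxRecDepth 100000

open scoped MatrixGroups Matrix
open Cfsg _root_.Cfsg.Lie ChevalleyDatum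
open Cfsg.Agent.Lib.Chev
open Tables Tables2 Tables3 Raise Basic AxBasic Torus Products Products2 Mono1 Mono2 Mono3 Bn ChevSimple
open Cfsg.Agent.Lib.Twisted.Fact Cfsg.Agent.Lib.Twisted.Bruhat Cfsg.Agent.Lib.Twisted.Tw
open Cfsg.Agent.Lib.Twisted.Struct Cfsg.Agent.Lib.Twisted.Check Cfsg.Agent.Lib.Twisted.Ortho
open Cfsg.Agent.Lib.Twisted.TorusFix Cfsg.Agent.Lib.Twisted.OutA Cfsg.Agent.Lib.Twisted.OutB
open Cfsg.Agent.Lib.F24.F4Data Cfsg.Agent.Lib.F24.Tw Cfsg.Agent.Lib.F24.WordEq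
open Cfsg.Agent.Lib.F24.TD Cfsg.Agent.Lib.F24.Main Cfsg.Agent.Lib.F24.H1 Cfsg.Agent.Lib.F24.PerfF4
open Cfsg.Agent.Lib.F24.Coll Cfsg.Agent.Lib.F24.Cls Cfsg.Agent.Lib.F24.InvCls Cfsg.Agent.Lib.F24.OutF
open Cfsg.Agent.Lib.SchF4.Cl Cfsg.Agent.Lib.SchF4.Cl2
open Cfsg.Agent.Lib.Twisted.Struct.TD
open Cfsg.Agent.Lib.SchD4.Sys (cj cj_mul cj_one cj_inv cj_cj one_cj cj_inv_cj cj_cj_inv map_cj cj_eq_self_iff)
open Cfsg.Agent.Lib.SchF4.Gen Cfsg.Agent.Lib.SchF4.Sec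

namespace Cfsg.Agent.Lib.F24.OutF.Ctx

variable {K : Type*} [Field K] [Fintype K] [CharP K 2] {e : ℕ} (C : Ctx K e)
variable {E : Type*} [Group E] {σ : E →* GG K e}

/-- All the sections. -/
theorem exists_all [Finite E] (hq : 8 ≤ Fintype.card K) (hs : Function.Surjective σ) (hc : σ.ker ≤ Subgroup.center E)
    (h2 : Ker2 σ) : ∃ Rf : ℕ → Subgroup E, ∀ k, 1 ≤ k → k ≤ 8 → C.Sc σ k (Rf k) := by
  obtain ⟨n0, hn0⟩ := hs (C.nn 0)
  obtain ⟨n1, hn1⟩ := hs (C.nn 1)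
  have h0' : ∀ x y, ∃ x' y', (σ n0)⁻¹ * C.hh x y * σ n0 = C.hh x' y' := by
    intro x y
    rw [hn0]
    exact C.nn_H' 0 x y
  have h1' : ∀ x y, ∃ x' y', (σ n1)⁻¹ * C.hh x y * σ n1 = C.hh x' y' := by
    intro x y
    rw [hn1]
    exact C.nn_H' 1 x y
  have h0 : ∀ x y, ∃ x' y', (σ n0⁻¹)⁻¹ * C.hh x y * σ n0⁻¹ = C.hh x' y' := by
    intro x y
    rw [map_inv, inv_inv, hn0]
    exact C.nn_H 0 x y
  have h1 : ∀ x y, ∃ x' y', (σ n1⁻¹)⁻¹ * C.hh x y * σ n1⁻¹ = C.hh x' y' := by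
    intro x y
    rw [map_inv, inv_inv, hn1]
    exact C.nn_H 1 x y
  obtain ⟨R1, hR1⟩ := C.exists_R1 hq hs hc h2
  obtain ⟨R7, hR7⟩ : ∃ R, C.Sc σ 7 R := ⟨_, hR1.transfer (n := n1) (k' := 7) (by rw [hn1]; exact C.nn_1_1) h1'⟩
  obtain ⟨R3, hR3⟩ : ∃ R, C.Sc σ 3 R := ⟨_, hR7.transfer (n := n0) (k' := 3) (by rw [hn0]; exact C.nn_0_7) h0'⟩
  obtain ⟨R5, hR5⟩ : ∃ R, C.Sc σ 5 R := ⟨_, hR3.transfer (n := n1) (k' := 5) (by rw [hn1]; exact C.nn_1_3) h1'⟩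
  obtain ⟨xh, H⟩ := C.exists_xh hR5
  obtain ⟨R4, hR4⟩ := C.exists_R4 hq hs hc h2 H
  obtain ⟨R6, hR6⟩ : ∃ R, C.Sc σ 6 R := ⟨_, hR4.transfer (n := n0⁻¹) (k' := 6) (by
    intro t u
    rw [map_inv, inv_inv, hn0, ← C.nn_0_6]
    group) h0⟩
  obtain ⟨R2, hR2⟩ : ∃ R, C.Sc σ 2 R := ⟨_, hR6.transfer (n := n1⁻¹) (k' := 2) (by
    intro t u
    rw [map_inv, inv_inv, hn1, ← C.nn_1_2]
    group) h1⟩
  obtain ⟨R8, hR8⟩ : ∃ R, C.Sc σ 8 R := ⟨_, hR2.transfer (n := n0⁻¹) (k' := 8) (by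
    intro t u
    rw [map_inv, inv_inv, hn0, ← C.nn_0_8]
    group) h0⟩
  refine ⟨fun k => match k with
    | 1 => R1
    | 2 => R2
    | 3 => R3
    | 4 => R4
    | 5 => R5
    | 6 => R6
    | 7 => R7
    | 8 => R8
    | _ => ⊥, ?_⟩
  intro k h3 h8
  interval_cases k
  · exact hR1
  · exact hR2
  · exact hR3
  · exact hR4
  · exact hR5
  · exact hR6
  · exact hR7
  · exact hR8

/-- One step of the chain. -/
theorem step_chain [Finite E] (hs : Function.Surjective σ) (hc : σ.ker ≤ Subgroup.center E) (h2 : Ker2 σ)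
    {Rf : ℕ → Subgroup E} (hR : ∀ k, 1 ≤ k → k ≤ 8 → C.Sc σ k (Rf k)) {Q : Subgroup E} {i j : ℕ} (hi : 1 ≤ i) (hij : i < j)
    (hj : j ≤ 8) (hQ1 : ∀ k, i < k → k ≤ 8 → Rf k ≤ Q) (hQ2 : ∀ β x y, σ β = C.hh x y → ∀ q ∈ Q, cj β q ∈ Q)
    {a b : E} (ha : a ∈ Rf i) (hb : b ∈ Rf j) : cj a b ∈ Q := by
  obtain ⟨s, hs1, -⟩ := C.exists_unit
  have hs1' : s ≠ 1 := fun h => hs1 (by rw [h]; rfl)
  have hj1 : 1 ≤ j := by omega
  obtain ⟨x, y, hx1, hx2⟩ := sep C.hφ2 (i := i) (j := j) ⟨hi, by omega⟩ ⟨hj1, hj⟩ (by omega) hs1'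
  obtain ⟨g, hg⟩ := hs (C.hh x y)
  have hRj := hR j hj1 hj
  obtain ⟨t, u, htu⟩ := (hR i hi (by omega)).m1 a ha
  have hgx : g * a = a * g := by
    refine comm_of_odd hc h2 (odd_card_sub (K := K)) ?_ ?_
    · rw [hg]
      exact C.hh_pow_card _ _
    · rw [hg, htu]
      exact C.comm_cl i hx1 _ _
  obtain ⟨w, hw, rfl⟩ := fp_surj (hRj.inv g x y hg) (by
    intro r hr hfix
    obtain ⟨t', u', htu'⟩ := hRj.m1 r hr
    apply hRj.inj r hr
    have h3 := congrArg σ hfix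
    rw [map_cj, hg, htu', cj] at h3
    rw [htu']
    exact C.fix_cl hj1 hj hx2 h3) b hb
  refine step_mem hc hgx (hQ2 g x y hg) ?_
  obtain ⟨t', u', htu'⟩ := hRj.m1 w hw
  have hW : ∀ k, i < k → k ≤ 8 → ∀ t u, cG C.ax C.φ k t u ∈ (Q.map σ).map (Subgroup.subtype _) := by
    intro k h3 h8 t u
    obtain ⟨w', hw', e'⟩ := (hR k (by omega) h8).m2 t u
    exact ⟨C.cl k t u, ⟨w', hQ1 k h3 h8 hw', e'⟩, rfl⟩
  obtain ⟨v, ⟨q, hq, e1⟩, e2⟩ := pair_mem C.ax C.φ C.hφ2 _ hi hij hj hW t u t' u'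
  refine ⟨q, hq, ?_⟩
  rw [e1, map_cj, htu, htu', cj]
  exact Subtype.ext e2

/-- The list of subgroups. -/
def tl (Rf : ℕ → Subgroup E) (i : ℕ) : List (Subgroup E) := (List.range' (i + 1) (8 - i)).map Rf

lemma mem_tl {Rf : ℕ → Subgroup E} {i : ℕ} {T : Subgroup E} (h : T ∈ tl Rf i) : ∃ k, i < k ∧ k ≤ 8 ∧ T = Rf k := by
  simp only [tl, List.mem_map, List.mem_range'_1] at h
  obtain ⟨k, hk, rfl⟩ := h
  exact ⟨k, by omega, by omega, rfl⟩

lemma le_tl {Rf : ℕ → Subgroup E} {i k : ℕ} (h1 : i < k) (h8 : k ≤ 8) : Rf k ≤ Qs (tl Rf i) := by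
  apply le_Qs
  simp only [tl, List.mem_map, List.mem_range'_1]
  exact ⟨k, by omega, rfl⟩

lemma tl_succ (Rf : ℕ → Subgroup E) {i : ℕ} (h : i < 8) : tl Rf i = Rf (i + 1) :: tl Rf (i + 1) := by
  have h1 : 8 - i = (8 - (i + 1)) + 1 := by omega
  rw [tl, h1, List.range'_succ]
  rfl

variable {C} in
/-- Sizes of the classes. -/
lemma Sc.card_odd {k : ℕ} {R : Subgroup E} (h : C.Sc σ k R) (hk : IsOdd k) : Nat.card R ≤ Nat.card K := by
  have h1 : ∀ r : R, ∃ t : K, σ r = C.cl k t 0 := by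
    intro r
    obtain ⟨t, u, e1⟩ := h.m1 r r.2
    exact ⟨t, by rw [e1]; exact C.cl_odd hk _ _ _⟩
  choose f hf using h1
  refine Nat.card_le_card_of_injective f ?_
  intro a b hab
  apply Subtype.ext
  apply h.ext a.2 b.2
  rw [hf, hf, hab]

variable {C} in
lemma Sc.card_even {k : ℕ} {R : Subgroup E} (h : C.Sc σ k R) : Nat.card R ≤ Nat.card K ^ 2 := by
  have h1 : ∀ r : R, ∃ p : K × K, σ r = C.cl k p.1 p.2 := by
    intro r
    obtain ⟨t, u, e1⟩ := h.m1 r r.2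
    exact ⟨(t, u), e1⟩
  choose f hf using h1
  have h2 : Nat.card R ≤ Nat.card (K × K) := by
    refine Nat.card_le_card_of_injective f ?_
    intro a b hab
    apply Subtype.ext
    apply h.ext a.2 b.2
    rw [hf, hf, hab]
  rwa [Nat.card_prod, ← sq] at h2

include C in
/-- The theorem for `2`-groups. -/
theorem kerA [Finite E] (hq : 8 ≤ Fintype.card K) (hs : Function.Surjective σ) (hc : σ.ker ≤ Subgroup.center E)
    (hst : σ.ker ≤ commutator E) (h2 : Ker2 σ) : σ.ker = ⊥ := by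
  obtain ⟨Rf, hR⟩ := C.exists_all hq hs hc h2
  have hQ2 : ∀ (i : ℕ) (β : E) (x y : Kˣ), σ β = C.hh x y → ∀ q ∈ Qs (tl Rf i), cj β q ∈ Qs (tl Rf i) := by
    intro i β x y hβ
    apply Qs_conj
    intro T hT q hq
    obtain ⟨k, h1, h8, rfl⟩ := mem_tl hT
    exact le_tl h1 h8 ((hR k (by omega) h8).inv β x y hβ q hq)
  have hN : ∀ i, 1 ≤ i → i ≤ 8 → ∀ x ∈ Rf i, ∀ y ∈ Qs (tl Rf i), cj x y ∈ Qs (tl Rf i) := by
    intro i h1 h8 x hx
    apply Qs_conj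
    intro T hT q hq
    obtain ⟨k, h3, h4, rfl⟩ := mem_tl hT
    exact C.step_chain hs hc h2 hR h1 h3 h4 (fun k' h5 h6 => le_tl h5 h6) (hQ2 i) hx hq
  have hCh : ∀ n, n ≤ 8 → Ch (tl Rf (8 - n)) := by
    intro n
    induction n with
    | zero =>
      intro _
      show Ch (tl Rf 8)
      simp [tl, Ch]
    | succ n ih =>
      intro hn
      have h3 : 8 - (n + 1) + 1 = 8 - n := by omega
      rw [tl_succ Rf (by omega), h3]
      exact ⟨ih (by omega), hN (8 - n) (by omega) (by omega)⟩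
  have hCh0 : Ch (tl Rf 0) := hCh 8 le_rfl
  set Q := Qs (tl Rf 0) with hQ
  have hk : ∀ k, 1 ≤ k → k ≤ 8 → ∀ t u, C.cl k t u ∈ Q.map σ := by
    intro k h1 h8 t u
    obtain ⟨w, hw, e1⟩ := (hR k h1 h8).m2 t u
    exact ⟨w, le_tl (by omega) h8 hw, e1⟩
  have hU : cU chevF4 K (twistedF4 K e) ≤ Q.map σ := by
    intro u hu
    have hu' : u.1 ∈ chevF4.posUnipotent K ⊓ twistedF4 K e := ⟨hu, u.2⟩
    obtain ⟨a1, t2, u2, a3, t4, u4, a5, t6, u6, a7, t8, u8, e1⟩ := InvMain.exists_gg C.ax C.φ C.hφ C.hφ2 hu'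
    have e2 : u = C.cl 1 a1 0 * C.cl 2 t2 u2 * C.cl 3 a3 0 * C.cl 4 t4 u4 * C.cl 5 a5 0 * C.cl 6 t6 u6 * C.cl 7 a7 0 *
        C.cl 8 t8 u8 := Subtype.ext e1
    rw [e2]
    have hh := hk
    exact (Q.map σ).mul_mem ((Q.map σ).mul_mem ((Q.map σ).mul_mem ((Q.map σ).mul_mem ((Q.map σ).mul_mem
      ((Q.map σ).mul_mem ((Q.map σ).mul_mem (hk 1 (by norm_num) (by norm_num) _ _) (hk 2 (by norm_num) (by norm_num) _ _))
      (hk 3 (by norm_num) (by norm_num) _ _)) (hk 4 (by norm_num) (by norm_num) _ _)) (hk 5 (by norm_num) (by norm_num) _ _))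
      (hk 6 (by norm_num) (by norm_num) _ _)) (hk 7 (by norm_num) (by norm_num) _ _)) (hk 8 (by norm_num) (by norm_num) _ _)
  have hcardU : Nat.card (cU chevF4 K (twistedF4 K e)) = Nat.card K ^ 12 := by
    rw [← card_U_F4 C.φ C.hφ C.hφ2 C.ax]
    have e2 : (chevF4.posUnipotent K ⊓ twistedF4 K e).subgroupOf (twistedF4 K e) =
        cU chevF4 K (twistedF4 K e) := Subgroup.inf_subgroupOf_right _ _
    rw [← e2]
    exact Nat.card_congr (Subgroup.subgroupOfEquivOfLe inf_le_right).toEquiv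
  have hcard : Nat.card Q ≤ Nat.card (cU chevF4 K (twistedF4 K e)) := by
    rw [hcardU]
    have h3 := card_Qs_le hCh0
    have e3 : (tl Rf 0).map (fun T : Subgroup E => Nat.card T) = [Nat.card (Rf 1), Nat.card (Rf 2), Nat.card (Rf 3), Nat.card (Rf 4),
      Nat.card (Rf 5), Nat.card (Rf 6), Nat.card (Rf 7), Nat.card (Rf 8)] := rfl
    rw [e3] at h3
    simp only [List.prod_cons, List.prod_nil] at h3
    refine h3.trans ?_
    have c1 := (hR 1 (by norm_num) (by norm_num)).card_odd (Or.inl rfl)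
    have c3 := (hR 3 (by norm_num) (by norm_num)).card_odd (Or.inr (Or.inl rfl))
    have c5 := (hR 5 (by norm_num) (by norm_num)).card_odd (Or.inr (Or.inr (Or.inl rfl)))
    have c7 := (hR 7 (by norm_num) (by norm_num)).card_odd (Or.inr (Or.inr (Or.inr rfl)))
    have c2 := (hR 2 (by norm_num) (by norm_num)).card_even
    have c4 := (hR 4 (by norm_num) (by norm_num)).card_even
    have c6 := (hR 6 (by norm_num) (by norm_num)).card_even
    have c8 := (hR 8 (by norm_num) (by norm_num)).card_even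
    calc _ ≤ Nat.card K * (Nat.card K ^ 2 * (Nat.card K * (Nat.card K ^ 2 * (Nat.card K * (Nat.card K ^ 2 * (Nat.card K * (Nat.card K ^ 2 * 1))))))) :=
          Nat.mul_le_mul c1 (Nat.mul_le_mul c2 (Nat.mul_le_mul c3 (Nat.mul_le_mul c4 (Nat.mul_le_mul c5
            (Nat.mul_le_mul c6 (Nat.mul_le_mul c7 (Nat.mul_le_mul c8 le_rfl)))))))
      _ = Nat.card K ^ 12 := by ring
  have hI : Odd (cU chevF4 K (twistedF4 K e)).index := by
    rw [← Nat.not_even_iff_odd, even_iff_two_dvd]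
    exact C.hI
  exact ker_bot_of_section hs hc hst h2 hU hcard hI

end Cfsg.Agent.Lib.F24.OutF.Ctx
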