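import Cfsg.Agent.Lib.SchD4.Sys
import Cfsg.Agent.Lib.Schur.Stem

/-!
Abstract lemmas on central extensions with kernel a `2`-group: lifting a Sylow `2`-subgroup step by step
with the help of a group of automorphisms of odd order.
-/

set_option autoImplicit false
set_option linter.unusedSectionVars false
set_option linter.unusedVariables false
set_option linter.ambiguousOpen false
set_option linter.unusedSimpArgs false
set_option linter.unusedTactic false
set_option linter.unreachableTactic false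
set_option linter.dupNamespace false

namespace Cfsg.Agent.Lib.SchF4.Gen

open Cfsg.Agent.Lib.SchD4.Sys (cj cj_mul cj_one cj_inv cj_cj one_cj cj_inv_cj cj_cj_inv map_cj cj_eq_self_iff)

universe u v

variable {E : Type u} {G : Type v} [Group E] [Group G] (σ : E →* G)

/-- All elements of the kernel have order a power of `2`. -/
def Ker2 : Prop := ∀ z ∈ σ.ker, ∃ k : ℕ, z ^ (2 ^ k) = 1

lemma eq_one_of_odd {z : E} {n k : ℕ} (hn : Odd n) (h : z ^ n = 1) (hk : z ^ (2 ^ k) = 1) : z = 1 := by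
  have h1 := pow_gcd_eq_one.mpr ⟨h, hk⟩
  have h2 : Nat.gcd n (2 ^ k) = 1 := Nat.Coprime.pow_right k (Nat.coprime_two_right.mpr hn)
  rwa [h2, pow_one] at h1

lemma exists_root_odd {z : E} {n k : ℕ} (hn : Odd n) (hk : z ^ (2 ^ k) = 1) : ∃ e : ℕ, (z ^ e) ^ n = z := by
  rcases Nat.eq_zero_or_pos k with rfl | hk0
  · have : z = 1 := by simpa using hk
    exact ⟨0, by simp [this]⟩
  · have hc : Nat.Coprime n (2 ^ k) := Nat.Coprime.pow_right k (Nat.coprime_two_right.mpr hn)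
    have h1 : 1 < 2 ^ k := Nat.one_lt_two_pow (by omega)
    obtain ⟨e, -, he⟩ := Nat.exists_mul_mod_eq_one_of_coprime hc h1
    refine ⟨e, ?_⟩
    rw [← pow_mul, mul_comm]
    have h2 := Nat.div_add_mod (n * e) (2 ^ k)
    calc z ^ (n * e) = z ^ (2 ^ k * (n * e / 2 ^ k) + n * e % 2 ^ k) := by rw [h2]
      _ = z := by rw [pow_add, pow_mul, hk, one_pow, one_mul, he, pow_one]

variable {σ}

/-- Elements of the kernel are central. -/
lemma ker_comm (hc : σ.ker ≤ Subgroup.center E) {z : E} (hz : z ∈ σ.ker) (y : E) : z * y = y * z :=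
  (Subgroup.mem_center_iff.1 (hc hz) y).symm

/-- An element of odd order in the quotient commuting with the image of `x` commutes with `x`. -/
theorem comm_of_odd (hc : σ.ker ≤ Subgroup.center E) (h2 : Ker2 σ) {g x : E} {n : ℕ} (hn : Odd n)
    (hp : (σ g) ^ n = 1) (hcomm : σ g * σ x = σ x * σ g) : g * x = x * g := by
  set z := g * x * g⁻¹ * x⁻¹ with hzdef
  have hz : z ∈ σ.ker := by
    rw [MonoidHom.mem_ker, hzdef]
    simp only [map_mul, map_inv]
    rw [hcomm]
    group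
  have hzc := ker_comm hc hz
  have hgx : g * x = z * x * g := by
    rw [hzdef]; group
  have hk : ∀ k : ℕ, g ^ k * x = z ^ k * x * g ^ k := by
    intro k
    induction k with
    | zero => simp
    | succ k ih =>
      have hzk : g * z ^ k = z ^ k * g := by
        have : Commute z g := hzc g
        exact (this.pow_left k).symm.eq
      calc g ^ (k + 1) * x = g * (g ^ k * x) := by rw [pow_succ']; group
        _ = g * (z ^ k * x * g ^ k) := by rw [ih]
        _ = (g * z ^ k) * x * g ^ k := by group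
        _ = z ^ k * g * x * g ^ k := by rw [hzk]
        _ = z ^ k * (g * x) * g ^ k := by group
        _ = z ^ k * (z * x * g) * g ^ k := by rw [hgx]
        _ = z ^ (k + 1) * x * g ^ (k + 1) := by rw [pow_succ z k, pow_succ' g k]; group
  have hgn : g ^ n ∈ σ.ker := by
    rw [MonoidHom.mem_ker, map_pow, hp]
  have h3 := hk n
  rw [ker_comm hc hgn x] at h3
  have h4 : z ^ n = 1 := by
    have h5 : z ^ n * (x * g ^ n) = x * g ^ n := by rw [← mul_assoc]; exact h3.symm
    exact mul_eq_right.mp h5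
  obtain ⟨k, hk2⟩ := h2 z hz
  have hz1 := eq_one_of_odd hn h4 hk2
  have : g * x * g⁻¹ * x⁻¹ = 1 := hz1
  have h6 : g * x * g⁻¹ = x := by
    rw [mul_inv_eq_one] at this
    exact this
  rw [mul_inv_eq_iff_eq_mul] at h6
  exact h6

/-- Fixed point free automorphisms are onto on commutators. -/
theorem fp_surj {R : Subgroup E} [Finite R] {g : E} (hg : ∀ x ∈ R, cj g x ∈ R)
    (hfp : ∀ x ∈ R, cj g x = x → x = 1) : ∀ y ∈ R, ∃ w ∈ R, y = cj g w * w⁻¹ := by
  let f : R → R := fun w => ⟨cj g w * (w : E)⁻¹, R.mul_mem (hg _ w.2) (R.inv_mem w.2)⟩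
  have hinj : Function.Injective f := by
    intro a b hab
    have e : cj g (a : E) * (a : E)⁻¹ = cj g (b : E) * (b : E)⁻¹ := congrArg Subtype.val hab
    have hm : (b : E)⁻¹ * a ∈ R := R.mul_mem (R.inv_mem b.2) a.2
    have h1 : cj g ((b : E)⁻¹ * a) = (b : E)⁻¹ * a := by
      rw [cj_mul, cj_inv]
      have e2 : cj g (a : E) = cj g (b : E) * (b : E)⁻¹ * a := by
        rw [← e]; group
      rw [e2]
      group
    have h2 := hfp _ hm h1
    apply Subtype.ext
    have : (b : E) * ((b : E)⁻¹ * a) = b := by rw [h2, mul_one]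
    simpa using this
  intro y hy
  obtain ⟨w, hw⟩ := (Finite.injective_iff_surjective.mp hinj) ⟨y, hy⟩
  exact ⟨w, w.2, (congrArg Subtype.val hw).symm⟩

/-- The step. -/
theorem step_mem (hc : σ.ker ≤ Subgroup.center E) {Q : Subgroup E} {x g w : E} (hgx : g * x = x * g)
    (hgQ : ∀ q ∈ Q, cj g q ∈ Q) (hw : ∃ q ∈ Q, σ q = σ (cj x w)) : cj x (cj g w * w⁻¹) ∈ Q := by
  obtain ⟨q, hq, e⟩ := hw
  set d := q⁻¹ * cj x w with hd
  have hdk : d ∈ σ.ker := by
    rw [MonoidHom.mem_ker, hd, map_mul, map_inv, e, inv_mul_cancel]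
  have hdc := ker_comm hc hdk
  have e1 : cj x w = q * d := by rw [hd]; group
  have e2 : cj x (cj g w) = cj g (cj x w) := by
    simp only [cj]
    have h1 : x * g = g * x := hgx.symm
    have h2 : g⁻¹ * x⁻¹ = x⁻¹ * g⁻¹ := by
      rw [← mul_inv_rev, ← mul_inv_rev, hgx]
    calc x * (g * w * g⁻¹) * x⁻¹ = (x * g) * w * (g⁻¹ * x⁻¹) := by group
      _ = (g * x) * w * (x⁻¹ * g⁻¹) := by rw [h1, h2]
      _ = g * (x * w * x⁻¹) * g⁻¹ := by group
  rw [cj_mul, cj_inv, e2, e1, cj_mul]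
  have e3 : cj g d = d := by
    simp only [cj]
    rw [ker_comm hc hdk g |>.symm]
    group
  rw [e3]
  have e4 : cj g q * d * (q * d)⁻¹ = cj g q * (d * d⁻¹) * q⁻¹ := by
    rw [mul_inv_rev]
    have : d * (d⁻¹ * q⁻¹) = d * d⁻¹ * q⁻¹ := by group
    calc cj g q * d * (d⁻¹ * q⁻¹) = cj g q * (d * (d⁻¹ * q⁻¹)) := by group
      _ = _ := by rw [this]; group
  rw [e4, mul_inv_cancel, mul_one]
  exact Q.mul_mem (hgQ q hq) (Q.inv_mem hq)

/-! ### Chains of subgroups -/

/-- The subgroup generated by a list of subgroups. -/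
def Qs : List (Subgroup E) → Subgroup E
  | [] => ⊥
  | T :: L => T ⊔ Qs L

lemma Qs_le_iff {L : List (Subgroup E)} {S : Subgroup E} : Qs L ≤ S ↔ ∀ T ∈ L, T ≤ S := by
  induction L with
  | nil => simp [Qs]
  | cons T L ih =>
    simp only [Qs, sup_le_iff, List.mem_cons, forall_eq_or_imp, ih]

lemma le_Qs {L : List (Subgroup E)} {T : Subgroup E} (h : T ∈ L) : T ≤ Qs L := (Qs_le_iff.mp le_rfl) T h

lemma Qs_map (f : E →* G) (L : List (Subgroup E)) : (Qs L).map f = Qs (L.map fun T => T.map f) := by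
  induction L with
  | nil => simp [Qs]
  | cons T L ih => simp only [Qs, Subgroup.map_sup, ih, List.map_cons]

/-- Normalising the generators is enough. -/
theorem Qs_conj {L : List (Subgroup E)} {x : E} (h : ∀ T ∈ L, ∀ y ∈ T, cj x y ∈ Qs L) :
    ∀ y ∈ Qs L, cj x y ∈ Qs L := by
  have hle : Qs L ≤ (Qs L).comap (MulAut.conj x).toMonoidHom := by
    rw [Qs_le_iff]
    intro T hT y hy
    exact h T hT y hy
  intro y hy
  exact hle hy

/-- Elements of a product with a normalised subgroup. -/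
theorem sup_form {R Q : Subgroup E} (h : ∀ x ∈ R, ∀ y ∈ Q, cj x y ∈ Q) :
    ∀ g ∈ R ⊔ Q, ∃ r ∈ R, ∃ q ∈ Q, g = r * q := by
  let S : Subgroup E :=
    { carrier := {g | ∃ r ∈ R, ∃ q ∈ Q, g = r * q}
      one_mem' := ⟨1, R.one_mem, 1, Q.one_mem, by simp⟩
      mul_mem' := by
        rintro _ _ ⟨r, hr, q, hq, rfl⟩ ⟨r', hr', q', hq', rfl⟩
        refine ⟨r * r', R.mul_mem hr hr', cj r'⁻¹ q * q', Q.mul_mem (h _ (R.inv_mem hr') _ hq) hq', ?_⟩
        simp only [cj]
        group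
      inv_mem' := by
        rintro _ ⟨r, hr, q, hq, rfl⟩
        refine ⟨r⁻¹, R.inv_mem hr, cj r q⁻¹, h _ hr _ (Q.inv_mem hq), ?_⟩
        simp only [cj]
        group }
  have hle : R ⊔ Q ≤ S := by
    refine sup_le ?_ ?_
    · intro r hr
      exact ⟨r, hr, 1, Q.one_mem, by simp⟩
    · intro q hq
      exact ⟨1, R.one_mem, q, hq, by simp⟩
  intro g hg
  exact hle hg

theorem card_sup_le [Finite E] {R Q : Subgroup E} (h : ∀ x ∈ R, ∀ y ∈ Q, cj x y ∈ Q) :
    Nat.card ↥(R ⊔ Q) ≤ Nat.card R * Nat.card Q := by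
  let f : R × Q → ↥(R ⊔ Q) := fun p => ⟨p.1 * p.2, (R ⊔ Q).mul_mem
    ((le_sup_left : R ≤ R ⊔ Q) p.1.2) ((le_sup_right : Q ≤ R ⊔ Q) p.2.2)⟩
  have hf : Function.Surjective f := by
    rintro ⟨g, hg⟩
    obtain ⟨r, hr, q, hq, rfl⟩ := sup_form h g hg
    exact ⟨(⟨r, hr⟩, ⟨q, hq⟩), rfl⟩
  have h1 := Nat.card_le_card_of_surjective f hf
  rwa [Nat.card_prod] at h1

/-- The chain condition. -/
def Ch : List (Subgroup E) → Prop
  | [] => True
  | R :: L => Ch L ∧ ∀ x ∈ R, ∀ y ∈ Qs L, cj x y ∈ Qs L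

theorem card_Qs_le [Finite E] : ∀ {L : List (Subgroup E)}, Ch L → Nat.card (Qs L) ≤ (L.map fun T : Subgroup E => Nat.card T).prod
  | [], _ => by simp [Qs]
  | R :: L, h => by
    simp only [Qs, List.map_cons, List.prod_cons]
    exact (card_sup_le h.2).trans (Nat.mul_le_mul_left _ (card_Qs_le h.1))

lemma comm_central {a b q q' d d' : E} (hd : ∀ y, d * y = y * d) (hd' : ∀ y, d' * y = y * d') (ha : a = q * d)
    (hb : b = q' * d') : a * b * a⁻¹ * b⁻¹ = q * q' * q⁻¹ * q'⁻¹ := by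
  subst ha hb
  have hdi : ∀ y, d⁻¹ * y = y * d⁻¹ := by
    intro y
    have := hd y⁻¹
    calc d⁻¹ * y = (y⁻¹ * d)⁻¹ := by group
      _ = (d * y⁻¹)⁻¹ := by rw [hd]
      _ = y * d⁻¹ := by group
  have hdi' : ∀ y, d'⁻¹ * y = y * d'⁻¹ := by
    intro y
    have := hd' y⁻¹
    calc d'⁻¹ * y = (y⁻¹ * d')⁻¹ := by group
      _ = (d' * y⁻¹)⁻¹ := by rw [hd']
      _ = y * d'⁻¹ := by group
  calc q * d * (q' * d') * (q * d)⁻¹ * (q' * d')⁻¹ = q * (d * (q' * d')) * d⁻¹ * q⁻¹ * d'⁻¹ * q'⁻¹ := by group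
    _ = q * ((q' * d') * d) * d⁻¹ * q⁻¹ * d'⁻¹ * q'⁻¹ := by rw [hd]
    _ = q * q' * (d' * q⁻¹) * d'⁻¹ * q'⁻¹ := by group
    _ = q * q' * (q⁻¹ * d') * d'⁻¹ * q'⁻¹ := by rw [hd']
    _ = _ := by group

/-- The final argument: a section over a subgroup of odd index kills the kernel. -/
theorem ker_bot_of_section [Finite E] (hs : Function.Surjective σ) (hc : σ.ker ≤ Subgroup.center E)
    (hst : σ.ker ≤ commutator E) (h2 : Ker2 σ) {Q : Subgroup E} {U : Subgroup G} (hU : U ≤ Q.map σ)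
    (hcard : Nat.card Q ≤ Nat.card U) (hI : Odd U.index) : σ.ker = ⊥ := by
  have : Finite G := Finite.of_surjective σ hs
  -- injectivity on `Q`
  let f : Q → ↥(Q.map σ) := fun q => ⟨σ q, ⟨q, q.2, rfl⟩⟩
  have hf : Function.Surjective f := by
    rintro ⟨_, q, hq, rfl⟩
    exact ⟨⟨q, hq⟩, rfl⟩
  have hle : Nat.card Q ≤ Nat.card ↥(Q.map σ) := hcard.trans (Nat.card_le_card_of_injective (Subgroup.inclusion hU)
    (Subgroup.inclusion_injective hU))
  have hbij := hf.bijective_of_nat_card_le hle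
  have hinj : ∀ q ∈ Q, σ q = 1 → q = 1 := by
    intro q hq h1
    have : f ⟨q, hq⟩ = f 1 := by
      apply Subtype.ext
      show σ q = σ 1
      rw [h1, map_one]
    have := hbij.1 this
    exact congrArg Subtype.val this
  rw [eq_bot_iff]
  intro c hck
  rw [Subgroup.mem_bot]
  set S : Subgroup E := U.comap σ with hS
  have hpow := Cfsg.Agent.Lib.Schur.Stem.pow_index_mem_commutator S (hc hck) (hst hck)
  have hidx : S.index = U.index := Subgroup.index_comap_of_surjective U hs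
  rw [hidx] at hpow
  have hle2 : (commutator S).map S.subtype ≤ Q := by
    rw [Subgroup.map_le_iff_le_comap, commutator_def, Subgroup.commutator_le]
    rintro ⟨a, ha⟩ - ⟨b, hb⟩ -
    obtain ⟨q, hq, e⟩ := hU ha
    obtain ⟨q', hq', e'⟩ := hU hb
    have h3 : q⁻¹ * a ∈ σ.ker := by
      rw [MonoidHom.mem_ker, map_mul, map_inv, e, inv_mul_cancel]
    have h4 : q'⁻¹ * b ∈ σ.ker := by
      rw [MonoidHom.mem_ker, map_mul, map_inv, e', inv_mul_cancel]
    have h5 : a * b * a⁻¹ * b⁻¹ = q * q' * q⁻¹ * q'⁻¹ := comm_central (ker_comm hc h3) (ker_comm hc h4) (by group) (by group)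
    show a * b * a⁻¹ * b⁻¹ ∈ Q
    rw [h5]
    exact Q.mul_mem (Q.mul_mem (Q.mul_mem hq hq') (Q.inv_mem hq)) (Q.inv_mem hq')
  have hm := hle2 hpow
  have hone := hinj _ hm (by rw [map_pow, MonoidHom.mem_ker.mp hck, one_pow])
  obtain ⟨k, hk⟩ := h2 c hck
  exact eq_one_of_odd hI hone hk

end Cfsg.Agent.Lib.SchF4.Gen
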