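import Cfsg.Agent.Lib.SchF4.Blk2
import Cfsg.Agent.Lib.SchD4.G1
import Cfsg.Agent.Lib.SchF4.Gen

/-!
The Weyl elements on the torus of `²F₄`, and the homomorphism from `SL₂`.
-/

set_option autoImplicit false
set_option linter.unusedSectionVars false
set_option linter.unusedVariables false
set_option linter.ambiguousOpen false
set_option linter.dupNamespace false
set_option linter.unusedSimpArgs false
set_option maxRecDepth 100000

open scoped MatrixGroups Matrix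
open Cfsg _root_.Cfsg.Lie ChevalleyDatum
open Cfsg.Agent.Lib.Chev
open Tables Tables2 Tables3 Raise Basic AxBasic Torus Products Products2 Mono1 Mono2 Mono3 Bn ChevSimple
open Cfsg.Agent.Lib.Twisted.Fact Cfsg.Agent.Lib.Twisted.Bruhat Cfsg.Agent.Lib.Twisted.Tw
open Cfsg.Agent.Lib.Twisted.Struct Cfsg.Agent.Lib.Twisted.Check Cfsg.Agent.Lib.Twisted.Ortho
open Cfsg.Agent.Lib.Twisted.TorusFix Cfsg.Agent.Lib.Twisted.OutA Cfsg.Agent.Lib.Twisted.OutB
open Cfsg.Agent.Lib.F24.F4Data Cfsg.Agent.Lib.F24.Tw Cfsg.Agent.Lib.F24.WordEq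
open Cfsg.Agent.Lib.F24.TD Cfsg.Agent.Lib.F24.Main Cfsg.Agent.Lib.F24.H1 Cfsg.Agent.Lib.F24.PerfF4
open Cfsg.Agent.Lib.F24.Coll Cfsg.Agent.Lib.F24.Cls Cfsg.Agent.Lib.F24.InvCls Cfsg.Agent.Lib.F24.OutF
open Cfsg.Agent.Lib.SchF4.Cl Cfsg.Agent.Lib.SchF4.Cl2
open Cfsg.Agent.Lib.Twisted.Struct.TD
open Cfsg.Agent.Lib.SchD4.Sys (cj cj_mul cj_one cj_inv cj_cj one_cj cj_inv_cj cj_cj_inv map_cj cj_eq_self_iff)
open Cfsg.Agent.Lib.SchF4.Gen

namespace Cfsg.Agent.Lib.F24.OutF.Ctx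

variable {K : Type*} [Field K] [Fintype K] [CharP K 2] {e : ℕ} (C : Ctx K e)
variable {E : Type*} [Group E] {σ : E →* GG K e}

open Cfsg.Agent.Lib.SchD4.G (mapK mapK_up mapK_lo comm_gens)
open Cfsg.Agent.Lib.SchD4.SL2 (dg n0 sl_induction ext_sl)
open Cfsg.Agent.Lib.Chev.SL2 Cfsg.Agent.Lib.Chev.SL2Chev Cfsg.Agent.Lib.TorD4.Root

lemma nn_eq_R (j : Fin 2) : C.nn j = C.R.n j := rfl

lemma chi22 (x y : Kˣ) : chi chevF4 (Vv C.φ x y) 22 = y⁻¹ := by
  rw [chi_coef _ 22 0 0 (-1) 0 (by decide +kernel)]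
  simp [vec4]

/-- The second Weyl element on the torus. -/
theorem nn1_hh (x y : Kˣ) : C.nn 1 * C.hh x y * (C.nn 1)⁻¹ = C.hh (chv C.φ 7 x y) y⁻¹ := by
  have hg := C.R.n_H (1 : Fin 2) _ (C.hh_mem x y)
  obtain ⟨a, b, hab⟩ := C.mem_H.mp hg
  obtain ⟨c, H⟩ := C.T.n_nor (1 : Fin 2)
  have he : C.T.n (1 : Fin 2) * tor chevF4 (vec4 (φu C.φ x) (φu C.φ y) y x) * (C.T.n (1 : Fin 2))⁻¹ =
      tor chevF4 (vec4 (φu C.φ a) (φu C.φ b) b a) := hab
  have h32 := C.chi_of_conj H he ⟨32, by decide⟩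
  have h22 := C.chi_of_conj H he ⟨22, by decide⟩
  have e32 : ((C.T.w (1 : Fin 2) ⟨32, by decide⟩ : Fin chevF4.nroots) : ℕ) = 24 :=
    (wPw_val hF (wl_lt (1 : Fin 2)) _).trans (by decide +kernel)
  have e22 : ((C.T.w (1 : Fin 2) ⟨22, by decide⟩ : Fin chevF4.nroots) : ℕ) = 25 :=
    (wPw_val hF (wl_lt (1 : Fin 2)) _).trans (by decide +kernel)
  rw [e32] at h32
  rw [e22] at h22
  have h4 := tb7_1 C.φ C.hφ2 x y
  have h5 := C.chi22 x y
  obtain ⟨-, h6, -, h7, -⟩ := chi_vals2 a b C.φ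
  have h8 : a = chv C.φ 7 x y := by
    rw [← h4, ← h6]
    exact h32
  have h9 : b = y⁻¹ := by
    rw [← h5, ← h7]
    exact h22
  rw [← h8, ← h9]
  exact Subtype.ext hab

theorem nn0_hh (x y : Kˣ) : C.nn 0 * C.hh x y * (C.nn 0)⁻¹ = C.hh x⁻¹ (x * y) := C.n0_conj_hh x y

/-- The product of the Weyl elements. -/
noncomputable def tt : GG K e := C.nn 0 * C.nn 1

lemma tt_hh (x y : Kˣ) : C.tt * C.hh x y * C.tt⁻¹ = C.hh (x * y ^ 2 * θu C.φ y)⁻¹ (x * y * θu C.φ y) := by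
  have e1 : C.tt * C.hh x y * C.tt⁻¹ = C.nn 0 * (C.nn 1 * C.hh x y * (C.nn 1)⁻¹) * (C.nn 0)⁻¹ := by
    rw [tt]
    group
  rw [e1, nn1_hh, nn0_hh]
  show C.hh (x * y ^ 2 * θu C.φ y)⁻¹ (x * y ^ 2 * θu C.φ y * y⁻¹) = _
  congr 1
  ext
  push_cast
  have hy : (y : K) ≠ 0 := y.ne_zero
  field_simp

lemma tt2_hh (x y : Kˣ) : (C.tt * C.tt) * C.hh x y * (C.tt * C.tt)⁻¹ =
    C.hh (x⁻¹ * (θu C.φ x)⁻¹ * (y ^ 2)⁻¹ * ((θu C.φ y) ^ 2)⁻¹) (θu C.φ x * y * θu C.φ y) := by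
  have e1 : (C.tt * C.tt) * C.hh x y * (C.tt * C.tt)⁻¹ = C.tt * (C.tt * C.hh x y * C.tt⁻¹) * C.tt⁻¹ := by group
  rw [e1, tt_hh, tt_hh]
  simp only [map_mul, map_inv, map_pow, θu_θu C.hφ2]
  generalize θu C.φ x = a
  generalize θu C.φ y = b
  congr 1
  · ext
    push_cast
    have hx : (x : K) ≠ 0 := x.ne_zero
    have hy : (y : K) ≠ 0 := y.ne_zero
    have ha : (a : K) ≠ 0 := a.ne_zero
    have hb : (b : K) ≠ 0 := b.ne_zero
    field_simp
  · ext
    push_cast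
    have hx : (x : K) ≠ 0 := x.ne_zero
    have hy : (y : K) ≠ 0 := y.ne_zero
    have ha : (a : K) ≠ 0 := a.ne_zero
    have hb : (b : K) ≠ 0 := b.ne_zero
    field_simp

/-- The fourth power of the product of the Weyl elements inverts the torus. -/
theorem tt4_hh (x y : Kˣ) : (C.tt * C.tt * (C.tt * C.tt)) * C.hh x y * (C.tt * C.tt * (C.tt * C.tt))⁻¹ = C.hh x⁻¹ y⁻¹ := by
  have e1 : (C.tt * C.tt * (C.tt * C.tt)) * C.hh x y * (C.tt * C.tt * (C.tt * C.tt))⁻¹ =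
      (C.tt * C.tt) * ((C.tt * C.tt) * C.hh x y * (C.tt * C.tt)⁻¹) * (C.tt * C.tt)⁻¹ := by group
  rw [e1, tt2_hh, tt2_hh]
  simp only [map_mul, map_inv, map_pow, θu_θu C.hφ2]
  generalize θu C.φ x = a
  generalize θu C.φ y = b
  congr 1
  · ext
    push_cast
    have hx : (x : K) ≠ 0 := x.ne_zero
    have hy : (y : K) ≠ 0 := y.ne_zero
    have ha : (a : K) ≠ 0 := a.ne_zero
    have hb : (b : K) ≠ 0 := b.ne_zero
    field_simp
  · ext
    push_cast
    have hx : (x : K) ≠ 0 := x.ne_zero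
    have hy : (y : K) ≠ 0 := y.ne_zero
    have ha : (a : K) ≠ 0 := a.ne_zero
    have hb : (b : K) ≠ 0 := b.ne_zero
    field_simp

lemma sq_eq_one_units {a : Kˣ} (h : a⁻¹ = a) : a = 1 := by
  have h1 : a * a = 1 := by
    nth_rw 1 [← h]
    simp
  have h2 : ((a : K) + 1) ^ 2 = 0 := by
    have h3 : (a : K) * a = 1 := by
      rw [← Units.val_mul, h1, Units.val_one]
    rw [CharTwo.add_sq, sq, h3]
    simp [CharTwo.add_self_eq_zero]
  have h4 : (a : K) + 1 = 0 := pow_eq_zero_iff (by norm_num) |>.mp h2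
  apply Units.ext
  exact CharTwo.add_eq_zero.mp h4

/-- The word of the eighth power. -/
def w8 : List ℕ := ([0, 3, 1, 2, 1, 2] ++ [0, 3, 1, 2, 1, 2]) ++ ([0, 3, 1, 2, 1, 2] ++ [0, 3, 1, 2, 1, 2]) ++
  (([0, 3, 1, 2, 1, 2] ++ [0, 3, 1, 2, 1, 2]) ++ ([0, 3, 1, 2, 1, 2] ++ [0, 3, 1, 2, 1, 2]))

theorem w8_id : ∀ s : Fin chevF4.nroots, wWord chevF4 w8 s = s := by decide +kernel

/-- The eighth power of the product of the Weyl elements is trivial. -/
theorem tt8 : C.tt * C.tt * (C.tt * C.tt) * (C.tt * C.tt * (C.tt * C.tt)) = 1 := by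
  have hl : ∀ i ∈ w8, i < chevF4.rank := by decide
  obtain ⟨c, H⟩ := exists_isNor_nw hF hF2 C.ax hl
  have hval : ∀ s, wPw hF w8 s = s := fun s => Fin.ext ((wPw_val hF hl s).trans (w8_id s))
  have hpos : ∀ s : Fin chevF4.nroots, chevF4.IsPosRoot s → chevF4.IsPosRoot (wPw hF w8 s) := by
    intro s hs
    rwa [hval]
  have hmono : nw chevF4 C.ax w8 ∈ chevF4.monomialSubgroup K := nw_mem_monomial_aux hF hF2 C.ax hl
  have hd := mem_H_of_pos hF hF2 C.ax hmono H hpos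
  set g := C.tt * C.tt * (C.tt * C.tt) * (C.tt * C.tt * (C.tt * C.tt)) with hg
  have e1 : g.1 = nw chevF4 C.ax w8 := by
    have h6 : nw chevF4 C.ax [0, 3, 1, 2, 1, 2] = C.tt.1 := by
      show _ = nw chevF4 C.ax [0, 3] * nw chevF4 C.ax [1, 2, 1, 2]
      rw [← nw_append]
      rfl
    simp only [w8, nw_append, h6]
    rfl
  have hmem : g ∈ cH chevF4 K (twistedF4 K e) := by
    show g.1 ∈ chevF4.diagonalSubgroup K
    rw [e1]
    exact hd
  obtain ⟨a, b, hab⟩ := C.mem_H.mp hmem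
  have hgab : g = C.hh a b := Subtype.ext hab
  have hc : (C.tt * C.tt * (C.tt * C.tt)) * g * (C.tt * C.tt * (C.tt * C.tt))⁻¹ = g := by
    rw [hg]
    generalize C.tt * C.tt * (C.tt * C.tt) = z
    rw [mul_assoc, mul_assoc, mul_inv_cancel, mul_one]
  rw [hgab, tt4_hh] at hc
  obtain ⟨h1, h2⟩ := C.hh_inj hc
  rw [hgab, sq_eq_one_units h1, sq_eq_one_units h2, hh_one]

/-! ### The homomorphism from `SL₂` -/

/-- The homomorphism of a root. -/
noncomputable def fr (r : ℕ) (hr : r < chevF4.nroots) : SL(2, K) →* GL chevF4.Idx K := fH hF hF2 C.ax hr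

lemma fr_up (r : ℕ) (hr : r < chevF4.nroots) (t : K) : C.fr r hr (upM t) = xG C.ax r t :=
  phiHom_up (rankOneRel hF hF2 C.ax hr) t

lemma fr_lo (r : ℕ) (hr : r < chevF4.nroots) (t : K) : C.fr r hr (loM t) = xG C.ax (chevF4.neg r) t :=
  phiHom_lo (rankOneRel hF hF2 C.ax hr) t

theorem n14 : chevF4.neg 33 = 14 := by decide +kernel
theorem n23 : chevF4.neg 24 = 23 := by decide +kernel

lemma cpF {r s : ℕ} (H : CommPair chevF4 s r) (a b : K) : xG C.ax r a * xG C.ax s b = xG C.ax s b * xG C.ax r a :=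
  H.comm C.ax b a

lemma fr_comm (M N : SL(2, K)) :
    (C.fr 33 (by decide)).comp (mapK C.φ) M * C.fr 24 (by decide) N =
      C.fr 24 (by decide) N * (C.fr 33 (by decide)).comp (mapK C.φ) M :=
  comm_gens _ _
    (fun s t => by simp only [MonoidHom.comp_apply, mapK_up, mapK_lo, fr_up, fr_lo, n14, n23]; exact C.cpF (by decide +kernel) _ _)
    (fun s t => by simp only [MonoidHom.comp_apply, mapK_up, mapK_lo, fr_up, fr_lo, n14, n23]; exact C.cpF (by decide +kernel) _ _)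
    (fun s t => by simp only [MonoidHom.comp_apply, mapK_up, mapK_lo, fr_up, fr_lo, n14, n23]; exact C.cpF (by decide +kernel) _ _)
    (fun s t => by simp only [MonoidHom.comp_apply, mapK_up, mapK_lo, fr_up, fr_lo, n14, n23]; exact C.cpF (by decide +kernel) _ _)
    M N

/-- The homomorphism `ψ`. -/
noncomputable def psi : SL(2, K) →* GL chevF4.Idx K :=
  MonoidHom.mk' (fun M => (C.fr 33 (by decide)).comp (mapK C.φ) M * C.fr 24 (by decide) M) (by
    intro a b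
    rw [map_mul, map_mul]
    have h := C.fr_comm b a
    calc _ = (C.fr 33 (by decide)).comp (mapK C.φ) a * ((C.fr 33 (by decide)).comp (mapK C.φ) b * C.fr 24 (by decide) a) * C.fr 24 (by decide) b := by group
      _ = _ := by rw [h]; group)

lemma psi_apply (M : SL(2, K)) : C.psi M = C.fr 33 (by decide) (mapK C.φ M) * C.fr 24 (by decide) M := rfl

lemma psi_up (t : K) : C.psi (upM t) = xG C.ax 33 (C.φ t) * xG C.ax 24 t := by
  rw [psi_apply, mapK_up, fr_up, fr_up]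

lemma psi_lo (t : K) : C.psi (loM t) = xG C.ax 14 (C.φ t) * xG C.ax 23 t := by
  rw [psi_apply, mapK_lo, fr_lo, fr_lo, n14, n23]

lemma psi_mem (M : SL(2, K)) : C.psi M ∈ twistedF4 K e := by
  refine sl_induction (P := fun M => C.psi M ∈ twistedF4 K e) (by simp [Subgroup.one_mem]) ?_ ?_ ?_ M
  · intro t
    rw [psi_up]
    exact (C.x0 t).2
  · intro t
    rw [psi_lo]
    exact (C.y0 t).2
  · intro a b ha hb
    rw [map_mul]
    exact Subgroup.mul_mem _ ha hb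

/-- The homomorphism into the group. -/
noncomputable def psiG : SL(2, K) →* GG K e := C.psi.codRestrict _ C.psi_mem

lemma psiG_up (t : K) : C.psiG (upM t) = C.x0 t := Subtype.ext (C.psi_up t)
lemma psiG_lo (t : K) : C.psiG (loM t) = C.y0 t := Subtype.ext (C.psi_lo t)

lemma n0_eq' : (n0 : SL(2, K)) = upM 1 * loM (-1) * upM 1 := Cfsg.Agent.Lib.SchD4.G.n0_eq

lemma fr_n0 (r : ℕ) (hr : r < chevF4.nroots) : C.fr r hr n0 = nG C.ax r 1 := by
  rw [n0_eq', map_mul, map_mul, fr_up, fr_lo, nG]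
  simp

lemma mapK_n0 : mapK C.φ (n0 : SL(2, K)) = n0 := by
  rw [n0_eq', map_mul, map_mul, mapK_up, mapK_lo]
  simp

lemma psiG_n0 : C.psiG n0 = C.nn 0 := by
  apply Subtype.ext
  show C.psi n0 = nF C.ax 0
  rw [psi_apply, mapK_n0, fr_n0, fr_n0]
  have e1 : chevF4.simple 0 = 33 := by decide +kernel
  have e2 : chevF4.simple 3 = 24 := by decide +kernel
  show _ = nw chevF4 C.ax [0, 3]
  simp [nw, sG, e1, e2]

end Cfsg.Agent.Lib.F24.OutF.Ctx
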