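import Cfsg.Agent.Lib.SchF4.B1

set_option autoImplicit false
set_option linter.unusedSectionVars false
set_option linter.unusedVariables false
set_option linter.ambiguousOpen false
set_option linter.dupNamespace false
set_option linter.unusedSimpArgs false
set_option maxRecDepth 100000

open scoped MatrixGroups Matrix
open Cfsg _root_.Cfsg.Lie ChevalleyDatum
open Cfsg.Agent.Lib.Chev
open Tables Tables2 Tables3 Raise Basic AxBasic Torus Products Products2 Mono1 Mono2 Mono3 Bn ChevSimple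
open Cfsg.Agent.Lib.Twisted.Fact Cfsg.Agent.Lib.Twisted.Bruhat Cfsg.Agent.Lib.Twisted.Tw
open Cfsg.Agent.Lib.Twisted.Struct Cfsg.Agent.Lib.Twisted.Check Cfsg.Agent.Lib.Twisted.Ortho
open Cfsg.Agent.Lib.Twisted.TorusFix Cfsg.Agent.Lib.Twisted.OutA Cfsg.Agent.Lib.Twisted.OutB
open Cfsg.Agent.Lib.F24.F4Data Cfsg.Agent.Lib.F24.Tw Cfsg.Agent.Lib.F24.WordEq
open Cfsg.Agent.Lib.F24.TD Cfsg.Agent.Lib.F24.Main Cfsg.Agent.Lib.F24.H1 Cfsg.Agent.Lib.F24.PerfF4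
open Cfsg.Agent.Lib.F24.Coll Cfsg.Agent.Lib.F24.Cls Cfsg.Agent.Lib.F24.InvCls Cfsg.Agent.Lib.F24.OutF
open Cfsg.Agent.Lib.SchF4.Cl Cfsg.Agent.Lib.SchF4.Cl2
open Cfsg.Agent.Lib.Twisted.Struct.TD
open Cfsg.Agent.Lib.SchD4.Sys (cj cj_mul cj_one cj_inv cj_cj one_cj cj_inv_cj cj_cj_inv map_cj cj_eq_self_iff)
open Cfsg.Agent.Lib.SchF4.Gen

namespace Cfsg.Agent.Lib.F24.OutF.Ctx

variable {K : Type*} [Field K] [Fintype K] [CharP K 2] {e : ℕ} (C : Ctx K e)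
variable {E : Type*} [Group E] {σ : E →* GG K e}

/-- The monomial subgroup. -/
noncomputable def Mo (C : Ctx K e) : Subgroup (GG K e) := (chevF4.monomialSubgroup K).subgroupOf (twistedF4 K e)

lemma H_le_Mo : cH chevF4 K (twistedF4 K e) ≤ C.Mo := by
  intro g hg
  exact Subgroup.mem_subgroupOf.mpr ((le_sup_left : chevF4.diagonalSubgroup K ≤ _) (Subgroup.mem_subgroupOf.mp hg))

lemma nn_mem_Mo (j : Fin 2) : C.nn j ∈ C.Mo :=
  Subgroup.mem_subgroupOf.mpr (C.T.n_mono j)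

lemma U_Mo {g : GG K e} (hU : g ∈ cU chevF4 K (twistedF4 K e)) (hM : g ∈ C.Mo) : g = 1 := by
  have h1 : (g : GL chevF4.Idx K) ∈ chevF4.posUnipotent K ⊓ chevF4.monomialSubgroup K :=
    ⟨Subgroup.mem_subgroupOf.mp hU, Subgroup.mem_subgroupOf.mp hM⟩
  rw [U_inf_monomial hF hF2 C.ax, Subgroup.mem_bot] at h1
  exact Subtype.ext h1

/-- Conjugation on the complement. -/
theorem hYA (j : Fin 2) {a y : GG K e} (ha : a ∈ C.R.A j) (hy : y ∈ C.R.Y j) : a * y * a⁻¹ ∈ C.R.Y j := by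
  have ha' : (a : GL chevF4.Idx K) ∈ rootClosure C.ax (Psi chevF4 (C.T.J j)) := Subgroup.mem_subgroupOf.mp ha
  have hy' : (y : GL chevF4.Idx K) ∈ rootClosure C.ax (Co chevF4 (C.T.J j)) := Subgroup.mem_subgroupOf.mp hy
  exact Subgroup.mem_subgroupOf.mpr (U_conj_Co hF C.ax _ (psi_le_U C.ax _ ha') hy')

/-- The dichotomy. -/
theorem hdich_Mo {n : GG K e} (hn : n ∈ C.Mo) (j : Fin 2) :
    (∀ a ∈ C.R.A j, n⁻¹ * a * n ∈ C.R.U) ∨ (∀ a ∈ C.R.A j, n⁻¹ * (C.R.n j * a * (C.R.n j)⁻¹) * n ∈ C.R.U) := by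
  have hnm : (n : GL chevF4.Idx K) ∈ chevF4.monomialSubgroup K := Subgroup.mem_subgroupOf.mp hn
  have hnF := C.T.G1_le n.2
  obtain ⟨π, c, H⟩ := exists_isNor hF hF2 C.ax hnm
  have Hi := H.inv hF C.ax
  have hcomm := (twF C.φ C.ax).comm_rho_of_fix hF2 (Subgroup.inv_mem _ hnF) Hi
  rcases C.T.dichotomy hF2 (Subgroup.inv_mem _ hnm) Hi hcomm j with hp | hq
  · left
    intro a ha
    have ha' : (a : GL chevF4.Idx K) ∈ rootClosure C.ax (Psi chevF4 (C.T.J j)) := Subgroup.mem_subgroupOf.mp ha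
    have h1 := conj_closure Hi (fun r hr => hr.1.1) (Q := chevF4.IsPosRoot) (fun r hr => hp r hr) ha'
    refine Subgroup.mem_subgroupOf.mpr ?_
    rw [posUnipotent_eq C.ax]
    simpa using h1
  · right
    intro a ha
    have ha' : (a : GL chevF4.Idx K) ∈ rootClosure C.ax (Psi chevF4 (C.T.J j)) := Subgroup.mem_subgroupOf.mp ha
    have hz : ((C.R.n j * a * (C.R.n j)⁻¹ : GG K e) : GL chevF4.Idx K) ∈ rootClosure C.ax (NPsi chevF4 (C.T.J j)) :=
      Subgroup.mem_subgroupOf.mp (C.R.n_A j a ha)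
    have h7 := conj_closure Hi (P := NPsi chevF4 (C.T.J j)) (Q := chevF4.IsPosRoot) (fun r hr => hr.1) (fun r hr => ?_) hz
    · refine Subgroup.mem_subgroupOf.mpr ?_
      rw [posUnipotent_eq C.ax]
      simpa using h7
    · have h8 := hq (negF hF r) hr.2
      rw [Hi.neg] at h8
      exact (isNegRoot_neg hF (π⁻¹ r).isLt).mp h8

end Cfsg.Agent.Lib.F24.OutF.Ctx
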