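import Cfsg.Agent.Lib.SchF4.Gen
import Cfsg.Agent.Lib.SchD4.Abs
import Cfsg.Agent.Lib.Twisted.OutA

/-!
The closure argument for a central extension of odd kernel, in the language of `Twisted.OutA.RD`.
-/

set_option autoImplicit false
set_option linter.unusedSectionVars false
set_option linter.unusedVariables false
set_option linter.ambiguousOpen false
set_option linter.unusedSimpArgs false
set_option linter.unusedTactic false
set_option linter.unreachableTactic false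
set_option linter.dupNamespace false

namespace Cfsg.Agent.Lib.SchF4.Clo

open Cfsg.Agent.Lib.SchD4.Sys (cj cj_mul cj_one cj_inv cj_cj one_cj cj_inv_cj cj_cj_inv map_cj cj_eq_self_iff)
open Cfsg.Agent.Lib.Twisted.OutA
open Cfsg.Agent.Lib.SchF4.Gen
open Cfsg.Agent.Lib.SchD4.Abs

universe u v

variable {E : Type u} {G : Type v} [Group E] [Group G] {σ : E →* G}

/-- Elements whose order is a power of `2`. -/
def Tw (x : E) : Prop := ∃ k : ℕ, x ^ (2 ^ k) = 1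

lemma Tw.conj {x : E} (hx : Tw x) (g : E) : Tw (g * x * g⁻¹) := by
  obtain ⟨k, hk⟩ := hx
  refine ⟨k, ?_⟩
  rw [conj_pow, hk]
  simp

lemma Tw.inv {x : E} (hx : Tw x) : Tw x⁻¹ := by
  obtain ⟨k, hk⟩ := hx
  exact ⟨k, by rw [inv_pow, hk, inv_one]⟩

lemma eq_one_of_odd_order {z : E} (h : Odd (orderOf z)) {k : ℕ} (hk : z ^ (2 ^ k) = 1) : z = 1 :=
  eq_one_of_odd h (pow_orderOf_eq_one z) hk

/-- The preimage of a `2`-subgroup splits. -/
theorem exists_lift2 [Finite E] (hs : Function.Surjective σ) (hc : σ.ker ≤ Subgroup.center E)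
    (hodd : ∀ z ∈ σ.ker, Odd (orderOf z)) {P : Subgroup G} (hP : IsPGroup 2 P) :
    ∃ S : Subgroup E, (∀ x ∈ S, σ x ∈ P) ∧ (∀ g ∈ P, ∃ x ∈ S, σ x = g) ∧ (∀ x ∈ S, σ x = 1 → x = 1) ∧
      (∀ x, σ x ∈ P → Tw x → x ∈ S) ∧ (∀ x ∈ S, Tw x) := by
  haveI : Finite G := Finite.of_surjective σ hs
  set Ph := P.comap σ with hPh
  set f : Ph →* G := σ.comp Ph.subtype with hf
  set Z := f.ker with hZ
  haveI : Fact (Nat.Prime 2) := ⟨Nat.prime_two⟩
  have hZodd : Odd (Nat.card Z) := by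
    by_contra hne
    rw [Nat.not_odd_iff_even] at hne
    have h2 : 2 ∣ Nat.card Z := hne.two_dvd
    obtain ⟨x, hx⟩ := exists_prime_orderOf_dvd_card' 2 h2
    have h3 : x.1.1 ∈ σ.ker := by
      have : f x.1 = 1 := x.2
      exact this
    have h4 := hodd _ h3
    have h5 : orderOf x.1.1 = 2 := by
      rw [← hx]
      have e1 : orderOf x.1.1 = orderOf x.1 := Subgroup.orderOf_coe x.1
      have e2 : orderOf x.1 = orderOf x := Subgroup.orderOf_coe x
      rw [e1, e2]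
    rw [h5] at h4
    exact absurd h4 (by decide)
  have hidx : ∃ a : ℕ, Z.index = 2 ^ a := by
    rw [hZ, Subgroup.index_ker]
    have hp : IsPGroup 2 f.range := by
      intro x
      obtain ⟨y, hy⟩ := x.2
      have hm : f y ∈ P := y.2
      obtain ⟨k, hk⟩ := hP ⟨f y, hm⟩
      refine ⟨k, ?_⟩
      apply Subtype.ext
      have := congrArg Subtype.val hk
      simp only [Subgroup.coe_pow, Subgroup.coe_one] at this ⊢
      rw [← hy]
      exact this
    obtain ⟨a, ha⟩ := IsPGroup.iff_card.mp hp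
    exact ⟨a, ha⟩
  obtain ⟨a, ha⟩ := hidx
  have hcop : Nat.Coprime (Nat.card Z) Z.index := by
    rw [ha]
    exact Nat.Coprime.pow_right a (Nat.coprime_two_right.mpr hZodd)
  obtain ⟨H, hH⟩ := Subgroup.exists_right_complement'_of_coprime hcop
  have hdis : Disjoint Z H := hH.disjoint
  have hinj : ∀ x : Ph, x ∈ H → σ x.1 = 1 → x = 1 := by
    intro x hx h1
    have hz : x ∈ Z := h1
    have := Subgroup.disjoint_def.mp hdis hz hx
    exact this
  have hmul : ∀ y : Ph, ∃ z ∈ Z, ∃ h ∈ H, y = z * h := by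
    intro y
    obtain ⟨⟨z, h⟩, e⟩ := (Subgroup.isComplement'_def.mp hH).surjective y
    exact ⟨z.1, z.2, h.1, h.2, e.symm⟩
  have hTw : ∀ x : Ph, x ∈ H → Tw x.1 := by
    intro x hx
    have hm : σ x.1 ∈ P := x.2
    obtain ⟨k, hk⟩ := hP ⟨σ x.1, hm⟩
    have hk' : (σ x.1) ^ (2 ^ k) = 1 := by
      have := congrArg Subtype.val hk
      simpa using this
    refine ⟨k, ?_⟩
    have h1 : x ^ (2 ^ k) = 1 := by
      apply hinj _ (H.pow_mem hx _)
      simpa using hk'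
    have := congrArg Subtype.val h1
    simpa using this
  refine ⟨H.map Ph.subtype, ?_, ?_, ?_, ?_, ?_⟩
  · rintro _ ⟨x, -, rfl⟩
    exact x.2
  · intro g hg
    obtain ⟨y, rfl⟩ := hs g
    have hy : y ∈ Ph := hg
    obtain ⟨z, hz, h, hh, e⟩ := hmul ⟨y, hy⟩
    refine ⟨h.1, ⟨h, hh, rfl⟩, ?_⟩
    have e1 : y = z.1 * h.1 := congrArg Subtype.val e
    have e2 : σ z.1 = 1 := hz
    rw [e1, map_mul, e2, one_mul]
  · rintro _ ⟨x, hx, rfl⟩ h1
    have := hinj x hx h1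
    rw [this]
    rfl
  · rintro x hx ⟨k, hk⟩
    have hxP : x ∈ Ph := hx
    obtain ⟨z, hz, h, hh, e⟩ := hmul ⟨x, hxP⟩
    have e1 : x = z.1 * h.1 := congrArg Subtype.val e
    have hzk : z.1 ∈ σ.ker := hz
    obtain ⟨l, hl⟩ := hTw h hh
    have hcomm : Commute z.1 h.1 := ker_comm hc hzk h.1
    have h3 : z.1 ^ (2 ^ (k + l)) = 1 := by
      have h4 : x ^ (2 ^ (k + l)) = 1 := by
        rw [pow_add, pow_mul, hk, one_pow]
      rw [e1, hcomm.mul_pow] at h4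
      have h5 : h.1 ^ (2 ^ (k + l)) = 1 := by
        rw [add_comm, pow_add, pow_mul, hl, one_pow]
      rwa [h5, mul_one] at h4
    have h6 := eq_one_of_odd_order (hodd _ hzk) h3
    rw [e1, h6, one_mul]
    exact ⟨h, hh, rfl⟩
  · rintro _ ⟨x, hx, rfl⟩
    exact hTw x hx

/-- The closure argument. -/
theorem ker_bot_abs [Finite E] {ι : Type*} (R : RD G ι) (hs : Function.Surjective σ) (hc : σ.ker ≤ Subgroup.center E)
    (hst : σ.ker ≤ commutator E) (Uh : Subgroup E) (hU1 : ∀ x ∈ Uh, σ x ∈ R.U) (hU2 : ∀ g ∈ R.U, ∃ x ∈ Uh, σ x = g)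
    (hU3 : ∀ x ∈ Uh, σ x = 1 → x = 1) (hU4 : ∀ x, σ x ∈ R.U → Tw x → x ∈ Uh) (hU5 : ∀ x ∈ Uh, Tw x)
    (Nh : Subgroup E) (hN : ∀ x ∈ Nh, σ x = 1 → x = 1) (hUN : ∀ x ∈ Nh, σ x ∈ R.U → σ x = 1)
    (nh : ι → E) (hnN : ∀ j, nh j ∈ Nh) (hnσ : ∀ j, σ (nh j) = R.n j) (hnn : ∀ j, nh j * nh j = 1)
    (hYA : ∀ j, ∀ a ∈ R.A j, ∀ y ∈ R.Y j, a * y * a⁻¹ ∈ R.Y j)
    (hdich : ∀ ν ∈ Nh, ∀ j, (∀ a ∈ R.A j, (σ ν)⁻¹ * a * σ ν ∈ R.U) ∨
      (∀ a ∈ R.A j, (σ ν)⁻¹ * (R.n j * a * (R.n j)⁻¹) * σ ν ∈ R.U))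
    (hrk : ∀ j, ∀ a ∈ Uh, σ a ∈ R.A j → σ a ≠ 1 → ∃ a₁ ∈ Uh, σ a₁ ∈ R.A j ∧ ∃ a₂ ∈ Uh, σ a₂ ∈ R.A j ∧
      ∃ h ∈ Nh, σ h ∈ R.H ∧ cj (nh j) a = a₁ * (h * nh j) * a₂) : σ.ker = ⊥ := by
  have hnh_inv : ∀ j, (nh j)⁻¹ = nh j := fun j => inv_eq_of_mul_eq_one_left (hnn j)
  -- left multiplication
  have hclosed : ∀ j, ∀ a ∈ Uh, σ a ∈ R.A j → ∀ g ∈ UNU Uh Nh, cj (nh j) a * g ∈ UNU Uh Nh := by
    intro j
    set Ab : Subgroup E := Uh ⊓ (R.A j).comap σ with hAb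
    set M : Subgroup E := Uh ⊓ (R.Y j).comap σ with hM
    let x : Additive Ab → E := fun a => ((Additive.toMul a : Ab) : E)
    let y : Additive Ab → E := fun a => cj (nh j) (x a)
    have hxU : ∀ a, x a ∈ Uh := fun a => (Additive.toMul a : Ab).2.1
    have hxA : ∀ a, σ (x a) ∈ R.A j := fun a => (Additive.toMul a : Ab).2.2
    have hMU : M ≤ Uh := inf_le_left
    have hform : ∀ u ∈ Uh, ∃ a, ∃ m ∈ M, u = x a * m := by
      intro u hu
      obtain ⟨a₀, ha₀, y₀, hy₀, e⟩ := R.U_fac j _ (hU1 u hu)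
      obtain ⟨â, hâ, eâ⟩ := hU2 a₀ (R.A_le j ha₀)
      obtain ⟨ŷ, hŷ, eŷ⟩ := hU2 y₀ (R.Y_le j hy₀)
      refine ⟨Additive.ofMul ⟨â, hâ, by show σ â ∈ R.A j; rw [eâ]; exact ha₀⟩, ŷ,
        ⟨hŷ, by show σ ŷ ∈ R.Y j; rw [eŷ]; exact hy₀⟩, ?_⟩
      have h1 : (â * ŷ)⁻¹ * u = 1 := by
        apply hU3 _ (Uh.mul_mem (Uh.inv_mem (Uh.mul_mem hâ hŷ)) hu)
        rw [map_mul, map_inv, map_mul, eâ, eŷ, e, inv_mul_cancel]
      have h2 : u = â * ŷ := by
        rw [inv_mul_eq_one] at h1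
        exact h1.symm
      exact h2
    have hxM : ∀ a, ∀ m ∈ M, x a * m * (x a)⁻¹ ∈ M := by
      intro a m hm
      refine ⟨Uh.mul_mem (Uh.mul_mem (hxU a) hm.1) (Uh.inv_mem (hxU a)), ?_⟩
      show σ (x a * m * (x a)⁻¹) ∈ R.Y j
      rw [map_mul, map_mul, map_inv]
      exact hYA j _ (hxA a) _ hm.2
    have hyM : ∀ a, ∀ m ∈ M, y a * m * (y a)⁻¹ ∈ M := by
      intro a m hm
      have hmem : σ (y a * m * (y a)⁻¹) ∈ R.Y j := by
        have e : σ (y a * m * (y a)⁻¹) = R.n j * (σ (x a) * ((R.n j)⁻¹ * σ m * R.n j) * (σ (x a))⁻¹) * (R.n j)⁻¹ := by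
          simp only [y, cj, map_mul, map_inv, hnσ]
          group
        rw [e]
        exact R.n_Y j _ (hYA j _ (hxA a) _ (R.n_Y' j _ hm.2))
      exact ⟨hU4 _ (R.Y_le j hmem) ((hU5 m hm.1).conj _), hmem⟩
    have hxadd : ∀ a b, x a * x b = x (a + b) := fun a b => rfl
    have hyadd : ∀ a b, y a * y b = y (a + b) := by
      intro a b
      show cj (nh j) (x a) * cj (nh j) (x b) = cj (nh j) (x a * x b)
      rw [cj_mul]
    have hy : ∀ t, y t = 1 ∨ ∃ a b, ∃ n ∈ Nh, y t = x a * n * x b := by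
      intro t
      by_cases h1 : σ (x t) = 1
      · left
        have := hU3 _ (hxU t) h1
        show cj (nh j) (x t) = 1
        rw [this, cj_one]
      · right
        obtain ⟨a₁, ha₁, ha₁', a₂, ha₂, ha₂', h, hh, -, e⟩ := hrk j _ (hxU t) (hxA t) h1
        exact ⟨Additive.ofMul ⟨a₁, ha₁, ha₁'⟩, Additive.ofMul ⟨a₂, ha₂, ha₂'⟩, h * nh j, Nh.mul_mem hh (hnN j), e⟩
    have hx : ∀ t, x t = 1 ∨ ∃ a b, ∃ n ∈ Nh, x t = y a * n * y b ∧ ∀ c, ∃ d, n⁻¹ * x c * n = y d := by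
      intro t
      by_cases h1 : σ (x t) = 1
      · left
        exact hU3 _ (hxU t) h1
      · right
        obtain ⟨a₁, ha₁, ha₁', a₂, ha₂, ha₂', h, hh, hhH, e⟩ := hrk j _ (hxU t) (hxA t) h1
        refine ⟨Additive.ofMul ⟨a₁, ha₁, ha₁'⟩, Additive.ofMul ⟨a₂, ha₂, ha₂'⟩, nh j * h, Nh.mul_mem (hnN j) hh, ?_, ?_⟩
        · show x t = cj (nh j) a₁ * (nh j * h) * cj (nh j) a₂
          have e1 : x t = (nh j)⁻¹ * cj (nh j) (x t) * nh j := by
            simp only [cj]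
            group
          rw [e1, e]
          simp only [cj]
          calc (nh j)⁻¹ * (a₁ * (h * nh j) * a₂) * nh j = nh j * (a₁ * (h * nh j) * a₂) * (nh j)⁻¹ := by
                rw [hnh_inv]
            _ = _ := by group
        · intro c
          have hh' : (nh j)⁻¹ * h⁻¹ * nh j ∈ Nh :=
            Nh.mul_mem (Nh.mul_mem (Nh.inv_mem (hnN j)) (Nh.inv_mem hh)) (hnN j)
          have hh'H : σ ((nh j)⁻¹ * h⁻¹ * nh j) ∈ R.H := by
            have e : σ ((nh j)⁻¹ * h⁻¹ * nh j) = (R.n j)⁻¹ * (σ h)⁻¹ * R.n j := by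
              simp only [map_mul, map_inv, hnσ]
            rw [e]
            exact R.n_H' j _ (R.H.inv_mem hhH)
          set h' := (nh j)⁻¹ * h⁻¹ * nh j with hh'def
          have hA : σ (h' * x c * h'⁻¹) ∈ R.A j := by
            rw [map_mul, map_mul, map_inv]
            exact R.H_A j _ hh'H _ (hxA c)
          refine ⟨Additive.ofMul ⟨h' * x c * h'⁻¹, hU4 _ (R.A_le j hA) ((hU5 _ (hxU c)).conj _), hA⟩, ?_⟩
          show (nh j * h)⁻¹ * x c * (nh j * h) = cj (nh j) (h' * x c * h'⁻¹)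
          simp only [cj, hh'def]
          calc (nh j * h)⁻¹ * x c * (nh j * h) = h⁻¹ * (nh j)⁻¹ * x c * nh j * h := by group
            _ = h⁻¹ * nh j * x c * (nh j)⁻¹ * h := by rw [hnh_inv]
            _ = _ := by group
    have hdich' : ∀ ν ∈ Nh, (∀ c, ν⁻¹ * x c * ν ∈ Uh) ∨ (∀ c, ν⁻¹ * y c * ν ∈ Uh) := by
      intro ν hν
      rcases hdich ν hν j with h | h
      · left
        intro c
        refine hU4 _ ?_ ?_
        · rw [map_mul, map_mul, map_inv]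
          exact h _ (hxA c)
        · have := (hU5 _ (hxU c)).conj ν⁻¹
          rwa [inv_inv] at this
      · right
        intro c
        refine hU4 _ ?_ ?_
        · have e : σ (ν⁻¹ * y c * ν) = (σ ν)⁻¹ * (R.n j * σ (x c) * (R.n j)⁻¹) * σ ν := by
            simp only [y, cj, map_mul, map_inv, hnσ]
          rw [e]
          exact h _ (hxA c)
        · have := (((hU5 _ (hxU c)).conj (nh j))).conj ν⁻¹
          rwa [inv_inv] at this
    intro a ha hA g hg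
    exact left_closed Uh Nh M x y hxU hMU hform hxM hyM hxadd hyadd hy hx hdich'
      (Additive.ofMul ⟨a, ha, hA⟩) hg
  set Y : Set E := (Uh : Set E) ∪ {g | ∃ j, ∃ a ∈ Uh, σ a ∈ R.A j ∧ g = cj (nh j) a} with hY
  set S₀ := Subgroup.closure Y with hS₀
  have hS : ∀ g ∈ S₀, g ∈ UNU Uh Nh := by
    intro g hg
    induction hg using Subgroup.closure_induction_left with
    | one => exact one_mem_UNU _ _
    | mul_left x hx y hy ih =>
      rcases hx with hx | ⟨j, a, ha, hA, rfl⟩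
      · exact left_mem_UNU hx ih
      · exact hclosed j a ha hA _ ih
    | inv_mul_cancel x hx y hy ih =>
      rcases hx with hx | ⟨j, a, ha, hA, rfl⟩
      · exact left_mem_UNU (Uh.inv_mem hx) ih
      · rw [← cj_inv]
        refine hclosed j a⁻¹ (Uh.inv_mem ha) ?_ _ ih
        rw [map_inv]
        exact Subgroup.inv_mem _ hA
  have hlift : ∀ e : E, ∃ s ∈ S₀, σ s = σ e := by
    have hle : Subgroup.closure ((⋃ j, (R.A j : Set G)) ∪ Set.range R.n) ≤ S₀.map σ := by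
      rw [Subgroup.closure_le]
      rintro x (hx | ⟨j, rfl⟩)
      · obtain ⟨j, hj⟩ := Set.mem_iUnion.mp hx
        obtain ⟨â, hâ, e⟩ := hU2 x (R.A_le j hj)
        exact ⟨â, Subgroup.subset_closure (Or.inl hâ), e⟩
      · obtain ⟨a, ha, y', hy', a', ha', e⟩ := R.form j
        have ha'' := R.n_A' j y' hy'
        obtain ⟨â, hâ, e1⟩ := hU2 a (R.A_le j ha)
        obtain ⟨â', hâ', e2⟩ := hU2 a' (R.A_le j ha')
        obtain ⟨â'', hâ'', e3⟩ := hU2 _ (R.A_le j ha'')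
        refine ⟨â * cj (nh j) â'' * â', Subgroup.mul_mem _ (Subgroup.mul_mem _ (Subgroup.subset_closure (Or.inl hâ))
          (Subgroup.subset_closure (Or.inr ⟨j, â'', hâ'', by rw [e3]; exact ha'', rfl⟩)))
          (Subgroup.subset_closure (Or.inl hâ')), ?_⟩
        simp only [cj, map_mul, map_inv, hnσ, e1, e2, e3]
        rw [e]
        group
    intro e
    have h1 : σ e ∈ Subgroup.closure ((⋃ j, (R.A j : Set G)) ∪ Set.range R.n) := by
      rw [R.gen]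
      exact Subgroup.mem_top _
    obtain ⟨s, hs', e'⟩ := hle h1
    exact ⟨s, hs', e'⟩
  have hcom : commutator E ≤ S₀ := by
    rw [commutator_def, Subgroup.commutator_le]
    intro a _ b _
    obtain ⟨s, hs', e1⟩ := hlift a
    obtain ⟨s', hs'', e2⟩ := hlift b
    have h3 : s⁻¹ * a ∈ σ.ker := by
      rw [MonoidHom.mem_ker, map_mul, map_inv, e1, inv_mul_cancel]
    have h4 : s'⁻¹ * b ∈ σ.ker := by
      rw [MonoidHom.mem_ker, map_mul, map_inv, e2, inv_mul_cancel]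
    have h5 : a * b * a⁻¹ * b⁻¹ = s * s' * s⁻¹ * s'⁻¹ :=
      comm_central (ker_comm hc h3) (ker_comm hc h4) (by group) (by group)
    rw [commutatorElement_def, h5]
    exact Subgroup.mul_mem _ (Subgroup.mul_mem _ (Subgroup.mul_mem _ hs' hs'') (Subgroup.inv_mem _ hs')) (Subgroup.inv_mem _ hs'')
  have hall : ∀ e : E, e ∈ S₀ := by
    intro e
    obtain ⟨s, hs', e1⟩ := hlift e
    have h1 : s⁻¹ * e ∈ σ.ker := by
      rw [MonoidHom.mem_ker, map_mul, map_inv, e1, inv_mul_cancel]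
    have : e = s * (s⁻¹ * e) := by group
    rw [this]
    exact Subgroup.mul_mem _ hs' (hcom (hst h1))
  rw [eq_bot_iff]
  intro k hk
  rw [Subgroup.mem_bot]
  have hk1 : σ k = 1 := hk
  obtain ⟨û, hû, ν, hν, û', hû', rfl⟩ := hS k (hall k)
  have h1 : σ ν = (σ û)⁻¹ * (σ û')⁻¹ := by
    rw [map_mul, map_mul] at hk1
    have : σ ν = (σ û)⁻¹ * (σ û * σ ν * σ û') * (σ û')⁻¹ := by group
    rw [this, hk1]
    group
  have h2 : σ ν ∈ R.U := by
    rw [h1]
    exact R.U.mul_mem (R.U.inv_mem (hU1 _ hû)) (R.U.inv_mem (hU1 _ hû'))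
  have h3 := hN ν hν (hUN ν hν h2)
  rw [h3, mul_one] at hk1 ⊢
  exact hU3 _ (Uh.mul_mem hû hû') (by simpa using hk1)

end Cfsg.Agent.Lib.SchF4.Clo
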