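import Cfsg.Agent.Lib.SchF4.B2a
import Cfsg.Agent.Lib.SchF4.Clo
import Cfsg.Agent.Lib.SchF4.A1

set_option autoImplicit false
set_option linter.unusedSectionVars false
set_option linter.unusedVariables false
set_option linter.ambiguousOpen false
set_option linter.dupNamespace false
set_option linter.unusedSimpArgs false
set_option maxRecDepth 100000

open scoped MatrixGroups Matrix
open Cfsg _root_.Cfsg.Lie ChevalleyDatum
open Cfsg.Agent.Lib.Chev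
open Tables Tables2 Tables3 Raise Basic AxBasic Torus Products Products2 Mono1 Mono2 Mono3 Bn ChevSimple
open Cfsg.Agent.Lib.Twisted.Fact Cfsg.Agent.Lib.Twisted.Bruhat Cfsg.Agent.Lib.Twisted.Tw
open Cfsg.Agent.Lib.Twisted.Struct Cfsg.Agent.Lib.Twisted.Check Cfsg.Agent.Lib.Twisted.Ortho
open Cfsg.Agent.Lib.Twisted.TorusFix Cfsg.Agent.Lib.Twisted.OutA Cfsg.Agent.Lib.Twisted.OutB
open Cfsg.Agent.Lib.F24.F4Data Cfsg.Agent.Lib.F24.Tw Cfsg.Agent.Lib.F24.WordEq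
open Cfsg.Agent.Lib.F24.TD Cfsg.Agent.Lib.F24.Main Cfsg.Agent.Lib.F24.H1 Cfsg.Agent.Lib.F24.PerfF4
open Cfsg.Agent.Lib.F24.Coll Cfsg.Agent.Lib.F24.Cls Cfsg.Agent.Lib.F24.InvCls Cfsg.Agent.Lib.F24.OutF
open Cfsg.Agent.Lib.SchF4.Cl Cfsg.Agent.Lib.SchF4.Cl2
open Cfsg.Agent.Lib.Twisted.Struct.TD
open Cfsg.Agent.Lib.SchD4.Sys (cj cj_mul cj_one cj_inv cj_cj one_cj cj_inv_cj cj_cj_inv map_cj cj_eq_self_iff)
open Cfsg.Agent.Lib.SchF4.Gen

namespace Cfsg.Agent.Lib.F24.OutF.Ctx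

variable {K : Type*} [Field K] [Fintype K] [CharP K 2] {e : ℕ} (C : Ctx K e)
variable {E : Type*} [Group E] {σ : E →* GG K e}

open Cfsg.Agent.Lib.SchF4.Clo

/-- The lifted Weyl elements. -/
structure Lf (C : Ctx K e) (σ : E →* GG K e) where
  hs : Function.Surjective σ
  hc : σ.ker ≤ Subgroup.center E
  hodd : ∀ z ∈ σ.ker, Odd (orderOf z)
  W : E
  V : E
  hW : σ W = C.nn 0
  hV : σ V = C.nn 1
  hWW : W * W = 1
  hVV : V * V = 1

namespace Lf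

variable {C} (L : C.Lf σ)

lemma ker_one (L : C.Lf σ) {z : E} (hz : z ∈ σ.ker) (h : z = z⁻¹) : z = 1 := by
  have h1 : z ^ (2 ^ 1) = 1 := by
    rw [pow_one, pow_two]
    nth_rw 1 [h]
    exact inv_mul_cancel z
  exact eq_one_of_odd_order (L.hodd z hz) h1

lemma W_inv : L.W⁻¹ = L.W := inv_eq_of_mul_eq_one_left L.hWW
lemma V_inv : L.V⁻¹ = L.V := inv_eq_of_mul_eq_one_left L.hVV

/-- The product. -/
def t : E := L.W * L.V

lemma σ_t : σ L.t = C.tt := by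
  rw [t, map_mul, L.hW, L.hV]
  rfl

lemma V_t : L.V * L.t * L.V⁻¹ = L.t⁻¹ := by
  calc L.V * L.t * L.V⁻¹ = L.V * L.W := by rw [t]; group
    _ = L.V⁻¹ * L.W⁻¹ := by rw [V_inv, W_inv]
    _ = L.t⁻¹ := by rw [t]; group

lemma W_t : L.W * L.t * L.W⁻¹ = L.t⁻¹ := by
  calc L.W * L.t * L.W⁻¹ = (L.W * L.W) * L.V * L.W⁻¹ := by rw [t]; group
    _ = L.V⁻¹ * L.W⁻¹ := by rw [L.hWW, one_mul, V_inv]
    _ = L.t⁻¹ := by rw [t]; group

lemma conj_u {s t : E} (h : s * t * s⁻¹ = t⁻¹) : s * (t * t * (t * t)) * s⁻¹ = (t * t * (t * t))⁻¹ := by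
  calc s * (t * t * (t * t)) * s⁻¹ = (s * t * s⁻¹) * (s * t * s⁻¹) * ((s * t * s⁻¹) * (s * t * s⁻¹)) := by group
    _ = _ := by rw [h]; group

/-- The central involution of the Weyl group. -/
def u : E := L.t * L.t * (L.t * L.t)

lemma σ_u : σ L.u = C.tt * C.tt * (C.tt * C.tt) := by
  rw [u, map_mul, map_mul, L.σ_t]

lemma u_sq : L.u * L.u = 1 := by
  have h1 : L.u * L.u ∈ σ.ker := by
    rw [MonoidHom.mem_ker, map_mul, L.σ_u]
    exact C.tt8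
  have h2 : L.V * L.u * L.V⁻¹ = L.u⁻¹ := conj_u L.V_t
  have h3 : L.V * (L.u * L.u) * L.V⁻¹ = (L.u * L.u)⁻¹ := by
    calc L.V * (L.u * L.u) * L.V⁻¹ = (L.V * L.u * L.V⁻¹) * (L.V * L.u * L.V⁻¹) := by group
      _ = _ := by rw [h2]; group
  have h4 : L.V * (L.u * L.u) * L.V⁻¹ = L.u * L.u := by
    rw [← ker_comm L.hc h1 L.V]
    group
  rw [h4] at h3
  exact L.ker_one h1 h3

lemma u_inv : L.u⁻¹ = L.u := inv_eq_of_mul_eq_one_left L.u_sq

lemma V_u : L.V * L.u * L.V⁻¹ = L.u := by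
  have h2 : L.V * L.u * L.V⁻¹ = L.u⁻¹ := conj_u L.V_t
  rw [h2, u_inv]

lemma W_u : L.W * L.u * L.W⁻¹ = L.u := by
  have h2 : L.W * L.u * L.W⁻¹ = L.u⁻¹ := conj_u L.W_t
  rw [h2, u_inv]

/-- The preimage of the torus. -/
def Hh (L : C.Lf σ) : Subgroup E := (cH chevF4 K (twistedF4 K e)).comap σ

lemma mem_Hh {x : E} : x ∈ L.Hh ↔ ∃ a b, σ x = C.hh a b := by
  constructor
  · intro hx
    obtain ⟨a, b, h⟩ := C.mem_H.mp hx
    exact ⟨a, b, Subtype.ext h⟩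
  · rintro ⟨a, b, h⟩
    show σ x ∈ cH chevF4 K (twistedF4 K e)
    rw [h]
    exact C.hh_mem a b

/-- The torus as two homomorphisms. -/
noncomputable def hhA (C : Ctx K e) : Kˣ →* GG K e where
  toFun x := C.hh x 1
  map_one' := C.hh_one
  map_mul' x y := by rw [hh_mul, one_mul]

/-- The torus as two homomorphisms. -/
noncomputable def hhB (C : Ctx K e) : Kˣ →* GG K e where
  toFun y := C.hh 1 y
  map_one' := C.hh_one
  map_mul' x y := by rw [hh_mul, one_mul]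

/-- The preimage of the torus is abelian. -/
theorem Hh_comm {x y : E} (hx : x ∈ L.Hh) (hy : y ∈ L.Hh) : x * y = y * x := by
  obtain ⟨γ, hγ⟩ := IsCyclic.exists_generator (α := Kˣ)
  obtain ⟨e₁, he₁⟩ := L.hs (C.hh γ 1)
  obtain ⟨e₂, he₂⟩ := L.hs (C.hh 1 γ)
  have hcz : ∀ w y : E, w ∈ σ.ker → Commute w y := fun w y hw => ker_comm L.hc hw y
  -- the two generators commute
  have hcomm : e₁ * e₂ = e₂ * e₁ := by
    set n := L.W with hn
    set c := e₁ * e₂ * e₁⁻¹ * e₂⁻¹ with hc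
    have hck : c ∈ σ.ker := by
      rw [MonoidHom.mem_ker, hc]
      simp only [map_mul, map_inv, he₁, he₂]
      rw [hh_comm]
      group
    have h1 : σ (n * e₁ * n⁻¹) = σ (e₁⁻¹ * e₂) := by
      simp only [hn, map_mul, map_inv, he₁, he₂, L.hW]
      rw [nn0_hh, hh_inv, hh_mul]
      simp
    have h2 : σ (n * e₂ * n⁻¹) = σ e₂ := by
      simp only [hn, map_mul, map_inv, he₂, L.hW]
      rw [nn0_hh]
      simp
    have hd1 : (e₁⁻¹ * e₂)⁻¹ * (n * e₁ * n⁻¹) ∈ σ.ker := by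
      rw [MonoidHom.mem_ker, map_mul, map_inv, h1, inv_mul_cancel]
    have hd2 : e₂⁻¹ * (n * e₂ * n⁻¹) ∈ σ.ker := by
      rw [MonoidHom.mem_ker, map_mul, map_inv, h2, inv_mul_cancel]
    have h3 := comm_central (a := n * e₁ * n⁻¹) (b := n * e₂ * n⁻¹) (q := e₁⁻¹ * e₂) (q' := e₂)
      (ker_comm L.hc hd1) (ker_comm L.hc hd2) (by group) (by group)
    have h4 : n * c * n⁻¹ = c := by
      rw [← ker_comm L.hc hck n]
      group
    have h5 : c = e₁⁻¹ * e₂ * e₁ * e₂⁻¹ := by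
      rw [← h4, hc]
      calc n * (e₁ * e₂ * e₁⁻¹ * e₂⁻¹) * n⁻¹
          = (n * e₁ * n⁻¹) * (n * e₂ * n⁻¹) * (n * e₁ * n⁻¹)⁻¹ * (n * e₂ * n⁻¹)⁻¹ := by group
        _ = _ := by rw [h3]; group
    have h6 : c * c = 1 := by
      calc c * c = c * (e₁⁻¹ * (e₂ * e₁ * e₂⁻¹)) := by
            nth_rw 2 [h5]
            group
        _ = e₁⁻¹ * (c * (e₂ * e₁ * e₂⁻¹)) := by
            rw [← mul_assoc, ker_comm L.hc hck e₁⁻¹, mul_assoc]
        _ = 1 := by rw [hc]; group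
    have h7 : c = 1 := L.ker_one hck (eq_inv_of_mul_eq_one_left h6)
    rw [hc] at h7
    have h8 : e₁ * e₂ * e₁⁻¹ = e₂ := by
      rw [← mul_inv_eq_one (a := e₁ * e₂ * e₁⁻¹) (b := e₂)]
      exact h7
    calc e₁ * e₂ = (e₁ * e₂ * e₁⁻¹) * e₁ := by group
      _ = e₂ * e₁ := by rw [h8]
  have hform : ∀ x, x ∈ L.Hh → ∃ i j : ℤ, ∃ z ∈ σ.ker, x = e₁ ^ i * e₂ ^ j * z := by
    intro x hx
    obtain ⟨a, b, hab⟩ := L.mem_Hh.mp hx
    obtain ⟨i, hi⟩ := Subgroup.mem_zpowers_iff.mp (hγ a)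
    obtain ⟨j, hj⟩ := Subgroup.mem_zpowers_iff.mp (hγ b)
    have e1 : C.hh a 1 = (C.hh γ 1) ^ i := by
      rw [← hi]
      exact map_zpow (hhA C) γ i
    have e2 : C.hh 1 b = (C.hh 1 γ) ^ j := by
      rw [← hj]
      exact map_zpow (hhB C) γ j
    refine ⟨i, j, (e₁ ^ i * e₂ ^ j)⁻¹ * x, ?_, by group⟩
    rw [MonoidHom.mem_ker, map_mul, map_inv, map_mul, map_zpow, map_zpow, he₁, he₂, ← e1, ← e2, hab, hh_mul, mul_one,
      one_mul, inv_mul_cancel]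
  obtain ⟨i, j, z, hz, rfl⟩ := hform x hx
  obtain ⟨k, l, z', hz', rfl⟩ := hform y hy
  have hc0 : Commute e₁ e₂ := hcomm
  have hab : Commute (e₁ ^ i * e₂ ^ j) (e₁ ^ k * e₂ ^ l) := by
    apply Commute.mul_left
    · exact Commute.mul_right ((Commute.refl e₁).zpow_zpow i k) (hc0.zpow_zpow i l)
    · exact Commute.mul_right (hc0.symm.zpow_zpow j k) ((Commute.refl e₂).zpow_zpow j l)
  have := Commute.mul_left (Commute.mul_right hab (hcz z' _ hz').symm)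
    (Commute.mul_right (hcz z (e₁ ^ k * e₂ ^ l) hz) (hcz z z' hz))
  exact this

/-- The part of the preimage of the torus inverted by `u`. -/
def H1 : Subgroup E where
  carrier := {x | x ∈ L.Hh ∧ L.u * x * L.u⁻¹ = x⁻¹}
  one_mem' := ⟨L.Hh.one_mem, by simp⟩
  mul_mem' := by
    rintro a b ⟨ha, ha'⟩ ⟨hb, hb'⟩
    refine ⟨L.Hh.mul_mem ha hb, ?_⟩
    calc L.u * (a * b) * L.u⁻¹ = (L.u * a * L.u⁻¹) * (L.u * b * L.u⁻¹) := by group
      _ = a⁻¹ * b⁻¹ := by rw [ha', hb']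
      _ = (b * a)⁻¹ := by group
      _ = (a * b)⁻¹ := by rw [L.Hh_comm hb ha]
  inv_mem' := by
    rintro a ⟨ha, ha'⟩
    refine ⟨L.Hh.inv_mem ha, ?_⟩
    calc L.u * a⁻¹ * L.u⁻¹ = (L.u * a * L.u⁻¹)⁻¹ := by group
      _ = a⁻¹⁻¹ := by rw [ha']

lemma Hh_of_H1 {x : E} (hx : x ∈ L.H1) : x ∈ L.Hh := hx.1

/-- Membership in `H1`. -/
theorem H1_of_inv {s x : E} (hu : s * L.u * s⁻¹ = L.u) (hx : x ∈ L.Hh) (hsx : s * x * s⁻¹ = x⁻¹) : x ∈ L.H1 := by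
  refine ⟨hx, ?_⟩
  obtain ⟨a, b, hab⟩ := L.mem_Hh.mp hx
  set z := L.u * x * L.u⁻¹ * x with hz
  have hzk : z ∈ σ.ker := by
    rw [MonoidHom.mem_ker, hz, map_mul, map_mul, map_mul, map_inv, L.σ_u, hab, tt4_hh, hh_mul]
    simp [hh_one]
  have hHu : L.u * x⁻¹ * L.u⁻¹ ∈ L.Hh := by
    have e1 : L.u * x⁻¹ * L.u⁻¹ = (z * x⁻¹)⁻¹ := by
      rw [hz]
      group
    have h1 : σ (L.u * x⁻¹ * L.u⁻¹) = C.hh a b := by
      rw [e1, map_inv, map_mul, MonoidHom.mem_ker.mp hzk, map_inv, hab]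
      simp
    exact L.mem_Hh.mpr ⟨a, b, h1⟩
  have h1 : s * z * s⁻¹ = z := by
    rw [← ker_comm L.hc hzk s]
    group
  have h2 : s * z * s⁻¹ = L.u * x⁻¹ * L.u⁻¹ * x⁻¹ := by
    calc s * z * s⁻¹ = (s * L.u * s⁻¹) * (s * x * s⁻¹) * (s * L.u * s⁻¹)⁻¹ * (s * x * s⁻¹) := by
          rw [hz]; group
      _ = _ := by rw [hu, hsx]
  have h3 : z = z⁻¹ := by
    have h5 : z = L.u * x⁻¹ * L.u⁻¹ * x⁻¹ := h1.symm.trans h2
    calc z = L.u * x⁻¹ * L.u⁻¹ * x⁻¹ := h5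
      _ = x⁻¹ * (L.u * x⁻¹ * L.u⁻¹) := L.Hh_comm hHu (L.Hh.inv_mem hx)
      _ = z⁻¹ := by rw [hz]; group
  have h4 := L.ker_one hzk h3
  rw [hz] at h4
  exact eq_inv_of_mul_eq_one_left h4

/-- The subgroup generated by the Weyl elements. -/
def S : Subgroup E := Subgroup.closure {L.W, L.V}

lemma W_mem_S : L.W ∈ L.S := Subgroup.subset_closure (by simp)
lemma V_mem_S : L.V ∈ L.S := Subgroup.subset_closure (by simp)

lemma t8 : L.u * L.u = 1 := L.u_sq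

lemma t_pow8 : L.t ^ 8 = 1 := by
  have e : L.t ^ 8 = L.u * L.u := by
    rw [u]
    simp only [pow_succ, pow_zero, one_mul, mul_assoc]
  rw [e, L.u_sq]

lemma W_zpow (k : ℤ) : L.W * L.t ^ k = L.t ^ (-k) * L.W := by
  have h : SemiconjBy L.W L.t L.t⁻¹ := by
    show L.W * L.t = L.t⁻¹ * L.W
    rw [← L.W_t]
    group
  have h2 := h.zpow_right k
  rw [inv_zpow', ] at h2
  exact h2

/-- The elements of `S`. -/
lemma S_form {g : E} (hg : g ∈ L.S) : ∃ k : ℤ, g = L.t ^ k ∨ g = L.t ^ k * L.W := by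
  have hWl : ∀ g : E, (∃ k : ℤ, g = L.t ^ k ∨ g = L.t ^ k * L.W) → ∃ k : ℤ, L.W * g = L.t ^ k ∨ L.W * g = L.t ^ k * L.W := by
    rintro g ⟨k, rfl | rfl⟩
    · exact ⟨-k, Or.inr (L.W_zpow k)⟩
    · refine ⟨-k, Or.inl ?_⟩
      rw [← mul_assoc, L.W_zpow, mul_assoc, L.hWW, mul_one]
  have hVl : ∀ g : E, (∃ k : ℤ, g = L.t ^ k ∨ g = L.t ^ k * L.W) → ∃ k : ℤ, L.V * g = L.t ^ k ∨ L.V * g = L.t ^ k * L.W := by
    rintro g ⟨k, h⟩
    have e : L.V = L.W * L.t := by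
      rw [t, ← mul_assoc, L.hWW, one_mul]
    have h2 := hWl (L.t * g) (by
      rcases h with rfl | rfl
      · exact ⟨k + 1, Or.inl (by rw [zpow_add_one]; exact Commute.self_zpow _ _) ⟩
      · exact ⟨k + 1, Or.inr (by rw [← mul_assoc, zpow_add_one, (Commute.self_zpow L.t k).eq])⟩)
    rw [← mul_assoc, ← e] at h2
    exact h2
  have hP : ∀ x ∈ ({L.W, L.V} : Set E), ∀ g : E, (∃ k : ℤ, g = L.t ^ k ∨ g = L.t ^ k * L.W) →
      ∃ k : ℤ, x * g = L.t ^ k ∨ x * g = L.t ^ k * L.W := by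
    rintro x (rfl | rfl) g h
    · exact hWl g h
    · exact hVl g h
  have hinv : ∀ x ∈ ({L.W, L.V} : Set E), x⁻¹ ∈ ({L.W, L.V} : Set E) := by
    rintro x (rfl | rfl)
    · rw [W_inv]; simp
    · rw [V_inv]; simp
  induction hg using Subgroup.closure_induction_left with
  | one => exact ⟨0, Or.inl (by simp)⟩
  | mul_left x hx y hy ih => exact hP x hx y ih
  | inv_mul_cancel x hx y hy ih => exact hP x⁻¹ (hinv x hx) y ih

/-- The elements of `S` are `2`-elements. -/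
lemma S_tw {g : E} (hg : g ∈ L.S) : Tw g := by
  obtain ⟨k, rfl | rfl⟩ := L.S_form hg
  · refine ⟨3, ?_⟩
    rw [← zpow_natCast, ← zpow_mul, mul_comm, zpow_mul, zpow_natCast]
    rw [show (2 : ℕ) ^ 3 = 8 by norm_num, L.t_pow8, one_zpow]
  · refine ⟨1, ?_⟩
    have e : (L.t ^ k * L.W) ^ (2 ^ 1) = L.t ^ k * (L.W * L.t ^ k) * L.W := by
      rw [pow_one, pow_two]
      group
    rw [e, L.W_zpow, ← mul_assoc, ← zpow_add, add_neg_cancel, zpow_zero, one_mul, L.hWW]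

/-- The conjugation of `H1` by `S`. -/
lemma S_H1 {x : E} (hx : x ∈ L.S) : ∀ y ∈ L.H1, cj x y ∈ L.H1 ∧ cj x⁻¹ y ∈ L.H1 := by
  have hW : ∀ y ∈ L.H1, cj L.W y ∈ L.H1 := by
    rintro y ⟨hy, hy'⟩
    refine ⟨?_, ?_⟩
    · show σ (cj L.W y) ∈ cH chevF4 K (twistedF4 K e)
      rw [map_cj, L.hW]
      exact C.R.n_H (0 : Fin 2) _ hy
    · calc L.u * cj L.W y * L.u⁻¹ = L.W * (L.W⁻¹ * L.u * L.W) * y * (L.W⁻¹ * L.u * L.W)⁻¹ * L.W⁻¹ := by
            rw [cj]; group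
        _ = L.W * L.u * y * L.u⁻¹ * L.W⁻¹ := by
            rw [W_inv]
            have : L.W * L.u * L.W = L.u := by
              have := L.W_u
              rwa [W_inv] at this
            rw [this]
        _ = L.W * (L.u * y * L.u⁻¹) * L.W⁻¹ := by group
        _ = (cj L.W y)⁻¹ := by rw [hy', cj]; group
  have hV : ∀ y ∈ L.H1, cj L.V y ∈ L.H1 := by
    rintro y ⟨hy, hy'⟩
    refine ⟨?_, ?_⟩
    · show σ (cj L.V y) ∈ cH chevF4 K (twistedF4 K e)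
      rw [map_cj, L.hV]
      exact C.R.n_H (1 : Fin 2) _ hy
    · calc L.u * cj L.V y * L.u⁻¹ = L.V * (L.V⁻¹ * L.u * L.V) * y * (L.V⁻¹ * L.u * L.V)⁻¹ * L.V⁻¹ := by
            rw [cj]; group
        _ = L.V * L.u * y * L.u⁻¹ * L.V⁻¹ := by
            rw [V_inv]
            have : L.V * L.u * L.V = L.u := by
              have := L.V_u
              rwa [V_inv] at this
            rw [this]
        _ = L.V * (L.u * y * L.u⁻¹) * L.V⁻¹ := by group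
        _ = (cj L.V y)⁻¹ := by rw [hy', cj]; group
  induction hx using Subgroup.closure_induction with
  | mem x hx =>
    rcases hx with rfl | rfl
    · intro y hy
      rw [W_inv]
      exact ⟨hW y hy, hW y hy⟩
    · intro y hy
      rw [V_inv]
      exact ⟨hV y hy, hV y hy⟩
  | one =>
    intro y hy
    rw [inv_one, one_cj]
    exact ⟨hy, hy⟩
  | mul a b _ _ ha hb =>
    intro y hy
    constructor
    · rw [← cj_cj]
      exact (ha _ (hb y hy).1).1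
    · rw [mul_inv_rev, ← cj_cj]
      exact (hb _ (ha y hy).2).2
  | inv a _ ha =>
    intro y hy
    rw [inv_inv]
    exact ⟨(ha y hy).2, (ha y hy).1⟩

/-- The group `Nh`. -/
def Nh : Subgroup E := L.S ⊔ L.H1

lemma Nh_form {g : E} (hg : g ∈ L.Nh) : ∃ s ∈ L.S, ∃ h ∈ L.H1, g = s * h :=
  sup_form (fun x hx y hy => (L.S_H1 hx y hy).1) g hg

lemma W_mem : L.W ∈ L.Nh := (le_sup_left : L.S ≤ L.Nh) L.W_mem_S
lemma V_mem : L.V ∈ L.Nh := (le_sup_left : L.S ≤ L.Nh) L.V_mem_S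
lemma H1_mem {x : E} (hx : x ∈ L.H1) : x ∈ L.Nh := (le_sup_right : L.H1 ≤ L.Nh) hx

lemma Hh_pow {x : E} (hx : x ∈ L.Hh) : (σ x) ^ (Fintype.card K - 1) = 1 := by
  obtain ⟨a, b, hab⟩ := L.mem_Hh.mp hx
  rw [hab]
  exact C.hh_pow_card a b

lemma H1_inj {h : E} (hh : h ∈ L.H1) (h1 : σ h = 1) : h = 1 := by
  have hk : h ∈ σ.ker := h1
  apply L.ker_one hk
  rw [← hh.2, ← ker_comm L.hc hk L.u]
  group

/-- Injectivity on `Nh`. -/
theorem Nh_inj {g : E} (hg : g ∈ L.Nh) (h1 : σ g = 1) : g = 1 := by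
  obtain ⟨s, hs, h, hh, rfl⟩ := L.Nh_form hg
  have e' : σ s = (σ h)⁻¹ := by
    rw [map_mul] at h1
    exact eq_inv_of_mul_eq_one_left h1
  have h2 : s ∈ L.Hh := by
    show σ s ∈ cH chevF4 K (twistedF4 K e)
    rw [e']
    exact Subgroup.inv_mem _ hh.1
  obtain ⟨k, hk⟩ := L.S_tw hs
  have h3 : σ s = 1 := by
    refine eq_one_of_odd odd_card_sub (L.Hh_pow h2) (k := k) ?_
    rw [← map_pow, hk, map_one]
  have h4 : s = 1 := eq_one_of_odd_order (L.hodd s h3) hk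
  subst h4
  rw [one_mul] at h1 ⊢
  exact L.H1_inj hh h1

/-- The image of `Nh` is monomial. -/
theorem Nh_Mo {g : E} (hg : g ∈ L.Nh) : σ g ∈ C.Mo := by
  have hle : L.Nh ≤ C.Mo.comap σ := by
    refine sup_le ?_ ?_
    · rw [S, Subgroup.closure_le]
      rintro x (rfl | rfl)
      · show σ L.W ∈ C.Mo
        rw [L.hW]
        exact C.nn_mem_Mo 0
      · show σ L.V ∈ C.Mo
        rw [L.hV]
        exact C.nn_mem_Mo 1
    · intro x hx
      exact C.H_le_Mo hx.1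
  exact hle hg

end Lf

end Cfsg.Agent.Lib.F24.OutF.Ctx
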