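import Cfsg.Agent.Lib.SchF4.L1
import Cfsg.Agent.Lib.SchurCert.Sz8.Upper

/-!
The Levi factor of `²F₄`: its structure, and its lift to a central extension of odd order.
-/

set_option autoImplicit false
set_option linter.unusedSectionVars false
set_option linter.unusedVariables false
set_option linter.ambiguousOpen false
set_option linter.dupNamespace false
set_option linter.unusedSimpArgs false
set_option maxRecDepth 100000

open scoped MatrixGroups Matrix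
open Cfsg _root_.Cfsg.Lie ChevalleyDatum
open Cfsg.Agent.Lib.Chev
open Tables Tables2 Tables3 Raise Basic AxBasic Torus Products Products2 Mono1 Mono2 Mono3 Bn ChevSimple
open Cfsg.Agent.Lib.Twisted.Fact Cfsg.Agent.Lib.Twisted.Bruhat Cfsg.Agent.Lib.Twisted.Tw
open Cfsg.Agent.Lib.Twisted.Struct Cfsg.Agent.Lib.Twisted.Check Cfsg.Agent.Lib.Twisted.Ortho
open Cfsg.Agent.Lib.Twisted.TorusFix Cfsg.Agent.Lib.Twisted.OutA Cfsg.Agent.Lib.Twisted.OutB
open Cfsg.Agent.Lib.F24.F4Data Cfsg.Agent.Lib.F24.Tw Cfsg.Agent.Lib.F24.WordEq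
open Cfsg.Agent.Lib.F24.TD Cfsg.Agent.Lib.F24.Main Cfsg.Agent.Lib.F24.H1 Cfsg.Agent.Lib.F24.PerfF4
open Cfsg.Agent.Lib.F24.Coll Cfsg.Agent.Lib.F24.Cls Cfsg.Agent.Lib.F24.InvCls Cfsg.Agent.Lib.F24.OutF
open Cfsg.Agent.Lib.SchF4.Cl Cfsg.Agent.Lib.SchF4.Cl2 Cfsg.Agent.Lib.SchF4.Blk
open Cfsg.Agent.Lib.Twisted.Struct.TD
open Cfsg.Agent.Lib.SchD4.Sys (cj cj_mul cj_one cj_inv cj_cj one_cj cj_inv_cj cj_cj_inv map_cj cj_eq_self_iff)
open Cfsg.Agent.Lib.SchF4.Gen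
open Cfsg.Agent.Lib.Suzuki.Core (th th_add th_mul)
open Cfsg.Agent.Lib.Suzuki.Elements (uMat hMat wMat)

namespace Cfsg.Agent.Lib.F24.OutF.Ctx

variable {K : Type*} [Field K] [Fintype K] [CharP K 2] {m : ℕ} (C : Ctx K (2 ^ m))

open scoped commutatorElement

/-- Stem extensions of the Suzuki groups have kernels of exponent two. -/
theorem sz_stem {F : Type u_1} [Field F] [Fintype F] {m : ℕ} (hm : 1 ≤ m) (hF : Fintype.card F = 2 ^ (2 * m + 1)) (Γ : Type u_1)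
    [Group Γ] [Finite Γ] (τ : Γ →* Lie.Sz F (2 ^ (m + 1))) (hτ : IsStemExtension τ) : ∀ z ∈ τ.ker, z ^ 2 = 1 := by
  have hch : CharP F 2 := Cfsg.Agent.Lib.Suzuki.Elements.charP_two_of_card hF
  have hc := Cfsg.Agent.Lib.Suzuki.Stab.ctx_of_card hm hF
  rcases Nat.lt_or_ge m 2 with hm1 | hm2
  · have hm1' : m = 1 := by omega
    subst hm1'
    have hF8 : Fintype.card F = 8 := by rw [hF]; norm_num
    obtain ⟨π, hπ⟩ := Cfsg.Agent.Lib.SchurCert.Sz8.Upper.upper hF8 Γ τ hτ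
    intro z hz
    obtain ⟨w, hw⟩ := hπ ⟨z, hz⟩
    have h2 : w ^ 2 = 1 := by
      have : ∀ a : ZMod 2 × ZMod 2, a + a = 0 := by decide
      rw [sq]
      exact this (Multiplicative.toAdd w)
    have h3 : (⟨z, hz⟩ : τ.ker) ^ 2 = 1 := by
      rw [← hw, ← map_pow, h2, map_one]
    exact congrArg Subtype.val h3
  · let σ' : Γ →* Cfsg.Sz F m := (Cfsg.Agent.Lib.SzIso.Basic.equivSz hc).symm.toMonoidHom.comp τ
    have hker : σ'.ker = τ.ker := by
      ext x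
      simp only [MonoidHom.mem_ker, σ']
      simp
    have hs : IsStemExtension σ' := by
      refine ⟨(Cfsg.Agent.Lib.SzIso.Basic.equivSz hc).symm.surjective.comp hτ.1, ?_, ?_⟩
      · rw [hker]
        exact hτ.2.1
      · rw [hker]
        exact hτ.2.2
    have h1 := Cfsg.Agent.Lib.SzIso.SchurSz.ker_eq_bot hc σ' hm2 hs
    rw [hker] at h1
    intro z hz
    rw [h1, Subgroup.mem_bot] at hz
    rw [hz, one_pow]

/-- Perfectness is transferred by surjective homomorphisms with trivial kernel. -/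
lemma comm_top_of_bij {A B : Type*} [Group A] [Group B] (f : A →* B) (hf : Function.Injective f)
    (h : commutator B = ⊤) (hs : Function.Surjective f) : commutator A = ⊤ := by
  rw [eq_top_iff]
  intro a _
  have h1 : f a ∈ commutator B := by rw [h]; trivial
  have h2 : (commutator A).map f = commutator B := by
    rw [commutator_def, commutator_def, Subgroup.map_commutator, ← MonoidHom.range_eq_map, MonoidHom.range_eq_top.mpr hs]
  rw [← h2] at h1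
  obtain ⟨c, hc, e⟩ := h1
  rw [← hf e]
  exact hc

/-- Injectivity. -/
theorem ρ₀_inj {g : C.L1} (h : C.ρ₀ g = 1) : g = 1 := by
  obtain ⟨g, hg⟩ := g
  have hval : sub (g.1 : Matrix chevF4.Idx chevF4.Idx K) = 1 := congrArg (fun z : GL (Fin 4) K => (z : Matrix (Fin 4) (Fin 4) K)) h
  apply Subtype.ext
  show g = 1
  rcases C.form_L1 hg with ⟨t, u, x, y, rfl⟩ | ⟨t, u, x, y, t', u', rfl⟩
  · have h1 := ((C.hs_cl8 t u).mul (C.hs_hh x y)).2
    have h2 : sub ((C.cl 8 t u * C.hh x y : GG K (2 ^ m)).1 : Matrix chevF4.Idx chevF4.Idx K) = sub (((C.cl 8 t u).1 * (C.hh x y).1 : GL chevF4.Idx K) : Matrix chevF4.Idx chevF4.Idx K) := rfl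
    rw [← h2, hval] at h1
    have e11 := congrFun (congrFun h1 1) 1
    have e01 := congrFun (congrFun h1 0) 1
    have e13 := congrFun (congrFun h1 1) 3
    have e33 := congrFun (congrFun h1 3) 3
    have e22 := congrFun (congrFun h1 2) 2
    simp [Matrix.mul_apply, Fin.sum_univ_succ, uMat] at e11 e01 e13 e33 e22
    have d1 : C.φ (chv C.φ 6 x y) = 1 := e11.symm
    have d3 : C.φ (chv C.φ 1 x y) = 1 := e33.symm
    have d2 : C.φ (chv C.φ 2 x y) = 1 := e22.symm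
    subst e01
    have hu : u = 0 := by simpa using e13
    subst hu
    have hinj : ∀ z : Kˣ, C.φ (z : K) = 1 → z = 1 := by
      intro z hz
      apply Units.ext
      apply C.φ.injective
      rw [hz]
      simp
    have hx : x = 1 := hinj _ d3
    subst hx
    have hy : y = 1 := by
      have := hinj _ d2
      simpa [chv] using this
    subst hy
    rw [cl_zero, hh_one, one_mul]
  · have h1 := (((C.hs_cl8 t u).mul C.hs_nn1).mul (C.hs_hh x y)).mul (C.hs_cl8 t' u')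
    have h2 := h1.2
    have h3 : sub ((C.cl 8 t u * C.nn 1 * C.hh x y * C.cl 8 t' u' : GG K (2 ^ m)).1 : Matrix chevF4.Idx chevF4.Idx K) = sub (((C.cl 8 t u).1 * (C.nn 1).1 * (C.hh x y).1 * (C.cl 8 t' u').1 : GL chevF4.Idx K) : Matrix chevF4.Idx chevF4.Idx K) := rfl
    rw [← h3, hval] at h2
    have e30 := congrFun (congrFun h2 3) 0
    simp [Matrix.mul_apply, Fin.sum_univ_succ, uMat, wMat] at e30
    exact absurd e30.symm ((map_ne_zero C.φ).mpr (chv C.φ 7 x y).ne_zero)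

/-- The Weyl element of the Levi factor is an involution. -/
theorem nn1_sq : C.nn 1 * C.nn 1 = 1 := by
  have h : (⟨C.nn 1, C.nn1_mem_L1⟩ : C.L1) * ⟨C.nn 1, C.nn1_mem_L1⟩ = 1 := by
    apply C.ρ₀_inj
    rw [map_mul, C.ρ₀_nn1, ← map_mul]
    have : Cfsg.Agent.Lib.Suzuki.Elements.ww K * Cfsg.Agent.Lib.Suzuki.Elements.ww K = 1 := Cfsg.Agent.Lib.Suzuki.Elements.ww_mul_self
    rw [this, map_one]
  exact congrArg Subtype.val h

variable (hc : Cfsg.Agent.Lib.Suzuki.Stab.Ctx K m)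

lemma sz_le_sp4 : Lie.Sz K (2 ^ (m + 1)) ≤ Lie.Sp4 K := by
  rw [Lie.Sz, Subgroup.closure_le]
  rintro g ⟨hg, -⟩
  exact hg

include hc in
/-- The torus of the Levi factor is inverted by the Weyl element. -/
theorem hh_L1_inv {x y : Kˣ} (h : C.hh x y ∈ C.L1) : C.nn 1 * C.hh x y * (C.nn 1)⁻¹ = (C.hh x y)⁻¹ := by
  have h1 := sz_le_sp4 (C.ρ₀_mem_Sz hc ⟨C.hh x y, h⟩)
  have h2 := h1 ![1, 0, 0, 0] ![0, 0, 0, 1]
  have e1 : (Units.coeHom (Matrix (Fin 4) (Fin 4) K) (C.ρ₀ ⟨C.hh x y, h⟩)) =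
      !![C.φ (chv C.φ 7 x y), 0, 0, 0; 0, C.φ (chv C.φ 6 x y), 0, 0; 0, 0, C.φ (chv C.φ 2 x y), 0; 0, 0, 0, C.φ (chv C.φ 1 x y)] :=
    C.ρ₀_val (C.hs_hh x y)
  rw [e1] at h2
  simp [altForm4, Matrix.mulVec, dotProduct, Fin.sum_univ_succ] at h2
  have h3 : C.φ (((chv C.φ 7 x y * x : Kˣ)) : K) = 1 := by
    rw [Units.val_mul, map_mul]
    exact h2
  have h4 : chv C.φ 7 x y * x = 1 := by
    apply Units.ext
    apply C.φ.injective
    rw [h3]
    simp
  have h5 : chv C.φ 7 x y = x⁻¹ := eq_inv_of_mul_eq_one_left h4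
  rw [C.nn1_hh, h5, hh_inv]

include hc in
/-- The rank one relation in the Levi factor. -/
theorem rank_L1 (t u : K) (hne : C.cl 8 t u ≠ 1) : ∃ t₁ u₁ x y t₂ u₂,
    C.nn 1 * C.cl 8 t u * (C.nn 1)⁻¹ = C.cl 8 t₁ u₁ * ((C.hh x y)⁻¹ * C.nn 1) * C.cl 8 t₂ u₂ ∧ C.hh x y ∈ C.L1 := by
  have hg : C.nn 1 * C.cl 8 t u * (C.nn 1)⁻¹ ∈ C.L1 :=
    Subgroup.mul_mem _ (Subgroup.mul_mem _ C.nn1_mem_L1 (C.cl8_mem_L1 t u)) (Subgroup.inv_mem _ C.nn1_mem_L1)
  rcases C.form_L1 hg with ⟨t₁, u₁, x, y, e⟩ | ⟨t₁, u₁, x, y, t₂, u₂, e⟩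
  · exfalso
    apply hne
    have hA : C.cl 8 t u ∈ C.R.A (1 : Fin 2) := C.mem_A1.mpr ⟨t, u, rfl⟩
    have hV : C.nn 1 * C.cl 8 t u * (C.nn 1)⁻¹ ∈ C.R.V := C.R.A'_le (1 : Fin 2) (C.R.n_A (1 : Fin 2) _ hA)
    have hU : C.cl 8 t₁ u₁ ∈ C.R.U := C.R.A_le (1 : Fin 2) (C.mem_A1.mpr ⟨t₁, u₁, rfl⟩)
    rw [e] at hV
    have h1 := C.R.UH_V _ hU _ (C.hh_mem x y) hV
    rw [← e] at h1
    have h2 : C.cl 8 t u = (C.nn 1)⁻¹ * (C.nn 1 * C.cl 8 t u * (C.nn 1)⁻¹) * C.nn 1 := by group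
    rw [h2, h1]
    group
  · have hh : C.hh x y ∈ C.L1 := by
      have e1 : C.hh x y = (C.nn 1)⁻¹ * (C.cl 8 t₁ u₁)⁻¹ * (C.nn 1 * C.cl 8 t u * (C.nn 1)⁻¹) * (C.cl 8 t₂ u₂)⁻¹ := by
        rw [e]
        group
      rw [e1]
      exact Subgroup.mul_mem _ (Subgroup.mul_mem _ (Subgroup.mul_mem _ (Subgroup.inv_mem _ C.nn1_mem_L1)
        (Subgroup.inv_mem _ (C.cl8_mem_L1 _ _))) hg) (Subgroup.inv_mem _ (C.cl8_mem_L1 _ _))
    refine ⟨t₁, u₁, x, y, t₂, u₂, ?_, hh⟩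
    rw [e]
    have h1 := C.hh_L1_inv hc hh
    have h2 : C.nn 1 * C.hh x y = (C.hh x y)⁻¹ * C.nn 1 := mul_inv_eq_iff_eq_mul.mp h1
    have h3 : C.cl 8 t₁ u₁ * C.nn 1 * C.hh x y * C.cl 8 t₂ u₂ = C.cl 8 t₁ u₁ * (C.nn 1 * C.hh x y) * C.cl 8 t₂ u₂ := by
      simp only [mul_assoc]
    rw [h3, h2]

include hc in
/-- The Levi factor is perfect. -/
theorem L1_perfect : ⁅C.L1, C.L1⁆ = C.L1 := by
  have hinj : Function.Injective (C.ρ₁ hc) := by
    rw [injective_iff_map_eq_one]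
    intro g hg
    apply C.ρ₀_inj
    have := congrArg Subtype.val hg
    exact this
  have h1 : commutator (Lie.Sz K (2 ^ (m + 1))) = ⊤ :=
    comm_top_of_bij (Cfsg.Agent.Lib.SzIso.Basic.equivSz hc).symm.toMonoidHom (Cfsg.Agent.Lib.SzIso.Basic.equivSz hc).symm.injective
      (Cfsg.Agent.Lib.Suzuki.Simple.commutator_eq_top hc) (Cfsg.Agent.Lib.SzIso.Basic.equivSz hc).symm.surjective
  have h2 := comm_top_of_bij (C.ρ₁ hc) hinj h1 (C.ρ₁_surj hc)
  have h3 : (commutator C.L1).map C.L1.subtype = ⁅C.L1, C.L1⁆ := by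
    rw [commutator_def, Subgroup.map_commutator, ← MonoidHom.range_eq_map, Subgroup.range_subtype]
  rw [← h3, h2, ← MonoidHom.range_eq_map, Subgroup.range_subtype]

/-- A perfect lift. -/
theorem exists_perfect_lift {E : Type u_1} [Group E] [Finite E] {σ : E →* GG K (2 ^ m)} (hs : Function.Surjective σ)
    (hcen : σ.ker ≤ Subgroup.center E) (hodd : ∀ z ∈ σ.ker, Odd (orderOf z)) (hm : 1 ≤ m) (hF : Fintype.card K = 2 ^ (2 * m + 1)) :
    ∃ D : Subgroup E, (∀ x ∈ D, σ x ∈ C.L1) ∧ (∀ g ∈ C.L1, ∃ x ∈ D, σ x = g) ∧ (∀ x ∈ D, σ x = 1 → x = 1) := by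
  have hc := Cfsg.Agent.Lib.Suzuki.Stab.ctx_of_card hm hF
  have hperf := C.L1_perfect hc
  set E₁ := C.L1.comap σ with hE₁
  set D : Subgroup E := ⁅E₁, E₁⁆ with hD
  have hmapD : D.map σ = C.L1 := by
    rw [hD, Subgroup.map_commutator, hE₁, Subgroup.map_comap_eq_self_of_surjective hs, hperf]
  have hD1 : ∀ x ∈ D, σ x ∈ C.L1 := by
    intro x hx
    rw [← hmapD]
    exact ⟨x, hx, rfl⟩
  have hD2 : ∀ g ∈ C.L1, ∃ x ∈ D, σ x = g := by
    intro g hg
    rw [← hmapD] at hg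
    exact hg
  have hDD : D ≤ ⁅D, D⁆ := by
    rw [hD, Subgroup.commutator_le]
    intro a ha b hb
    obtain ⟨a', ha', ea⟩ := hD2 _ ha
    obtain ⟨b', hb', eb⟩ := hD2 _ hb
    have h3 : a'⁻¹ * a ∈ σ.ker := by
      rw [MonoidHom.mem_ker, map_mul, map_inv, ea, inv_mul_cancel]
    have h4 : b'⁻¹ * b ∈ σ.ker := by
      rw [MonoidHom.mem_ker, map_mul, map_inv, eb, inv_mul_cancel]
    have h5 : a * b * a⁻¹ * b⁻¹ = a' * b' * a'⁻¹ * b'⁻¹ :=
      comm_central (ker_comm hcen h3) (ker_comm hcen h4) (by group) (by group)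
    rw [commutatorElement_def, h5, ← commutatorElement_def]
    exact Subgroup.commutator_mem_commutator ha' hb'
  -- the stem extension
  let σD : D →* C.L1 := (σ.comp D.subtype).codRestrict C.L1 (fun x => hD1 x x.2)
  have hσD : ∀ x : D, ((σD x : C.L1) : GG K (2 ^ m)) = σ x := fun x => rfl
  let τ : D →* Lie.Sz K (2 ^ (m + 1)) := (C.ρ₁ hc).comp σD
  have hinj1 : ∀ g : C.L1, C.ρ₁ hc g = 1 → g = 1 := by
    intro g hg
    apply C.ρ₀_inj
    exact congrArg Subtype.val hg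
  have hkerτ : ∀ x : D, τ x = 1 → σ x = 1 := by
    intro x hx
    have := hinj1 _ hx
    have h2 := congrArg Subtype.val this
    exact h2
  have hτs : Function.Surjective τ := by
    intro y
    obtain ⟨g, hg⟩ := C.ρ₁_surj hc y
    obtain ⟨x, hx, e⟩ := hD2 g g.2
    exact ⟨⟨x, hx⟩, by
      show C.ρ₁ hc (σD ⟨x, hx⟩) = y
      have : σD ⟨x, hx⟩ = g := Subtype.ext e
      rw [this, hg]⟩
  have hstem : IsStemExtension τ := by
    refine ⟨hτs, ?_, ?_⟩
    · intro x hx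
      rw [Subgroup.mem_center_iff]
      intro y
      apply Subtype.ext
      have hx1 := hkerτ x hx
      exact (Subgroup.mem_center_iff.mp (hcen (MonoidHom.mem_ker.mpr hx1)) y.1)
    · intro x _
      have h3 : (commutator D).map D.subtype = ⁅D, D⁆ := by
        rw [commutator_def, Subgroup.map_commutator, ← MonoidHom.range_eq_map, Subgroup.range_subtype]
      have h4 : (x : E) ∈ (commutator D).map D.subtype := by
        rw [h3]
        exact hDD x.2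
      obtain ⟨c, hc', e⟩ := h4
      have : c = x := Subtype.ext e
      rw [← this]
      exact hc'
  have h2 := sz_stem hm hF D τ hstem
  refine ⟨D, hD1, hD2, ?_⟩
  intro x hx h1
  have h3 : (⟨x, hx⟩ : D) ∈ τ.ker := by
    rw [MonoidHom.mem_ker]
    show C.ρ₁ hc (σD ⟨x, hx⟩) = 1
    have : σD ⟨x, hx⟩ = 1 := Subtype.ext h1
    rw [this, map_one]
  have h4 := congrArg Subtype.val (h2 _ h3)
  have h5 : x ^ 2 = 1 := h4
  have h6 := hodd x (MonoidHom.mem_ker.mpr h1)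
  have h7 := orderOf_dvd_of_pow_eq_one h5
  have h8 : orderOf x ∣ 1 := by
    have : Nat.Coprime (orderOf x) 2 := Nat.coprime_two_right.mpr h6
    exact this.dvd_of_dvd_mul_right (by simpa using h7)
  exact orderOf_eq_one_iff.mp (Nat.dvd_one.mp h8)

end Cfsg.Agent.Lib.F24.OutF.Ctx
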