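import Cfsg.Agent.Lib.SchF4.B3
import Cfsg.Agent.Lib.SchF4.L2

set_option autoImplicit false
set_option linter.unusedSectionVars false
set_option linter.unusedVariables false
set_option linter.ambiguousOpen false
set_option linter.dupNamespace false
set_option linter.unusedSimpArgs false
set_option maxRecDepth 100000

open scoped MatrixGroups Matrix
open Cfsg _root_.Cfsg.Lie ChevalleyDatum
open Cfsg.Agent.Lib.Chev
open Tables Tables2 Tables3 Raise Basic AxBasic Torus Products Products2 Mono1 Mono2 Mono3 Bn ChevSimple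
open Cfsg.Agent.Lib.Twisted.Fact Cfsg.Agent.Lib.Twisted.Bruhat Cfsg.Agent.Lib.Twisted.Tw
open Cfsg.Agent.Lib.Twisted.Struct Cfsg.Agent.Lib.Twisted.Check Cfsg.Agent.Lib.Twisted.Ortho
open Cfsg.Agent.Lib.Twisted.TorusFix Cfsg.Agent.Lib.Twisted.OutA Cfsg.Agent.Lib.Twisted.OutB
open Cfsg.Agent.Lib.F24.F4Data Cfsg.Agent.Lib.F24.Tw Cfsg.Agent.Lib.F24.WordEq
open Cfsg.Agent.Lib.F24.TD Cfsg.Agent.Lib.F24.Main Cfsg.Agent.Lib.F24.H1 Cfsg.Agent.Lib.F24.PerfF4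
open Cfsg.Agent.Lib.F24.Coll Cfsg.Agent.Lib.F24.Cls Cfsg.Agent.Lib.F24.InvCls Cfsg.Agent.Lib.F24.OutF
open Cfsg.Agent.Lib.SchF4.Cl Cfsg.Agent.Lib.SchF4.Cl2 Cfsg.Agent.Lib.SchF4.Blk
open Cfsg.Agent.Lib.Twisted.Struct.TD
open Cfsg.Agent.Lib.SchD4.Sys (cj cj_mul cj_one cj_inv cj_cj one_cj cj_inv_cj cj_cj_inv map_cj cj_eq_self_iff)
open Cfsg.Agent.Lib.SchF4.Gen
open Cfsg.Agent.Lib.Suzuki.Core (th th_add th_mul)
open Cfsg.Agent.Lib.Suzuki.Elements (uMat hMat wMat)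

namespace Cfsg.Agent.Lib.F24.OutF.Ctx

universe u

variable {K : Type u} [Field K] [Fintype K] [CharP K 2] {m : ℕ} (C : Ctx K (2 ^ m))
variable {E : Type u} [Group E] {σ : E →* GG K (2 ^ m)}

open Cfsg.Agent.Lib.SchF4.Clo
open Cfsg.Agent.Lib.SchD4.G (mapK mapK_up mapK_lo mapK_dg)
open Cfsg.Agent.Lib.SchD4.SL2 (dg n0 dg00 dg01 dg10 dg11 up_add lo_add up_zero dg_one nn lo_decomp n0_sq n0_conj_up n0_conj_dg dgHom dgHom_apply)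
open Cfsg.Agent.Lib.Chev.SL2 Cfsg.Agent.Lib.Chev.SL2Chev Cfsg.Agent.Lib.TorD4.Root

/-- The image of a diagonal matrix. -/
lemma psiG_dg_mem (s : Kˣ) : C.psiG (dg s) ∈ cH chevF4 K (twistedF4 K (2 ^ m)) := by
  refine Subgroup.mem_subgroupOf.mpr ?_
  show C.psi (dg s) ∈ chevF4.diagonalSubgroup K
  rw [psi_apply, mapK_dg]
  have e1 : C.fr 33 (by decide) (dg (Units.map (C.φ : K →* K) s)) = hG C.ax 33 (C.φ s) :=
    fH_of_offdiag (by simp) (by simp)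
  have e2 : C.fr 24 (by decide) (dg s) = hG C.ax 24 s :=
    fH_of_offdiag (by simp) (by simp)
  rw [e1, e2]
  exact Subgroup.mul_mem _ (hG_mem_diagonal C.ax (by decide) (by simp))
    (hG_mem_diagonal C.ax (by decide) s.ne_zero)

lemma psiG_Tw {F : SL(2, K) →* E} (t : K) : Tw (F (upM t)) := by
  refine ⟨1, ?_⟩
  rw [pow_one, pow_two, ← map_mul, up_add, CharTwo.add_self_eq_zero, up_zero, map_one]

/-- The odd part of the central extension. -/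
theorem kerB (C : Ctx K (2 ^ m)) [Finite E] (hs : Function.Surjective σ) (hc : σ.ker ≤ Subgroup.center E) (hst : σ.ker ≤ commutator E)
    (hodd : ∀ z ∈ σ.ker, Odd (orderOf z)) (hm : 1 ≤ m) (hF : Fintype.card K = 2 ^ (2 * m + 1)) : σ.ker = ⊥ := by
  have hcard8 : 8 ≤ Fintype.card K := by
    rw [hF]
    calc 8 = 2 ^ 3 := by norm_num
      _ ≤ 2 ^ (2 * m + 1) := Nat.pow_le_pow_right (by norm_num) (by omega)
  have h4 : Fintype.card K ≠ 4 := by omega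
  have h9 : Fintype.card K ≠ 9 := by
    rw [hF]
    intro h
    have : 2 ∣ 2 ^ (2 * m + 1) := dvd_pow_self 2 (by omega)
    omega
  obtain ⟨F, hFσ⟩ := Cfsg.Agent.Lib.SchD4.SL2.exists_lift σ hc h4 h9 (by omega) C.psiG
    (fun M => MonoidHom.mem_range.mpr (hs _))
  obtain ⟨D, hD1, hD2, hD3⟩ := C.exists_perfect_lift hs hc hodd hm hF
  obtain ⟨V, hVD, hV⟩ := hD2 _ C.nn1_mem_L1
  have hVV : V * V = 1 := hD3 _ (D.mul_mem hVD hVD) (by rw [map_mul, hV, C.nn1_sq])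
  have hWW : F n0 * F n0 = 1 := by
    rw [← map_mul, n0_sq]
    have : (-1 : Kˣ) = 1 := Units.ext (by simp [CharTwo.neg_eq])
    rw [this, dg_one, map_one]
  have hW : σ (F n0) = C.nn 0 := by rw [hFσ, psiG_n0]
  let L : C.Lf σ := ⟨hs, hc, hodd, F n0, V, hW, hV, hWW, hVV⟩
  obtain ⟨Uh, hU1, hU2, hU3, hU4, hU5⟩ := exists_lift2 hs hc hodd (P := C.R.U) C.hP
  have hUinj : ∀ x ∈ Uh, ∀ y ∈ Uh, σ x = σ y → x = y := by
    intro x hx y hy h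
    have h1 : x⁻¹ * y = 1 := hU3 _ (Uh.mul_mem (Uh.inv_mem hx) hy) (by rw [map_mul, map_inv, h, inv_mul_cancel])
    exact (inv_mul_eq_one.mp h1)
  have hDinj : ∀ x ∈ D, ∀ y ∈ D, σ x = σ y → x = y := by
    intro x hx y hy h
    have h1 : x⁻¹ * y = 1 := hD3 _ (D.mul_mem (D.inv_mem hx) hy) (by rw [map_mul, map_inv, h, inv_mul_cancel])
    exact (inv_mul_eq_one.mp h1)
  -- the first rank one relation
  have hup : ∀ w : K, F (upM w) ∈ Uh := by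
    intro w
    refine hU4 _ ?_ (psiG_Tw w)
    rw [hFσ, psiG_up]
    exact C.R.A_le (0 : Fin 2) (C.mem_A0.mpr ⟨w, rfl⟩)
  have hrk0 : ∀ a ∈ Uh, σ a ∈ C.R.A (0 : Fin 2) → σ a ≠ 1 → ∃ a₁ ∈ Uh, σ a₁ ∈ C.R.A (0 : Fin 2) ∧ ∃ a₂ ∈ Uh,
      σ a₂ ∈ C.R.A (0 : Fin 2) ∧ ∃ h ∈ L.Nh, σ h ∈ C.R.H ∧ cj (F n0) a = a₁ * (h * F n0) * a₂ := by
    intro a ha hA hne
    obtain ⟨t, ht⟩ := C.mem_A0.mp hA
    have ht0 : t ≠ 0 := by
      rintro rfl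
      exact hne (ht.trans C.x0_zero)
    have ea : a = F (upM t) := hUinj _ ha _ (hup t) (by rw [ht, hFσ, psiG_up])
    set s : Kˣ := (Units.mk0 t ht0)⁻¹ with hs'
    have hst' : ((s : K))⁻¹ = t := by simp [hs']
    have e1 : cj (F n0) a = F (loM (-t)) := by
      rw [ea, cj, ← map_inv, ← map_mul, ← map_mul, n0_conj_up]
    have e2 : loM (-t) = upM (-(s : K)) * (dg s * n0) * upM (-(s : K)) := by
      have := lo_decomp s
      rw [hst'] at this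
      exact this
    have hAup : ∀ w : K, σ (F (upM w)) ∈ C.R.A (0 : Fin 2) := by
      intro w
      rw [hFσ, psiG_up]
      exact C.mem_A0.mpr ⟨w, rfl⟩
    have hH : F (dg s) ∈ L.Hh := by
      show σ (F (dg s)) ∈ cH chevF4 K (twistedF4 K (2 ^ m))
      rw [hFσ]
      exact C.psiG_dg_mem s
    have hinv : L.W * F (dg s) * L.W⁻¹ = (F (dg s))⁻¹ := by
      show F n0 * F (dg s) * (F n0)⁻¹ = (F (dg s))⁻¹
      rw [← map_inv, ← map_mul, ← map_mul, n0_conj_dg, ← map_inv]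
      congr 1
      exact map_inv (dgHom (K := K)) s
    refine ⟨_, hup (-(s : K)), hAup _, _, hup (-(s : K)), hAup _, F (dg s), L.H1_mem (L.H1_of_inv L.W_u hH hinv), hH, ?_⟩
    rw [e1, e2, map_mul, map_mul, map_mul]
  have hc' := Cfsg.Agent.Lib.Suzuki.Stab.ctx_of_card hm hF
  have hTw : ∀ x ∈ D, σ x ∈ C.R.U → Tw x := by
    intro x hx h
    obtain ⟨k, hk⟩ := C.hP ⟨σ x, h⟩
    have hk' : (σ x) ^ (2 ^ k) = 1 := by simpa using congrArg Subtype.val hk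
    exact ⟨k, hD3 _ (D.pow_mem hx _) (by rw [map_pow, hk'])⟩
  have hcl : ∀ t u, ∃ b ∈ D, b ∈ Uh ∧ σ b = C.cl 8 t u ∧ σ b ∈ C.R.A (1 : Fin 2) := by
    intro t u
    obtain ⟨b, hb, e⟩ := hD2 _ (C.cl8_mem_L1 t u)
    have hA : σ b ∈ C.R.A (1 : Fin 2) := by
      rw [e]
      exact C.mem_A1.mpr ⟨t, u, rfl⟩
    exact ⟨b, hb, hU4 _ (C.R.A_le (1 : Fin 2) hA) (hTw b hb (C.R.A_le (1 : Fin 2) hA)), e, hA⟩
  have hrk1 : ∀ a ∈ Uh, σ a ∈ C.R.A (1 : Fin 2) → σ a ≠ 1 → ∃ a₁ ∈ Uh, σ a₁ ∈ C.R.A (1 : Fin 2) ∧ ∃ a₂ ∈ Uh,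
      σ a₂ ∈ C.R.A (1 : Fin 2) ∧ ∃ h ∈ L.Nh, σ h ∈ C.R.H ∧ cj V a = a₁ * (h * V) * a₂ := by
    intro a ha hA hne
    obtain ⟨t, u, ht⟩ := C.mem_A1.mp hA
    have ht' : σ a = C.cl 8 t u := ht
    obtain ⟨b, hbD, hbU, e, -⟩ := hcl t u
    have eab : a = b := hUinj _ ha _ hbU (by rw [ht', e])
    subst eab
    obtain ⟨t₁, u₁, x, y, t₂, u₂, hrel, hxy⟩ := C.rank_L1 hc' t u (by rwa [← ht'])
    obtain ⟨a₁, ha₁D, ha₁U, e₁, hA₁⟩ := hcl t₁ u₁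
    obtain ⟨a₂, ha₂D, ha₂U, e₂, hA₂⟩ := hcl t₂ u₂
    obtain ⟨h₀, hh₀, e₀⟩ := hD2 _ (Subgroup.inv_mem _ hxy)
    have hH : h₀ ∈ L.Hh := by
      show σ h₀ ∈ cH chevF4 K (twistedF4 K (2 ^ m))
      rw [e₀]
      exact Subgroup.inv_mem _ (C.hh_mem x y)
    have hinv : L.V * h₀ * L.V⁻¹ = h₀⁻¹ := by
      apply hDinj _ (D.mul_mem (D.mul_mem hVD hh₀) (D.inv_mem hVD)) _ (D.inv_mem hh₀)
      show σ (V * h₀ * V⁻¹) = σ h₀⁻¹
      rw [map_mul, map_mul, map_inv, map_inv, hV, e₀]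
      have h7 := C.hh_L1_inv hc' hxy
      calc C.nn 1 * (C.hh x y)⁻¹ * (C.nn 1)⁻¹ = (C.nn 1 * C.hh x y * (C.nn 1)⁻¹)⁻¹ := by group
        _ = _ := by rw [h7]
    refine ⟨a₁, ha₁U, hA₁, a₂, ha₂U, hA₂, h₀, L.H1_mem (L.H1_of_inv L.V_u hH hinv), hH, ?_⟩
    apply hDinj
    · exact D.mul_mem (D.mul_mem hVD hbD) (D.inv_mem hVD)
    · exact D.mul_mem (D.mul_mem ha₁D (D.mul_mem hh₀ hVD)) ha₂D
    · simp only [cj, map_mul, map_inv, hV, e, e₀, e₁, e₂]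
      exact hrel
  refine ker_bot_abs C.R hs hc hst Uh hU1 hU2 hU3 hU4 hU5 L.Nh (fun x hx h => L.Nh_inj hx h)
    (fun x hx h => C.U_Mo h (L.Nh_Mo hx)) ![F n0, V] ?_ ?_ ?_ (fun j a ha y hy => C.hYA j ha hy)
    (fun ν hν j => C.hdich_Mo (L.Nh_Mo hν) j) ?_
  · exact Fin.forall_fin_two.mpr ⟨L.W_mem, L.V_mem⟩
  · exact Fin.forall_fin_two.mpr ⟨hW, hV⟩
  · exact Fin.forall_fin_two.mpr ⟨hWW, hVV⟩
  · exact Fin.forall_fin_two.mpr ⟨hrk0, hrk1⟩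

end Cfsg.Agent.Lib.F24.OutF.Ctx
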