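import Cfsg.Agent.Lib.SchF4.Cl3

/-!
The block of four coordinates on which a Levi factor of `²F₄` acts as a Suzuki group.
-/

set_option autoImplicit false
set_option linter.unusedSectionVars false
set_option linter.unusedVariables false
set_option linter.ambiguousOpen false
set_option linter.dupNamespace false
set_option linter.unusedSimpArgs false
set_option maxRecDepth 100000

open scoped MatrixGroups Matrix
open Cfsg _root_.Cfsg.Lie ChevalleyDatum
open Cfsg.Agent.Lib.Chev
open Tables Tables2 Tables3 Raise Basic AxBasic Torus Products Products2 Mono1 Mono2 Mono3 Bn ChevSimple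

namespace Cfsg.Agent.Lib.SchF4.Blk

variable {K : Type*} [Field K]

/-- The block. -/
def blk : Fin 4 → ℕ := ![37, 35, 34, 33]

lemma blk_lt (a : Fin 4) : blk a < chevF4.nroots := by
  revert a
  decide

/-- The coordinates. -/
def bi (a : Fin 4) : chevF4.Idx := Sum.inr ⟨blk a, blk_lt a⟩

lemma blk_inj : Function.Injective blk := by decide

lemma bi_inj : Function.Injective bi := by
  intro a b h
  apply blk_inj
  have := Sum.inr.inj h
  exact congrArg Fin.val this

/-- A matrix stabilising the block. -/
def Stbl (g : Matrix chevF4.Idx chevF4.Idx K) : Prop := ∀ a row, (∀ b, row ≠ bi b) → g row (bi a) = 0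

/-- The restriction to the block. -/
def sub (g : Matrix chevF4.Idx chevF4.Idx K) : Matrix (Fin 4) (Fin 4) K := Matrix.of fun a b => g (bi a) (bi b)

lemma Stbl.mul {g h : Matrix chevF4.Idx chevF4.Idx K} (hg : Stbl g) (hh : Stbl h) : Stbl (g * h) := by
  intro a row hrow
  rw [Matrix.mul_apply]
  apply Finset.sum_eq_zero
  intro y _
  by_cases hy : ∃ b, y = bi b
  · obtain ⟨b, rfl⟩ := hy
    rw [hg b row hrow, zero_mul]
  · push Not at hy
    rw [hh a y hy, mul_zero]

lemma sub_mul (g : Matrix chevF4.Idx chevF4.Idx K) {h : Matrix chevF4.Idx chevF4.Idx K} (hh : Stbl h) :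
    sub (g * h) = sub g * sub h := by
  ext a c
  simp only [sub, Matrix.of_apply, Matrix.mul_apply]
  symm
  apply Fintype.sum_of_injective bi bi_inj
  · intro y hy
    rw [hh c y (fun b e => hy ⟨b, e.symm⟩), mul_zero]
  · intro b
    rfl

lemma Stbl_one : Stbl (1 : Matrix chevF4.Idx chevF4.Idx K) := by
  intro a row hrow
  exact Matrix.one_apply_ne (hrow a)

lemma sub_one : sub (1 : Matrix chevF4.Idx chevF4.Idx K) = 1 := by
  ext a c
  simp only [sub, Matrix.of_apply, Matrix.one_apply]
  by_cases h : a = c
  · subst h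
    simp
  · rw [if_neg h, if_neg (fun e => h (bi_inj e))]

/-- The group stabilising the block. -/
def StbG (K : Type*) [Field K] : Subgroup (GL chevF4.Idx K) where
  carrier := {g | Stbl (g : Matrix chevF4.Idx chevF4.Idx K) ∧ Stbl ((g⁻¹ : GL chevF4.Idx K) : Matrix chevF4.Idx chevF4.Idx K)}
  one_mem' := by
    constructor
    · exact Stbl_one
    · simpa using Stbl_one
  mul_mem' := by
    rintro g h ⟨h1, h2⟩ ⟨h3, h4⟩
    constructor
    · rw [Units.val_mul]
      exact h1.mul h3
    · rw [mul_inv_rev, Units.val_mul]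
      exact h4.mul h2
  inv_mem' := by
    rintro g ⟨h1, h2⟩
    constructor
    · exact h2
    · simpa using h1

/-- The representation on the block. -/
def ρ : StbG K →* GL (Fin 4) K where
  toFun g :=
    { val := sub ((g : GL chevF4.Idx K) : Matrix chevF4.Idx chevF4.Idx K)
      inv := sub (((g : GL chevF4.Idx K)⁻¹ : GL chevF4.Idx K) : Matrix chevF4.Idx chevF4.Idx K)
      val_inv := by
        rw [← sub_mul _ g.2.2, ← Units.val_mul, mul_inv_cancel, Units.val_one, sub_one]
      inv_val := by
        rw [← sub_mul _ g.2.1, ← Units.val_mul, inv_mul_cancel, Units.val_one, sub_one] }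
  map_one' := by
    apply Units.ext
    exact sub_one
  map_mul' := by
    intro g h
    apply Units.ext
    exact sub_mul _ h.2.1

lemma ρ_val (g : StbG K) : ((ρ g : GL (Fin 4) K) : Matrix (Fin 4) (Fin 4) K) = sub ((g : GL chevF4.Idx K) : Matrix chevF4.Idx chevF4.Idx K) := rfl

/-! ### Root elements -/

/-- The table. -/
def tL : ℕ → List (Fin 4 × Fin 4)
  | 27 => [(0, 1), (2, 3)]
  | 25 => [(1, 2)]
  | 28 => [(0, 2), (1, 3)]
  | 30 => [(0, 3)]
  | 20 => [(3, 2), (1, 0)]
  | 22 => [(2, 1)]
  | _ => []

def tE (r : ℕ) (b a : Fin 4) : Bool := decide ((b, a) ∈ tL r)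

def hasE (r : ℕ) (a : Fin 4) (u : ℕ) : Bool := (List.finRange 4).any fun b => decide (u = blk b) && tE r b a

def okEntry (r : ℕ) (a : Fin 4) (u : ℕ) : Bool :=
  match chevF4.chainCoeff r (blk a) u with
  | [] => !hasE r a u
  | [(1, c)] => ((c == 1) || (c == -1)) && hasE r a u
  | _ => false

def okRoot (r : ℕ) : Bool :=
  (List.finRange 4).all fun a =>
    decide (blk a ≠ r) && decide (blk a ≠ chevF4.negIdx.getD r 0) && (List.range chevF4.nroots).all fun u => okEntry r a u

theorem ok27 : okRoot 27 = true := by decide +kernel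
theorem ok25 : okRoot 25 = true := by decide +kernel
theorem ok28 : okRoot 28 = true := by decide +kernel
theorem ok30 : okRoot 30 = true := by decide +kernel
theorem ok20 : okRoot 20 = true := by decide +kernel
theorem ok22 : okRoot 22 = true := by decide +kernel

variable [CharP K 2]

lemma sum_entry {r : ℕ} {a : Fin 4} {u : ℕ} (h : okEntry r a u = true) (t : K) :
    ((chevF4.chainCoeff r (blk a) u).map fun km => ((km.2 : ℤ) : K) * t ^ km.1).sum = if hasE r a u = true then t else 0 := by
  unfold okEntry at h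
  generalize chevF4.chainCoeff r (blk a) u = L at h ⊢
  match L, h with
  | [], h =>
    simp only [Bool.not_eq_true'] at h
    simp [h]
  | [(1, c)], h =>
    simp only [Bool.and_eq_true, Bool.or_eq_true, beq_iff_eq] at h
    obtain ⟨hc, h3⟩ := h
    rw [if_pos h3]
    rcases hc with rfl | rfl
    · simp
    · simp [CharTwo.neg_eq]

lemma entry_inl {r : ℕ} (hr : r < chevF4.nroots) (hok : okRoot r = true) (a : Fin 4) (t : K) (i : Fin chevF4.rank) :
    chevF4.x K r t (Sum.inl i) (bi a) = 0 := by
  rw [x_eq_xMat r hr]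
  simp only [okRoot, List.all_eq_true, Bool.and_eq_true, decide_eq_true_eq] at hok
  obtain ⟨⟨h1, h2⟩, h3⟩ := hok a (List.mem_finRange a)
  simp only [xMat, Matrix.of_apply, bi]
  rw [if_neg (fun e => h1 (congrArg Fin.val e)), if_neg h2]

lemma entry_inr {r : ℕ} (hr : r < chevF4.nroots) (hok : okRoot r = true) (a : Fin 4) (t : K) (u : Fin chevF4.nroots) :
    chevF4.x K r t (Sum.inr u) (bi a) = (if u.val = blk a then 1 else 0) + (if hasE r a u.val = true then t else 0) := by
  rw [x_eq_xMat r hr]
  simp only [okRoot, List.all_eq_true, Bool.and_eq_true, decide_eq_true_eq] at hok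
  obtain ⟨⟨h1, h2⟩, h3⟩ := hok a (List.mem_finRange a)
  have h4 := h3 u.val (List.mem_range.mpr u.isLt)
  simp only [xMat, Matrix.of_apply, bi]
  rw [if_neg (fun e => h1 (congrArg Fin.val e)), if_neg h2, sum_entry h4]
  congr 1
  by_cases h5 : u = ⟨blk a, blk_lt a⟩
  · rw [if_pos h5, if_pos (by rw [h5])]
  · rw [if_neg h5, if_neg (fun e => h5 (Fin.ext e))]

lemma Stbl_x {r : ℕ} (hr : r < chevF4.nroots) (hok : okRoot r = true) (t : K) : Stbl (chevF4.x K r t) := by
  intro a row hrow
  rcases row with i | u
  · exact entry_inl hr hok a t i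
  · rw [entry_inr hr hok]
    have h1 : ∀ b, u.val ≠ blk b := fun b e => hrow b (by
      show Sum.inr u = Sum.inr _
      congr 1
      exact Fin.ext e)
    rw [if_neg (h1 a)]
    have h2 : hasE r a u.val = false := by
      rw [hasE, List.any_eq_false]
      intro b _
      simp [h1 b]
    rw [h2]
    simp

/-- The matrix of a root element on the block. -/
def xb (r : ℕ) (t : K) : Matrix (Fin 4) (Fin 4) K :=
  Matrix.of fun b a => (if b = a then 1 else 0) + (if tE r b a = true then t else 0)

lemma sub_x {r : ℕ} (hr : r < chevF4.nroots) (hok : okRoot r = true) (t : K) : sub (chevF4.x K r t) = xb r t := by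
  ext b a
  simp only [sub, xb, Matrix.of_apply]
  show chevF4.x K r t (Sum.inr ⟨blk b, blk_lt b⟩) (bi a) = _
  rw [entry_inr hr hok]
  have h1 : (blk b = blk a) ↔ b = a := blk_inj.eq_iff
  simp only [h1]
  congr 1
  have h2 : hasE r a (blk b) = tE r b a := by
    rw [hasE]
    cases h3 : tE r b a
    · rw [List.any_eq_false]
      intro c _
      by_cases h4 : blk b = blk c
      · have := blk_inj h4
        subst this
        simp [h3]
      · simp [h4]
    · rw [List.any_eq_true]
      exact ⟨b, List.mem_finRange b, by simp [h3]⟩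
  rw [h2]

end Cfsg.Agent.Lib.SchF4.Blk
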