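import Cfsg.Agent.Lib.SchF4.Blk
import Cfsg.Agent.Lib.SzIso.SchurSz

/-!
The elements of the Levi factor of `²F₄` on the block.
-/

set_option autoImplicit false
set_option linter.unusedSectionVars false
set_option linter.unusedVariables false
set_option linter.ambiguousOpen false
set_option linter.dupNamespace false
set_option linter.unusedSimpArgs false
set_option maxRecDepth 100000

open scoped MatrixGroups Matrix
open Cfsg _root_.Cfsg.Lie ChevalleyDatum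
open Cfsg.Agent.Lib.Chev
open Tables Tables2 Tables3 Raise Basic AxBasic Torus Products Products2 Mono1 Mono2 Mono3 Bn ChevSimple
open Cfsg.Agent.Lib.Twisted.Fact Cfsg.Agent.Lib.Twisted.Bruhat Cfsg.Agent.Lib.Twisted.Tw
open Cfsg.Agent.Lib.Twisted.Struct Cfsg.Agent.Lib.Twisted.Check Cfsg.Agent.Lib.Twisted.Ortho
open Cfsg.Agent.Lib.Twisted.TorusFix Cfsg.Agent.Lib.Twisted.OutA Cfsg.Agent.Lib.Twisted.OutB
open Cfsg.Agent.Lib.F24.F4Data Cfsg.Agent.Lib.F24.Tw Cfsg.Agent.Lib.F24.WordEq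
open Cfsg.Agent.Lib.F24.TD Cfsg.Agent.Lib.F24.Main Cfsg.Agent.Lib.F24.H1 Cfsg.Agent.Lib.F24.PerfF4
open Cfsg.Agent.Lib.F24.Coll Cfsg.Agent.Lib.F24.Cls Cfsg.Agent.Lib.F24.InvCls Cfsg.Agent.Lib.F24.OutF
open Cfsg.Agent.Lib.SchF4.Cl Cfsg.Agent.Lib.SchF4.Cl2 Cfsg.Agent.Lib.SchF4.Blk
open Cfsg.Agent.Lib.Twisted.Struct.TD
open Cfsg.Agent.Lib.Suzuki.Core (th th_add th_mul)
open Cfsg.Agent.Lib.Suzuki.Elements (uMat hMat wMat)

namespace Cfsg.Agent.Lib.SchF4.Blk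

variable {K : Type*} [Field K] [CharP K 2]

lemma xb27 (t : K) : xb 27 t = !![1, t, 0, 0; 0, 1, 0, 0; 0, 0, 1, t; 0, 0, 0, 1] := by
  ext b a
  fin_cases b <;> fin_cases a <;> simp (decide := true) [xb, tE, tL]

lemma xb25 (t : K) : xb 25 t = !![1, 0, 0, 0; 0, 1, t, 0; 0, 0, 1, 0; 0, 0, 0, 1] := by
  ext b a
  fin_cases b <;> fin_cases a <;> simp (decide := true) [xb, tE, tL]

lemma xb28 (t : K) : xb 28 t = !![1, 0, t, 0; 0, 1, 0, t; 0, 0, 1, 0; 0, 0, 0, 1] := by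
  ext b a
  fin_cases b <;> fin_cases a <;> simp (decide := true) [xb, tE, tL]

lemma xb30 (t : K) : xb 30 t = !![1, 0, 0, t; 0, 1, 0, 0; 0, 0, 1, 0; 0, 0, 0, 1] := by
  ext b a
  fin_cases b <;> fin_cases a <;> simp (decide := true) [xb, tE, tL]

lemma xb20 (t : K) : xb 20 t = !![1, 0, 0, 0; t, 1, 0, 0; 0, 0, 1, 0; 0, 0, t, 1] := by
  ext b a
  fin_cases b <;> fin_cases a <;> simp (decide := true) [xb, tE, tL]

lemma xb22 (t : K) : xb 22 t = !![1, 0, 0, 0; 0, 1, 0, 0; 0, t, 1, 0; 0, 0, 0, 1] := by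
  ext b a
  fin_cases b <;> fin_cases a <;> simp (decide := true) [xb, tE, tL]

variable (ax : Ax chevF4 K)

/-- Having a given restriction to the block. -/
def HasSub (g : GL chevF4.Idx K) (M : Matrix (Fin 4) (Fin 4) K) : Prop :=
  g ∈ StbG K ∧ sub (g : Matrix chevF4.Idx chevF4.Idx K) = M

variable {ax}

lemma HasSub.mul {g h : GL chevF4.Idx K} {M M' : Matrix (Fin 4) (Fin 4) K} (hg : HasSub g M) (hh : HasSub h M') :
    HasSub (g * h) (M * M') :=
  ⟨(StbG K).mul_mem hg.1 hh.1, by rw [Units.val_mul, sub_mul _ hh.1.1, hg.2, hh.2]⟩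

variable (ax)

lemma hasSub_xG {r : ℕ} (hr : r < chevF4.nroots) (hok : okRoot r = true) (t : K) : HasSub (xG ax r t) (xb r t) :=
  ⟨⟨Stbl_x hr hok t, by rw [xG_inv]; exact Stbl_x hr hok (-t)⟩, sub_x hr hok t⟩

lemma hasSub_V (x y z w : K) : HasSub (V ax 27 25 28 30 x y z w) (xb 27 x * xb 25 y * xb 28 z * xb 30 w) :=
  (((hasSub_xG ax (by decide) ok27 x).mul (hasSub_xG ax (by decide) ok25 y)).mul (hasSub_xG ax (by decide) ok28 z)).mul
    (hasSub_xG ax (by decide) ok30 w)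

/-- The class. -/
theorem hasSub_A8 {m : ℕ} (φ : K →+* K) (hth : ∀ x : K, th m x = (φ x) ^ 2) (hφ2 : ∀ t, (φ (φ t)) ^ 2 = t) (t u : K) :
    HasSub (A8 ax φ t u) (uMat m (φ t) (φ t * t + u)) := by
  have h := hasSub_V ax (φ t) t (φ t * t + u) ((φ u) ^ 2)
  refine ⟨h.1, h.2.trans ?_⟩
  rw [xb27, xb25, xb28, xb30]
  have h20 : (2 : K) = 0 := CharTwo.two_eq_zero
  have e1 : th m (φ t) = t := by rw [hth, hφ2]
  have e2 : th m (φ t * t + u) = t * (φ t) ^ 2 + (φ u) ^ 2 := by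
    rw [hth, map_add, map_mul, add_pow_two, mul_pow, hφ2]
    simp only [h20, zero_mul, add_zero]
  simp only [uMat, e1, e2]
  ext i j
  fin_cases i <;> fin_cases j <;> simp [Matrix.mul_apply, Fin.sum_univ_succ]
  all_goals first | ring1 | linear_combination (-(φ t ^ 2 * t)) * h20

/-- The first reflection on the block. -/
lemma hasSub_s1 : HasSub (sG ax 1) !![0, 1, 0, 0; 1, 0, 0, 0; 0, 0, 0, 1; 0, 0, 1, 0] := by
  have e1 : chevF4.simple 1 = 27 := by decide +kernel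
  have e2 : chevF4.neg 27 = 20 := by decide +kernel
  have h := ((hasSub_xG ax (by decide) ok27 (1 : K)).mul (hasSub_xG ax (by decide) ok20 (-(1 : K)⁻¹))).mul
    (hasSub_xG ax (by decide) ok27 (1 : K))
  have e3 : sG ax 1 = xG ax 27 1 * xG ax 20 (-(1 : K)⁻¹) * xG ax 27 1 := by
    rw [sG, nG, e1, e2]
  rw [e3]
  refine ⟨h.1, h.2.trans ?_⟩
  rw [xb27, xb20]
  have h20 : (2 : K) = 0 := CharTwo.two_eq_zero
  ext i j
  fin_cases i <;> fin_cases j <;> simp [Matrix.mul_apply, Fin.sum_univ_succ, CharTwo.neg_eq]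
  all_goals first | ring1 | linear_combination h20

lemma hasSub_s2 : HasSub (sG ax 2) !![1, 0, 0, 0; 0, 0, 1, 0; 0, 1, 0, 0; 0, 0, 0, 1] := by
  have e1 : chevF4.simple 2 = 25 := by decide +kernel
  have e2 : chevF4.neg 25 = 22 := by decide +kernel
  have h := ((hasSub_xG ax (by decide) ok25 (1 : K)).mul (hasSub_xG ax (by decide) ok22 (-(1 : K)⁻¹))).mul
    (hasSub_xG ax (by decide) ok25 (1 : K))
  have e3 : sG ax 2 = xG ax 25 1 * xG ax 22 (-(1 : K)⁻¹) * xG ax 25 1 := by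
    rw [sG, nG, e1, e2]
  rw [e3]
  refine ⟨h.1, h.2.trans ?_⟩
  rw [xb25, xb22]
  have h20 : (2 : K) = 0 := CharTwo.two_eq_zero
  ext i j
  fin_cases i <;> fin_cases j <;> simp [Matrix.mul_apply, Fin.sum_univ_succ, CharTwo.neg_eq]
  all_goals first | ring1 | linear_combination h20

/-- The Weyl element on the block. -/
theorem hasSub_n : HasSub (nF ax 1) (wMat K) := by
  have e1 : nF ax 1 = sG ax 1 * sG ax 2 * sG ax 1 * sG ax 2 := by
    show nw chevF4 ax [1, 2, 1, 2] = _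
    simp [nw, mul_assoc]
  have h := ((((hasSub_s1 ax).mul (hasSub_s2 ax)).mul (hasSub_s1 ax)).mul (hasSub_s2 ax))
  rw [e1]
  refine ⟨h.1, h.2.trans ?_⟩
  ext i j
  fin_cases i <;> fin_cases j <;> simp [Matrix.mul_apply, Fin.sum_univ_succ, wMat]

/-- Diagonal elements on the block. -/
theorem hasSub_diag (d : chevF4.Idx → Kˣ) :
    HasSub (diagG d) (Matrix.diagonal fun a => ((d (bi a) : Kˣ) : K)) := by
  have hS : ∀ d : chevF4.Idx → Kˣ, Stbl ((diagG d : GL chevF4.Idx K) : Matrix chevF4.Idx chevF4.Idx K) := by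
    intro d a row hrow
    exact Matrix.diagonal_apply_ne _ (hrow a)
  refine ⟨⟨hS d, ?_⟩, ?_⟩
  · rw [← map_inv]
    exact hS _
  · ext a b
    simp only [sub, Matrix.of_apply]
    show Matrix.diagonal _ (bi a) (bi b) = _
    by_cases h : a = b
    · subst h
      simp
    · rw [Matrix.diagonal_apply_ne _ h, Matrix.diagonal_apply_ne _ (fun e => h (bi_inj e))]

theorem hasSub_tor (y : ℕ → Kˣ) :
    HasSub (tor chevF4 y) (Matrix.diagonal fun a => ((chi chevF4 y (blk a) : Kˣ) : K)) :=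
  hasSub_diag _

/-- The torus on the block. -/
theorem hasSub_hh (φ : K →+* K) (hφ2 : ∀ t, (φ (φ t)) ^ 2 = t) (x y : Kˣ) :
    HasSub (tor chevF4 (Vv φ x y))
      !![φ (chv φ 7 x y), 0, 0, 0; 0, φ (chv φ 6 x y), 0, 0; 0, 0, φ (chv φ 2 x y), 0; 0, 0, 0, φ (chv φ 1 x y)] := by
  have h := hasSub_tor (K := K) (Vv φ x y)
  refine ⟨h.1, h.2.trans ?_⟩
  have e7 : chi chevF4 (Vv φ x y) (blk 0) = φu φ (chv φ 7 x y) := tb7_0 φ hφ2 x y
  have e6 : chi chevF4 (Vv φ x y) (blk 1) = φu φ (chv φ 6 x y) := tb6_0 φ hφ2 x y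
  have e2 : chi chevF4 (Vv φ x y) (blk 2) = φu φ (chv φ 2 x y) := tb2_0 φ hφ2 x y
  have e1 : chi chevF4 (Vv φ x y) (blk 3) = φu φ (chv φ 1 x y) := tb1_0 φ hφ2 x y
  ext a b
  fin_cases a <;> fin_cases b <;> simp [Matrix.diagonal_apply, e7, e6, e2, e1]
  all_goals rfl

end Cfsg.Agent.Lib.SchF4.Blk
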