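import Cfsg.Agent.Lib.F24.InvMain

/-!
The root classes of `²F₄` as one family; the commutator relations that are needed for the Schur multiplier.
-/

set_option autoImplicit false
set_option linter.unusedSectionVars false
set_option linter.unusedVariables false
set_option linter.ambiguousOpen false
set_option linter.dupNamespace false
set_option linter.unusedSimpArgs false
set_option maxRecDepth 1000000

namespace Cfsg.Agent.Lib.SchF4.Cl

open scoped MatrixGroups Matrix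
open Cfsg _root_.Cfsg.Lie ChevalleyDatum
open Cfsg.Agent.Lib.Chev
open Tables Tables2 Tables3 Raise Basic AxBasic Torus Products Products2 Mono1 Mono2 Mono3 Bn ChevSimple
open Cfsg.Agent.Lib.Twisted.Fact Cfsg.Agent.Lib.Twisted.Bruhat Cfsg.Agent.Lib.Twisted.Tw
open Cfsg.Agent.Lib.Twisted.Struct Cfsg.Agent.Lib.Twisted.Check Cfsg.Agent.Lib.Twisted.Ortho
open Cfsg.Agent.Lib.F24.F4Data Cfsg.Agent.Lib.F24.Tw Cfsg.Agent.Lib.F24.WordEq
open Cfsg.Agent.Lib.F24.TD Cfsg.Agent.Lib.F24.Main Cfsg.Agent.Lib.F24.InvForm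
open Cfsg.Agent.Lib.F24.Coll Cfsg.Agent.Lib.F24.Cls Cfsg.Agent.Lib.F24.Rel Cfsg.Agent.Lib.F24.RelA Cfsg.Agent.Lib.F24.InvCls
open Cfsg.Agent.Lib.Twisted.Struct.TD

variable {K : Type*} [Field K] [CharP K 2]

/-- The classes as one family. -/
noncomputable def cG (ax : Ax chevF4 K) (φ : K →+* K) : ℕ → K → K → GL chevF4.Idx K
  | 1, t, _ => A1 ax φ t
  | 2, t, u => A2 ax φ t u
  | 3, t, _ => A3 ax φ t
  | 4, t, u => A4 ax φ t u
  | 5, t, _ => A5 ax φ t
  | 6, t, u => A6 ax φ t u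
  | 7, t, _ => A7 ax φ t
  | 8, t, u => A8 ax φ t u
  | _, _, _ => 1

/-- The words of the classes. -/
def CCw : ℕ → Pol → Pol → PW
  | 1, t, _ => wA 33 24 t
  | 2, t, u => wB 34 26 36 42 t u
  | 3, t, _ => wA 38 43 t
  | 4, t, u => wB 29 41 44 47 t u
  | 5, t, _ => wA 39 45 t
  | 6, t, u => wB 35 31 40 46 t u
  | 7, t, _ => wA 37 32 t
  | 8, t, u => wB 27 25 28 30 t u
  | _, _, _ => []

/-- The number of parameters up to a class. -/
def pos : ℕ → ℕ
  | 0 => 0
  | 1 => 1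
  | 2 => 3
  | 3 => 4
  | 4 => 6
  | 5 => 7
  | 6 => 9
  | 7 => 10
  | _ => 12

/-- The word of a conjugate. -/
def pairW (i j : ℕ) : PW :=
  CCw i (vr 4 0) (vr 4 1) ++ CCw j (vr 4 2) (vr 4 3) ++ (CCw i (vr 4 0) (vr 4 1)).reverse

/-- The check of a conjugate. -/
def okPair (i j : ℕ) : Bool :=
  okW (pairW i j) && (List.range (pos i)).all fun l => ((peel (pairW i j)).getD l []).isEmpty

/-- All checks. -/
def allPairs : Bool :=
  (List.range 9).all fun i => (List.range 9).all fun j => !(decide (1 ≤ i ∧ i < j)) || okPair i j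

theorem allPairs_eq : allPairs = true := by decide +kernel

section pair

variable (ax : Ax chevF4 K) (φ : K →+* K) (hφ2 : ∀ t, (φ (φ t)) ^ 2 = t)

include hφ2 in
lemma word_CC (vals : List K) (k : ℕ) (t u : Pol) (ht : pEven t = true) :
    wordG ax (evalW (envOf φ vals) (CCw k t u)) = cG ax φ k (evalP (envOf φ vals) t) (evalP (envOf φ vals) u) := by
  rcases k with _ | _ | _ | _ | _ | _ | _ | _ | _ | k
  · simp [CCw, cG, evalW, wordG]
  · exact word_wA ax φ hφ2 vals 33 24 t ht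
  · exact word_wB ax φ hφ2 vals 34 26 36 42 t u ht
  · exact word_wA ax φ hφ2 vals 38 43 t ht
  · exact word_wB ax φ hφ2 vals 29 41 44 47 t u ht
  · exact word_wA ax φ hφ2 vals 39 45 t ht
  · exact word_wB ax φ hφ2 vals 35 31 40 46 t u ht
  · exact word_wA ax φ hφ2 vals 37 32 t ht
  · exact word_wB ax φ hφ2 vals 27 25 28 30 t u ht
  · simp [CCw, cG, evalW, wordG]

lemma cG_zero (k : ℕ) : cG ax φ k 0 0 = 1 := by
  rcases k with _ | _ | _ | _ | _ | _ | _ | _ | _ | k
  · rfl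
  · exact A1_zero ax φ
  · exact A2_zero ax φ
  · exact A3_zero ax φ
  · exact A4_zero ax φ
  · exact A5_zero ax φ
  · exact A6_zero ax φ
  · exact A7_zero ax φ
  · exact A8_zero ax φ
  · rfl

lemma pos_mono {k i : ℕ} (hk : k ≤ i) (hi : i ≤ 8) : pos k ≤ pos i := by
  interval_cases i <;> interval_cases k <;> decide

theorem gg_mem (W : Subgroup (GL chevF4.Idx K)) {i : ℕ} (hi : i ≤ 8)
    (hW : ∀ k, i < k → k ≤ 8 → ∀ t u, cG ax φ k t u ∈ W) (p : ℕ → K) (hp : ∀ l, l < pos i → p l = 0) :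
    gg ax φ (p 0) (p 1) (p 2) (p 3) (p 4) (p 5) (p 6) (p 7) (p 8) (p 9) (p 10) (p 11) ∈ W := by
  have key : ∀ (k l₁ l₂ : ℕ), k ≤ 8 → l₁ < pos k → l₂ < pos k → cG ax φ k (p l₁) (p l₂) ∈ W := by
    intro k l₁ l₂ hk h1 h2
    by_cases hki : k ≤ i
    · have h3 := pos_mono hki hi
      rw [hp l₁ (by omega), hp l₂ (by omega), cG_zero]
      exact W.one_mem
    · exact hW k (by omega) hk _ _
  have f1 : A1 ax φ (p 0) ∈ W := by
    by_cases h1 : 1 ≤ i
    · have h3 := pos_mono h1 hi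
      have h4 : pos 1 = 1 := rfl
      rw [hp 0 (by omega), A1_zero]
      exact W.one_mem
    · exact hW 1 (by omega) (by omega) (p 0) 0
  have f2 : A2 ax φ (p 1) (p 2) ∈ W := key 2 1 2 (by omega) (by decide) (by decide)
  have f3 : A3 ax φ (p 3) ∈ W := by
    by_cases h1 : 3 ≤ i
    · have h3 := pos_mono h1 hi
      have h4 : pos 3 = 4 := rfl
      rw [hp 3 (by omega), A3_zero]
      exact W.one_mem
    · exact hW 3 (by omega) (by omega) (p 3) 0
  have f4 : A4 ax φ (p 4) (p 5) ∈ W := key 4 4 5 (by omega) (by decide) (by decide)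
  have f5 : A5 ax φ (p 6) ∈ W := by
    by_cases h1 : 5 ≤ i
    · have h3 := pos_mono h1 hi
      have h4 : pos 5 = 7 := rfl
      rw [hp 6 (by omega), A5_zero]
      exact W.one_mem
    · exact hW 5 (by omega) (by omega) (p 6) 0
  have f6 : A6 ax φ (p 7) (p 8) ∈ W := key 6 7 8 (by omega) (by decide) (by decide)
  have f7 : A7 ax φ (p 9) ∈ W := by
    by_cases h1 : 7 ≤ i
    · have h3 := pos_mono h1 hi
      have h4 : pos 7 = 10 := rfl
      rw [hp 9 (by omega), A7_zero]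
      exact W.one_mem
    · exact hW 7 (by omega) (by omega) (p 9) 0
  have f8 : A8 ax φ (p 10) (p 11) ∈ W := key 8 10 11 (by omega) (by decide) (by decide)
  exact W.mul_mem (W.mul_mem (W.mul_mem (W.mul_mem (W.mul_mem (W.mul_mem (W.mul_mem f1 f2) f3) f4) f5) f6) f7) f8

lemma okPair_of {i j : ℕ} (hi : 1 ≤ i) (hij : i < j) (hj : j ≤ 8) : okPair i j = true := by
  have h := allPairs_eq
  simp only [allPairs, List.all_eq_true, List.mem_range, Bool.or_eq_true, Bool.not_eq_true', decide_eq_false_iff_not] at h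
  rcases h i (by omega) j (by omega) with h1 | h1
  · exact absurd ⟨hi, hij⟩ h1
  · exact h1

lemma env_vr0 (a b c d : K) : evalP (envOf φ [a, b, c, d]) (vr 4 0) = a := evalP_vr φ _ 4 0 (by decide) (by simp)
lemma env_vr1 (a b c d : K) : evalP (envOf φ [a, b, c, d]) (vr 4 1) = b := evalP_vr φ _ 4 1 (by decide) (by simp)
lemma env_vr2 (a b c d : K) : evalP (envOf φ [a, b, c, d]) (vr 4 2) = c := evalP_vr φ _ 4 2 (by decide) (by simp)
lemma env_vr3 (a b c d : K) : evalP (envOf φ [a, b, c, d]) (vr 4 3) = d := evalP_vr φ _ 4 3 (by decide) (by simp)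

include hφ2 in
lemma word_i (i : ℕ) (a b c d : K) :
    wordG ax (evalW (envOf φ [a, b, c, d]) (CCw i (vr 4 0) (vr 4 1))) = cG ax φ i a b := by
  rw [word_CC ax φ hφ2 _ _ _ _ (by decide +kernel), env_vr0, env_vr1]

include hφ2 in
lemma word_j (i : ℕ) (a b c d : K) :
    wordG ax (evalW (envOf φ [a, b, c, d]) (CCw i (vr 4 2) (vr 4 3))) = cG ax φ i c d := by
  rw [word_CC ax φ hφ2 _ _ _ _ (by decide +kernel), env_vr2, env_vr3]

include hφ2 in
/-- Conjugates of later classes lie in the later classes. -/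
theorem pair_mem (W : Subgroup (GL chevF4.Idx K)) {i j : ℕ} (hi : 1 ≤ i) (hij : i < j) (hj : j ≤ 8)
    (hW : ∀ k, i < k → k ≤ 8 → ∀ t u, cG ax φ k t u ∈ W) (a b c d : K) :
    cG ax φ i a b * cG ax φ j c d * (cG ax φ i a b)⁻¹ ∈ W := by
  have h := okPair_of hi hij hj
  simp only [okPair, Bool.and_eq_true, List.all_eq_true, List.mem_range, List.isEmpty_iff] at h
  obtain ⟨hok, hz⟩ := h
  have hw := word_gg ax φ hφ2 [a, b, c, d] hok
  have e1 : wordG ax (evalW (envOf φ [a, b, c, d]) (pairW i j)) = cG ax φ i a b * cG ax φ j c d * (cG ax φ i a b)⁻¹ := by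
    rw [pairW, word_conj, word_i ax φ hφ2, word_j ax φ hφ2]
  rw [e1] at hw
  rw [hw]
  refine gg_mem ax φ W (by omega) hW (fun l => ev [a, b, c, d] φ (peel (pairW i j)) l) ?_
  intro l hl
  simp only [ev]
  rw [hz l hl]
  rfl

/-- The word of a commutator. -/
def commW (i j : ℕ) : PW :=
  CCw i (vr 4 0) (vr 4 1) ++ CCw j (vr 4 2) (vr 4 3) ++ (CCw i (vr 4 0) (vr 4 1)).reverse ++ (CCw j (vr 4 2) (vr 4 3)).reverse

include hφ2 in
lemma word_comm (i j : ℕ) (a b c d : K) :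
    wordG ax (evalW (envOf φ [a, b, c, d]) (commW i j)) =
      cG ax φ i a b * cG ax φ j c d * (cG ax φ i a b)⁻¹ * (cG ax φ j c d)⁻¹ := by
  rw [commW, evalW_app, wordG_append, word_conj, word_i ax φ hφ2, word_j ax φ hφ2, ← word_rev, word_j ax φ hφ2]

/-- A pair of commuting classes. -/
def commOne (i j : ℕ) : Bool := okW (commW i j) && (peel (commW i j)).all List.isEmpty

/-- The commuting pairs. -/
theorem commOne_34 : commOne 3 4 = true := by decide +kernel
theorem commOne_35 : commOne 3 5 = true := by decide +kernel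
theorem commOne_45 : commOne 4 5 = true := by decide +kernel

include hφ2 in
theorem comm_of_one {i j : ℕ} (h : commOne i j = true) (a b c d : K) :
    cG ax φ i a b * cG ax φ j c d * (cG ax φ i a b)⁻¹ * (cG ax φ j c d)⁻¹ = 1 := by
  simp only [commOne, Bool.and_eq_true, List.all_eq_true, List.isEmpty_iff] at h
  obtain ⟨hok, hz⟩ := h
  have hw := word_gg ax φ hφ2 [a, b, c, d] hok
  rw [word_comm ax φ hφ2] at hw
  rw [hw]
  have hl : ∀ l, ev [a, b, c, d] φ (peel (commW i j)) l = 0 := by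
    intro l
    simp only [ev]
    by_cases h1 : l < (peel (commW i j)).length
    · rw [List.getD_eq_getElem _ _ h1, hz _ (List.getElem_mem h1)]
      rfl
    · rw [List.getD_eq_default _ _ (by omega)]
      rfl
  simp only [hl]
  exact gg_zero ax φ

/-- The two commutators with values in a class. -/
theorem d25 : okW (commW 2 5) = true ∧ peel (commW 2 5) = [[], [], [], [], [], pMul (pPhi (vr 4 0)) (pPhi (vr 4 2)), [], [], [], [], [], []] := by
  decide +kernel

theorem d24 : okW (commW 2 4) = true ∧ peel (commW 2 4) = [[], [], [], pMul (vr 4 0) (vr 4 2), [], [], [], [], [], [], [], []] := by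
  decide +kernel

include hφ2 in
theorem comm25 (a b c d : K) :
    A2 ax φ a b * A5 ax φ c * (A2 ax φ a b)⁻¹ * (A5 ax φ c)⁻¹ = A4 ax φ 0 (φ a * φ c) := by
  obtain ⟨hok, hz⟩ := d25
  have hw := word_gg ax φ hφ2 [a, b, c, d] hok
  rw [word_comm ax φ hφ2, hz] at hw
  simp only [ev] at hw
  simp (disch := first | simp | decide) only [Cfsg.Agent.Lib.F24.Coll.evalP_add, Cfsg.Agent.Lib.F24.Coll.evalP_mul, evalP_F φ hφ2, evalP_Phi φ hφ2, Cfsg.Agent.Lib.F24.Coll.evalP_pow, evalP_vr φ _ 4 _, Cfsg.Agent.Lib.F24.Coll.evalP_nil, List.getD_cons_zero, List.getD_cons_succ] at hw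
  rw [show (cG ax φ 2 a b * cG ax φ 5 c d * (cG ax φ 2 a b)⁻¹ * (cG ax φ 5 c d)⁻¹) = A2 ax φ a b * A5 ax φ c * (A2 ax φ a b)⁻¹ * (A5 ax φ c)⁻¹ from rfl] at hw
  rw [hw]
  simp only [gg, A1_zero, A2_zero, A3_zero, A5_zero, A6_zero, A7_zero, A8_zero, mul_one, one_mul]

include hφ2 in
theorem comm24 (a b c d : K) :
    A2 ax φ a b * A4 ax φ c d * (A2 ax φ a b)⁻¹ * (A4 ax φ c d)⁻¹ = A3 ax φ (a * c) := by
  obtain ⟨hok, hz⟩ := d24
  have hw := word_gg ax φ hφ2 [a, b, c, d] hok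
  rw [word_comm ax φ hφ2, hz] at hw
  simp only [ev] at hw
  simp (disch := first | simp | decide) only [Cfsg.Agent.Lib.F24.Coll.evalP_add, Cfsg.Agent.Lib.F24.Coll.evalP_mul, evalP_F φ hφ2, evalP_Phi φ hφ2, Cfsg.Agent.Lib.F24.Coll.evalP_pow, evalP_vr φ _ 4 _, Cfsg.Agent.Lib.F24.Coll.evalP_nil, List.getD_cons_zero, List.getD_cons_succ] at hw
  rw [show (cG ax φ 2 a b * cG ax φ 4 c d * (cG ax φ 2 a b)⁻¹ * (cG ax φ 4 c d)⁻¹) = A2 ax φ a b * A4 ax φ c d * (A2 ax φ a b)⁻¹ * (A4 ax φ c d)⁻¹ from rfl] at hw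
  rw [hw]
  simp only [gg, A1_zero, A2_zero, A4_zero, A5_zero, A6_zero, A7_zero, A8_zero, mul_one, one_mul]

end pair

end Cfsg.Agent.Lib.SchF4.Cl
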