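import Cfsg.Agent.Lib.SchF4.Cl

/-!
The action of the torus on the root classes of `²F₄`, and its separating properties.
-/

set_option autoImplicit false
set_option linter.unusedSectionVars false
set_option linter.unusedVariables false
set_option linter.ambiguousOpen false
set_option linter.dupNamespace false
set_option linter.unusedSimpArgs false
set_option maxRecDepth 100000

namespace Cfsg.Agent.Lib.SchF4.Cl2

open scoped MatrixGroups Matrix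
open Cfsg _root_.Cfsg.Lie ChevalleyDatum
open Cfsg.Agent.Lib.Chev
open Tables Tables2 Tables3 Raise Basic AxBasic Torus Products Products2 Mono1 Mono2 Mono3 Bn ChevSimple
open Cfsg.Agent.Lib.Twisted.Fact Cfsg.Agent.Lib.Twisted.Bruhat Cfsg.Agent.Lib.Twisted.Tw
open Cfsg.Agent.Lib.Twisted.Struct Cfsg.Agent.Lib.Twisted.Check Cfsg.Agent.Lib.Twisted.Ortho
open Cfsg.Agent.Lib.Twisted.TorusFix Cfsg.Agent.Lib.Twisted.OutA Cfsg.Agent.Lib.Twisted.OutB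
open Cfsg.Agent.Lib.F24.F4Data Cfsg.Agent.Lib.F24.Tw Cfsg.Agent.Lib.F24.WordEq
open Cfsg.Agent.Lib.F24.TD Cfsg.Agent.Lib.F24.Main Cfsg.Agent.Lib.F24.H1 Cfsg.Agent.Lib.F24.PerfF4
open Cfsg.Agent.Lib.F24.Coll Cfsg.Agent.Lib.F24.Cls Cfsg.Agent.Lib.F24.InvCls Cfsg.Agent.Lib.F24.OutF
open Cfsg.Agent.Lib.SchF4.Cl
open Cfsg.Agent.Lib.Twisted.Struct.TD

section units

variable {K : Type*} [Field K] (φ : K →+* K)

/-- The map `θ` on units. -/
noncomputable def θu : Kˣ →* Kˣ := (powMonoidHom 2).comp (φu φ)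

lemma θu_apply (s : Kˣ) : θu φ s = (φu φ s) ^ 2 := rfl

lemma θu_coe (s : Kˣ) : ((θu φ s : Kˣ) : K) = (φ s) ^ 2 := rfl

variable {φ} (hφ2 : ∀ t, (φ (φ t)) ^ 2 = t)

include hφ2

lemma φu_θu (s : Kˣ) : φu φ (θu φ s) = s := by
  apply Units.ext
  show φ ((φ s) ^ 2) = s
  rw [map_pow, hφ2]

lemma θu_θu (s : Kˣ) : θu φ (θu φ s) = s ^ 2 := by
  rw [θu_apply, φu_θu hφ2]

lemma θu_φu (s : Kˣ) : θu φ (φu φ s) = s := by
  apply Units.ext
  exact hφ2 s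

end units

section chv

variable {K : Type*} [Field K] (φ : K →+* K)

/-- The character of a class. -/
noncomputable def chv : ℕ → Kˣ → Kˣ → Kˣ
  | 1, x, _ => x
  | 2, x, y => x * y
  | 3, x, y => x * θu φ x * y ^ 2 * θu φ y
  | 4, x, y => θu φ x * (y * θu φ y)
  | 5, x, y => x * θu φ x * y ^ 2 * (θu φ y) ^ 2
  | 6, x, y => x * (y * θu φ y)
  | 7, x, y => x * y ^ 2 * θu φ y
  | 8, _, y => y
  | _, _, _ => 1

/-- The exponents. -/
def wtT : ℕ → ℤ × ℤ × ℤ × ℤ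
  | 1 => (1, 0, 0, 0)
  | 2 => (1, 0, 1, 0)
  | 3 => (1, 1, 2, 1)
  | 4 => (0, 1, 1, 1)
  | 5 => (1, 1, 2, 2)
  | 6 => (1, 0, 1, 1)
  | 7 => (1, 0, 2, 1)
  | 8 => (0, 0, 1, 0)
  | _ => (0, 0, 0, 0)

/-- Powers. -/
noncomputable def Pw (a b : ℤ) (s : Kˣ) : Kˣ := s ^ a * (θu φ s) ^ b

lemma chv_eq (k : ℕ) (x y : Kˣ) :
    chv φ k x y = Pw φ (wtT k).1 (wtT k).2.1 x * Pw φ (wtT k).2.2.1 (wtT k).2.2.2 y := by
  rcases k with _ | _ | _ | _ | _ | _ | _ | _ | _ | k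
  · simp [chv, wtT, Pw]
  · simp [chv, wtT, Pw]
  · simp [chv, wtT, Pw]
  · simp only [chv, wtT, Pw]
    norm_cast
    simp only [pow_one]
    ac_rfl
  · simp [chv, wtT, Pw]
  · simp only [chv, wtT, Pw]
    norm_cast
    simp only [pow_one]
    ac_rfl
  · simp [chv, wtT, Pw]
  · simp only [chv, wtT, Pw]
    norm_cast
    simp only [pow_one, pow_zero, mul_one]
    ac_rfl
  · simp [chv, wtT, Pw]
  · simp [chv, wtT, Pw]

variable {φ} (hφ2 : ∀ t, (φ (φ t)) ^ 2 = t)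

lemma Pw_mul (a b c d : ℤ) (s : Kˣ) : Pw φ a b s * Pw φ c d s = Pw φ (a + c) (b + d) s := by
  simp only [Pw, zpow_add]
  ac_rfl

lemma Pw_zero (s : Kˣ) : Pw φ 0 0 s = 1 := by simp [Pw]

include hφ2 in
lemma Pw_comp (a b c d : ℤ) (s : Kˣ) : Pw φ a b (Pw φ c d s) = Pw φ (a * c + 2 * b * d) (a * d + b * c) s := by
  simp only [Pw, map_mul, map_zpow, θu_θu hφ2, mul_zpow, ← zpow_mul, ← zpow_natCast, zpow_add]
  rw [show ((2 : ℕ) : ℤ) * d * b = 2 * b * d by push_cast; ring, mul_comm c a, mul_comm d a, mul_comm c b]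
  generalize s ^ (a * c) = A1
  generalize s ^ (2 * b * d) = A2
  generalize (θu φ s) ^ (a * d) = A3
  generalize (θu φ s) ^ (b * c) = A4
  ac_rfl

lemma Pw_one (a b : ℤ) : Pw φ a b (1 : Kˣ) = 1 := by simp [Pw]

/-- The norm of the determinant of a pair. -/
def nrm (i j : ℕ) : ℤ :=
  let w := wtT i
  let w' := wtT j
  let A := w'.1 * w.2.2.1 + 2 * w'.2.1 * w.2.2.2 - w'.2.2.1 * w.1 - 2 * w'.2.2.2 * w.2.1
  let B := w'.1 * w.2.2.2 + w'.2.1 * w.2.2.1 - w'.2.2.1 * w.2.1 - w'.2.2.2 * w.1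
  A * A - 2 * B * B

theorem nrm_dvd : ∀ i ∈ List.range 9, ∀ j ∈ List.range 9, (1 ≤ i ∧ 1 ≤ j ∧ i ≠ j) → nrm i j ∣ 4 := by decide

lemma four_eq_one [CharP K 2] {s : Kˣ} (h : s ^ 4 = 1) : s = 1 := by
  have h1 : ((s : K)) ^ 4 = 1 := by
    have := congrArg (Units.val) h
    simpa using this
  have h2 : ∀ z : K, z ^ 2 = 1 → z = 1 := by
    intro z hz
    have h3 : (z - 1) ^ 2 = 0 := by
      have h20 : (2 : K) = 0 := CharTwo.two_eq_zero
      linear_combination hz + (1 - z) * h20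
    have h4 := pow_eq_zero_iff (two_ne_zero) |>.mp h3
    exact sub_eq_zero.mp h4
  apply Units.ext
  apply h2
  apply h2
  rw [← pow_mul]
  exact h1

include hφ2 in
/-- Separation of two classes by the torus. -/
theorem sep [CharP K 2] {i j : ℕ} (hi : 1 ≤ i ∧ i ≤ 8) (hj : 1 ≤ j ∧ j ≤ 8) (hij : i ≠ j) {s : Kˣ} (hs : s ≠ 1) :
    ∃ x y : Kˣ, chv φ i x y = 1 ∧ chv φ j x y ≠ 1 := by
  refine ⟨Pw φ (wtT i).2.2.1 (wtT i).2.2.2 s, Pw φ (-(wtT i).1) (-(wtT i).2.1) s, ?_, ?_⟩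
  · rw [chv_eq, Pw_comp hφ2, Pw_comp hφ2, Pw_mul]
    have e1 : (wtT i).1 * (wtT i).2.2.1 + 2 * (wtT i).2.1 * (wtT i).2.2.2 +
        ((wtT i).2.2.1 * -(wtT i).1 + 2 * (wtT i).2.2.2 * -(wtT i).2.1) = 0 := by ring
    have e2 : (wtT i).1 * (wtT i).2.2.2 + (wtT i).2.1 * (wtT i).2.2.1 +
        ((wtT i).2.2.1 * -(wtT i).2.1 + (wtT i).2.2.2 * -(wtT i).1) = 0 := by ring
    rw [e1, e2, Pw_zero]
  · rw [chv_eq, Pw_comp hφ2, Pw_comp hφ2, Pw_mul]
    intro h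
    set A := (wtT j).1 * (wtT i).2.2.1 + 2 * (wtT j).2.1 * (wtT i).2.2.2 +
        ((wtT j).2.2.1 * -(wtT i).1 + 2 * (wtT j).2.2.2 * -(wtT i).2.1) with hA
    set B := (wtT j).1 * (wtT i).2.2.2 + (wtT j).2.1 * (wtT i).2.2.1 +
        ((wtT j).2.2.1 * -(wtT i).2.1 + (wtT j).2.2.2 * -(wtT i).1) with hB
    have h3 : Pw φ A (-B) (Pw φ A B s) = 1 := by rw [h, Pw_one]
    rw [Pw_comp hφ2] at h3
    have e3 : A * B + -B * A = 0 := by ring
    rw [e3] at h3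
    have h4 : s ^ (nrm i j) = 1 := by
      have e4 : nrm i j = A * A + 2 * -B * B := by
        simp only [nrm, hA, hB]
        ring
      rw [e4]
      simpa [Pw] using h3
    obtain ⟨k, hk⟩ := nrm_dvd i (List.mem_range.mpr (by omega)) j (List.mem_range.mpr (by omega)) ⟨hi.1, hj.1, hij⟩
    have h5 : s ^ 4 = 1 := by
      have : s ^ (4 : ℤ) = 1 := by
        rw [hk, zpow_mul, h4, one_zpow]
      exact_mod_cast this
    exact hs (four_eq_one h5)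

end chv


section conj

variable {K : Type*} [Field K] [CharP K 2] (ax : Ax chevF4 K) (φ : K →+* K) (hφ2 : ∀ t, (φ (φ t)) ^ 2 = t)

/-- The parameters of the torus. -/
noncomputable abbrev Vv (x y : Kˣ) : ℕ → Kˣ := vec4 (φu φ x) (φu φ y) y x

lemma conj_C0' (g : GL chevF4.Idx K) {v : ℕ → Kˣ} (hg : g = tor chevF4 v) {r s : ℕ} (hr : r < chevF4.nroots) (hs : s < chevF4.nroots) {χ : Kˣ}
    (h1 : chi chevF4 v r = φu φ χ) (h2 : chi chevF4 v s = χ) (a : K) :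
    g * C0 ax φ r s a * g⁻¹ = C0 ax φ r s ((χ : K) * a) := by
  subst hg
  have e1 : ∀ (g a b : GL chevF4.Idx K), g * (a * b) * g⁻¹ = (g * a * g⁻¹) * (g * b * g⁻¹) := by
    intro g a b
    group
  rw [C0, e1, tor_conj_xG ax hF _ hr, tor_conj_xG ax hF _ hs, h1, h2, C0, map_mul]
  rfl

lemma conj_αV' (g : GL chevF4.Idx K) {v : ℕ → Kˣ} (hg : g = tor chevF4 v) {a b ab aab : ℕ} (h0 : a < chevF4.nroots) (h1 : b < chevF4.nroots)
    (h2 : ab < chevF4.nroots) (h3 : aab < chevF4.nroots) {χ : Kˣ}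
    (e0 : chi chevF4 v a = φu φ χ) (e1 : chi chevF4 v b = χ) (e2 : chi chevF4 v ab = φu φ χ * χ)
    (e3 : chi chevF4 v aab = (φu φ χ) ^ 2 * χ) (hφ2 : ∀ t, (φ (φ t)) ^ 2 = t) (t u : K) :
    g * αV ax φ a b ab aab t u * g⁻¹ = αV ax φ a b ab aab ((χ : K) * t) (φ χ * χ * u) := by
  subst hg
  have e : ∀ (g a b : GL chevF4.Idx K), g * (a * b) * g⁻¹ = (g * a * g⁻¹) * (g * b * g⁻¹) := by
    intro g a b
    group
  simp only [αV, V, e]
  rw [tor_conj_xG ax hF _ h0, tor_conj_xG ax hF _ h1, tor_conj_xG ax hF _ h2, tor_conj_xG ax hF _ h3, e0, e1, e2, e3]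
  have c1 : ((φu φ χ : Kˣ) : K) = φ χ := rfl
  simp only [Units.val_mul, Units.val_pow_eq_pow_val, c1, map_mul, map_add]
  congr 2
  · congr 1
    ring
  · rw [mul_pow, mul_pow, hφ2]
    ring

include hφ2 in
lemma tb1_0 (x y : Kˣ) : chi chevF4 (Vv φ x y) 33 = φu φ (chv φ 1 x y) := by
  rw [chi_coef _ 33 1 0 0 0 (by decide +kernel)]
  apply Units.ext
  simp [vec4, chv, θu_coe, φu_coe, hφ2, map_mul, map_pow]
  try ring

include hφ2 in
lemma tb1_1 (x y : Kˣ) : chi chevF4 (Vv φ x y) 24 = chv φ 1 x y := by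
  rw [chi_coef _ 24 0 0 0 1 (by decide +kernel)]
  apply Units.ext
  simp [vec4, chv, θu_coe, φu_coe, hφ2, map_mul, map_pow]
  try ring

include hφ2 in
lemma tb2_0 (x y : Kˣ) : chi chevF4 (Vv φ x y) 34 = φu φ (chv φ 2 x y) := by
  rw [chi_coef _ 34 1 1 0 0 (by decide +kernel)]
  apply Units.ext
  simp [vec4, chv, θu_coe, φu_coe, hφ2, map_mul, map_pow]
  try ring

include hφ2 in
lemma tb2_1 (x y : Kˣ) : chi chevF4 (Vv φ x y) 26 = chv φ 2 x y := by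
  rw [chi_coef _ 26 0 0 1 1 (by decide +kernel)]
  apply Units.ext
  simp [vec4, chv, θu_coe, φu_coe, hφ2, map_mul, map_pow]
  try ring

include hφ2 in
lemma tb2_2 (x y : Kˣ) : chi chevF4 (Vv φ x y) 36 = φu φ (chv φ 2 x y) * chv φ 2 x y := by
  rw [chi_coef _ 36 1 1 1 1 (by decide +kernel)]
  apply Units.ext
  simp [vec4, chv, θu_coe, φu_coe, hφ2, map_mul, map_pow]
  try ring

include hφ2 in
lemma tb2_3 (x y : Kˣ) : chi chevF4 (Vv φ x y) 42 = (φu φ (chv φ 2 x y)) ^ 2 * chv φ 2 x y := by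
  rw [chi_coef _ 42 2 2 1 1 (by decide +kernel)]
  apply Units.ext
  simp [vec4, chv, θu_coe, φu_coe, hφ2, map_mul, map_pow]
  try ring

include hφ2 in
lemma tb3_0 (x y : Kˣ) : chi chevF4 (Vv φ x y) 38 = φu φ (chv φ 3 x y) := by
  rw [chi_coef _ 38 1 2 1 1 (by decide +kernel)]
  apply Units.ext
  simp [vec4, chv, θu_coe, φu_coe, hφ2, map_mul, map_pow]
  try ring

include hφ2 in
lemma tb3_1 (x y : Kˣ) : chi chevF4 (Vv φ x y) 43 = chv φ 3 x y := by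
  rw [chi_coef _ 43 2 2 2 1 (by decide +kernel)]
  apply Units.ext
  simp [vec4, chv, θu_coe, φu_coe, hφ2, map_mul, map_pow]
  try ring

include hφ2 in
lemma tb4_0 (x y : Kˣ) : chi chevF4 (Vv φ x y) 29 = φu φ (chv φ 4 x y) := by
  rw [chi_coef _ 29 0 1 1 1 (by decide +kernel)]
  apply Units.ext
  simp [vec4, chv, θu_coe, φu_coe, hφ2, map_mul, map_pow]
  try ring

include hφ2 in
lemma tb4_1 (x y : Kˣ) : chi chevF4 (Vv φ x y) 41 = chv φ 4 x y := by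
  rw [chi_coef _ 41 2 2 1 0 (by decide +kernel)]
  apply Units.ext
  simp [vec4, chv, θu_coe, φu_coe, hφ2, map_mul, map_pow]
  try ring

include hφ2 in
lemma tb4_2 (x y : Kˣ) : chi chevF4 (Vv φ x y) 44 = φu φ (chv φ 4 x y) * chv φ 4 x y := by
  rw [chi_coef _ 44 2 3 2 1 (by decide +kernel)]
  apply Units.ext
  simp [vec4, chv, θu_coe, φu_coe, hφ2, map_mul, map_pow]
  try ring

include hφ2 in
lemma tb4_3 (x y : Kˣ) : chi chevF4 (Vv φ x y) 47 = (φu φ (chv φ 4 x y)) ^ 2 * chv φ 4 x y := by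
  rw [chi_coef _ 47 2 4 3 2 (by decide +kernel)]
  apply Units.ext
  simp [vec4, chv, θu_coe, φu_coe, hφ2, map_mul, map_pow]
  try ring

include hφ2 in
lemma tb5_0 (x y : Kˣ) : chi chevF4 (Vv φ x y) 39 = φu φ (chv φ 5 x y) := by
  rw [chi_coef _ 39 1 2 2 1 (by decide +kernel)]
  apply Units.ext
  simp [vec4, chv, θu_coe, φu_coe, hφ2, map_mul, map_pow]
  try ring

include hφ2 in
lemma tb5_1 (x y : Kˣ) : chi chevF4 (Vv φ x y) 45 = chv φ 5 x y := by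
  rw [chi_coef _ 45 2 4 2 1 (by decide +kernel)]
  apply Units.ext
  simp [vec4, chv, θu_coe, φu_coe, hφ2, map_mul, map_pow]
  try ring

include hφ2 in
lemma tb6_0 (x y : Kˣ) : chi chevF4 (Vv φ x y) 35 = φu φ (chv φ 6 x y) := by
  rw [chi_coef _ 35 1 1 1 0 (by decide +kernel)]
  apply Units.ext
  simp [vec4, chv, θu_coe, φu_coe, hφ2, map_mul, map_pow]
  try ring

include hφ2 in
lemma tb6_1 (x y : Kˣ) : chi chevF4 (Vv φ x y) 31 = chv φ 6 x y := by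
  rw [chi_coef _ 31 0 2 1 1 (by decide +kernel)]
  apply Units.ext
  simp [vec4, chv, θu_coe, φu_coe, hφ2, map_mul, map_pow]
  try ring

include hφ2 in
lemma tb6_2 (x y : Kˣ) : chi chevF4 (Vv φ x y) 40 = φu φ (chv φ 6 x y) * chv φ 6 x y := by
  rw [chi_coef _ 40 1 3 2 1 (by decide +kernel)]
  apply Units.ext
  simp [vec4, chv, θu_coe, φu_coe, hφ2, map_mul, map_pow]
  try ring

include hφ2 in
lemma tb6_3 (x y : Kˣ) : chi chevF4 (Vv φ x y) 46 = (φu φ (chv φ 6 x y)) ^ 2 * chv φ 6 x y := by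
  rw [chi_coef _ 46 2 4 3 1 (by decide +kernel)]
  apply Units.ext
  simp [vec4, chv, θu_coe, φu_coe, hφ2, map_mul, map_pow]
  try ring

include hφ2 in
lemma tb7_0 (x y : Kˣ) : chi chevF4 (Vv φ x y) 37 = φu φ (chv φ 7 x y) := by
  rw [chi_coef _ 37 1 2 1 0 (by decide +kernel)]
  apply Units.ext
  simp [vec4, chv, θu_coe, φu_coe, hφ2, map_mul, map_pow]
  try ring

include hφ2 in
lemma tb7_1 (x y : Kˣ) : chi chevF4 (Vv φ x y) 32 = chv φ 7 x y := by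
  rw [chi_coef _ 32 0 2 2 1 (by decide +kernel)]
  apply Units.ext
  simp [vec4, chv, θu_coe, φu_coe, hφ2, map_mul, map_pow]
  try ring

include hφ2 in
lemma tb8_0 (x y : Kˣ) : chi chevF4 (Vv φ x y) 27 = φu φ (chv φ 8 x y) := by
  rw [chi_coef _ 27 0 1 0 0 (by decide +kernel)]
  apply Units.ext
  simp [vec4, chv, θu_coe, φu_coe, hφ2, map_mul, map_pow]
  try ring

include hφ2 in
lemma tb8_1 (x y : Kˣ) : chi chevF4 (Vv φ x y) 25 = chv φ 8 x y := by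
  rw [chi_coef _ 25 0 0 1 0 (by decide +kernel)]
  apply Units.ext
  simp [vec4, chv, θu_coe, φu_coe, hφ2, map_mul, map_pow]
  try ring

include hφ2 in
lemma tb8_2 (x y : Kˣ) : chi chevF4 (Vv φ x y) 28 = φu φ (chv φ 8 x y) * chv φ 8 x y := by
  rw [chi_coef _ 28 0 1 1 0 (by decide +kernel)]
  apply Units.ext
  simp [vec4, chv, θu_coe, φu_coe, hφ2, map_mul, map_pow]
  try ring

include hφ2 in
lemma tb8_3 (x y : Kˣ) : chi chevF4 (Vv φ x y) 30 = (φu φ (chv φ 8 x y)) ^ 2 * chv φ 8 x y := by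
  rw [chi_coef _ 30 0 2 1 0 (by decide +kernel)]
  apply Units.ext
  simp [vec4, chv, θu_coe, φu_coe, hφ2, map_mul, map_pow]
  try ring


include hφ2 in
/-- The action of the torus on the classes. -/
theorem tor_cG (k : ℕ) (x y : Kˣ) (t u : K) :
    tor chevF4 (Vv φ x y) * cG ax φ k t u * (tor chevF4 (Vv φ x y))⁻¹ =
      cG ax φ k ((chv φ k x y : K) * t) (φ (chv φ k x y) * (chv φ k x y : K) * u) := by
  rcases k with _ | _ | _ | _ | _ | _ | _ | _ | _ | k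
  · simp [cG]
  · exact conj_C0' ax φ _ rfl (by decide) (by decide) (tb1_0 φ hφ2 x y) (tb1_1 φ hφ2 x y) t
  · exact conj_αV' ax φ _ rfl (by decide) (by decide) (by decide) (by decide) (tb2_0 φ hφ2 x y) (tb2_1 φ hφ2 x y) (tb2_2 φ hφ2 x y) (tb2_3 φ hφ2 x y) hφ2 t u
  · exact conj_C0' ax φ _ rfl (by decide) (by decide) (tb3_0 φ hφ2 x y) (tb3_1 φ hφ2 x y) t
  · exact conj_αV' ax φ _ rfl (by decide) (by decide) (by decide) (by decide) (tb4_0 φ hφ2 x y) (tb4_1 φ hφ2 x y) (tb4_2 φ hφ2 x y) (tb4_3 φ hφ2 x y) hφ2 t u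
  · exact conj_C0' ax φ _ rfl (by decide) (by decide) (tb5_0 φ hφ2 x y) (tb5_1 φ hφ2 x y) t
  · exact conj_αV' ax φ _ rfl (by decide) (by decide) (by decide) (by decide) (tb6_0 φ hφ2 x y) (tb6_1 φ hφ2 x y) (tb6_2 φ hφ2 x y) (tb6_3 φ hφ2 x y) hφ2 t u
  · exact conj_C0' ax φ _ rfl (by decide) (by decide) (tb7_0 φ hφ2 x y) (tb7_1 φ hφ2 x y) t
  · exact conj_αV' ax φ _ rfl (by decide) (by decide) (by decide) (by decide) (tb8_0 φ hφ2 x y) (tb8_1 φ hφ2 x y) (tb8_2 φ hφ2 x y) (tb8_3 φ hφ2 x y) hφ2 t u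
  · simp [cG]

end conj

end Cfsg.Agent.Lib.SchF4.Cl2
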