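import Cfsg.Agent.Lib.SchF4.Cl2

/-!
The root classes of `²F₄` as subgroups of the group.
-/

set_option autoImplicit false
set_option linter.unusedSectionVars false
set_option linter.unusedVariables false
set_option linter.ambiguousOpen false
set_option linter.dupNamespace false
set_option linter.unusedSimpArgs false
set_option maxRecDepth 100000

open scoped MatrixGroups Matrix
open Cfsg _root_.Cfsg.Lie ChevalleyDatum
open Cfsg.Agent.Lib.Chev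
open Tables Tables2 Tables3 Raise Basic AxBasic Torus Products Products2 Mono1 Mono2 Mono3 Bn ChevSimple
open Cfsg.Agent.Lib.Twisted.Fact Cfsg.Agent.Lib.Twisted.Bruhat Cfsg.Agent.Lib.Twisted.Tw
open Cfsg.Agent.Lib.Twisted.Struct Cfsg.Agent.Lib.Twisted.Check Cfsg.Agent.Lib.Twisted.Ortho
open Cfsg.Agent.Lib.Twisted.TorusFix Cfsg.Agent.Lib.Twisted.OutA Cfsg.Agent.Lib.Twisted.OutB
open Cfsg.Agent.Lib.F24.F4Data Cfsg.Agent.Lib.F24.Tw Cfsg.Agent.Lib.F24.WordEq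
open Cfsg.Agent.Lib.F24.TD Cfsg.Agent.Lib.F24.Main Cfsg.Agent.Lib.F24.H1 Cfsg.Agent.Lib.F24.PerfF4
open Cfsg.Agent.Lib.F24.Coll Cfsg.Agent.Lib.F24.Cls Cfsg.Agent.Lib.F24.InvCls Cfsg.Agent.Lib.F24.OutF
open Cfsg.Agent.Lib.SchF4.Cl Cfsg.Agent.Lib.SchF4.Cl2
open Cfsg.Agent.Lib.Twisted.Struct.TD

namespace Cfsg.Agent.Lib.F24.OutF.Ctx

variable {K : Type*} [Field K] [Fintype K] [CharP K 2] {e : ℕ} (C : Ctx K e)

/-- The Weyl elements permute the classes. -/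
lemma n_tab (t u : K) :
    nF C.ax 1 * cG C.ax C.φ 1 t u * (nF C.ax 1)⁻¹ = cG C.ax C.φ 7 t u ∧
    nF C.ax 0 * cG C.ax C.φ 7 t u * (nF C.ax 0)⁻¹ = cG C.ax C.φ 3 t u ∧
    nF C.ax 1 * cG C.ax C.φ 3 t u * (nF C.ax 1)⁻¹ = cG C.ax C.φ 5 t u ∧
    nF C.ax 0 * cG C.ax C.φ 8 t u * (nF C.ax 0)⁻¹ = cG C.ax C.φ 2 t u ∧
    nF C.ax 1 * cG C.ax C.φ 2 t u * (nF C.ax 1)⁻¹ = cG C.ax C.φ 6 t u ∧
    nF C.ax 0 * cG C.ax C.φ 6 t u * (nF C.ax 0)⁻¹ = cG C.ax C.φ 4 t u :=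
  ⟨n1_A1 C.ax C.φ t, n0_A7 C.ax C.φ t, n1_A3 C.ax C.φ t, n0_A8 C.ax C.φ t u, n1_A2 C.ax C.φ t u, n0_A6 C.ax C.φ t u⟩

lemma cG_mem (k : ℕ) (t u : K) : cG C.ax C.φ k t u ∈ twistedF4 K e := by
  rcases k with _ | _ | _ | _ | _ | _ | _ | _ | _ | k
  · exact Subgroup.one_mem _
  · exact Cfsg.Agent.Lib.F24.InvCls.mem_A1 C.ax C.φ C.hφ t
  · exact Cfsg.Agent.Lib.F24.InvCls.mem_A2 C.ax C.φ C.hφ t u
  · exact Cfsg.Agent.Lib.F24.InvCls.mem_A3 C.ax C.φ C.hφ t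
  · exact Cfsg.Agent.Lib.F24.InvCls.mem_A4 C.ax C.φ C.hφ t u
  · exact Cfsg.Agent.Lib.F24.InvCls.mem_A5 C.ax C.φ C.hφ t
  · exact Cfsg.Agent.Lib.F24.InvCls.mem_A6 C.ax C.φ C.hφ t u
  · exact Cfsg.Agent.Lib.F24.InvCls.mem_A7 C.ax C.φ C.hφ t
  · exact Cfsg.Agent.Lib.F24.InvCls.mem_A8 C.ax C.φ C.hφ t u
  · exact Subgroup.one_mem _

/-- The elements of the classes. -/
noncomputable def cl (k : ℕ) (t u : K) : GG K e := ⟨cG C.ax C.φ k t u, C.cG_mem k t u⟩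

lemma cl_val (k : ℕ) (t u : K) : (C.cl k t u).1 = cG C.ax C.φ k t u := rfl

/-- The element of the group given by a Weyl element. -/
noncomputable def nn (j : Fin 2) : GG K e := ⟨nF C.ax j, mem_n C.ax C.φ C.hφ j⟩

lemma conj_of_val {k k' : ℕ} {j : Fin 2} (h : ∀ t u, nF C.ax j * cG C.ax C.φ k t u * (nF C.ax j)⁻¹ = cG C.ax C.φ k' t u) (t u : K) :
    C.nn j * C.cl k t u * (C.nn j)⁻¹ = C.cl k' t u := Subtype.ext (h t u)

lemma nn_1_1 (t u : K) : C.nn 1 * C.cl 1 t u * (C.nn 1)⁻¹ = C.cl 7 t u := C.conj_of_val (fun t u => (C.n_tab t u).1) t u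
lemma nn_0_7 (t u : K) : C.nn 0 * C.cl 7 t u * (C.nn 0)⁻¹ = C.cl 3 t u := C.conj_of_val (fun t u => (C.n_tab t u).2.1) t u
lemma nn_1_3 (t u : K) : C.nn 1 * C.cl 3 t u * (C.nn 1)⁻¹ = C.cl 5 t u := C.conj_of_val (fun t u => (C.n_tab t u).2.2.1) t u
lemma nn_0_8 (t u : K) : C.nn 0 * C.cl 8 t u * (C.nn 0)⁻¹ = C.cl 2 t u := C.conj_of_val (fun t u => (C.n_tab t u).2.2.2.1) t u
lemma nn_1_2 (t u : K) : C.nn 1 * C.cl 2 t u * (C.nn 1)⁻¹ = C.cl 6 t u := C.conj_of_val (fun t u => (C.n_tab t u).2.2.2.2.1) t u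
lemma nn_0_6 (t u : K) : C.nn 0 * C.cl 6 t u * (C.nn 0)⁻¹ = C.cl 4 t u := C.conj_of_val (fun t u => (C.n_tab t u).2.2.2.2.2) t u

/-- Laws transfer along conjugations. -/
lemma law_conj {g : GG K e} {k k' : ℕ} (h : ∀ t u, g * C.cl k t u * g⁻¹ = C.cl k' t u)
    (H : ∀ t u t' u', C.cl k t u * C.cl k t' u' = C.cl k (t + t') (u + u' + C.φ t * t')) (t u t' u' : K) :
    C.cl k' t u * C.cl k' t' u' = C.cl k' (t + t') (u + u' + C.φ t * t') := by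
  rw [← h, ← h, ← h, ← H]
  group

/-- The group law of a class. -/
lemma law1 (t u t' u' : K) : C.cl 1 t u * C.cl 1 t' u' = C.cl 1 (t + t') (u + u' + C.φ t * t') := C.x0_add t t'
lemma law8 (t u t' u' : K) : C.cl 8 t u * C.cl 8 t' u' = C.cl 8 (t + t') (u + u' + C.φ t * t') := C.x1_mul t u t' u'
lemma law7 : ∀ t u t' u', C.cl 7 t u * C.cl 7 t' u' = C.cl 7 (t + t') (u + u' + C.φ t * t') := C.law_conj C.nn_1_1 C.law1
lemma law3 : ∀ t u t' u', C.cl 3 t u * C.cl 3 t' u' = C.cl 3 (t + t') (u + u' + C.φ t * t') := C.law_conj C.nn_0_7 C.law7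
lemma law5 : ∀ t u t' u', C.cl 5 t u * C.cl 5 t' u' = C.cl 5 (t + t') (u + u' + C.φ t * t') := C.law_conj C.nn_1_3 C.law3
lemma law2 : ∀ t u t' u', C.cl 2 t u * C.cl 2 t' u' = C.cl 2 (t + t') (u + u' + C.φ t * t') := C.law_conj C.nn_0_8 C.law8
lemma law6 : ∀ t u t' u', C.cl 6 t u * C.cl 6 t' u' = C.cl 6 (t + t') (u + u' + C.φ t * t') := C.law_conj C.nn_1_2 C.law2
lemma law4 : ∀ t u t' u', C.cl 4 t u * C.cl 4 t' u' = C.cl 4 (t + t') (u + u' + C.φ t * t') := C.law_conj C.nn_0_6 C.law6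

theorem law {k : ℕ} (h1 : 1 ≤ k) (h8 : k ≤ 8) (t u t' u' : K) :
    C.cl k t u * C.cl k t' u' = C.cl k (t + t') (u + u' + C.φ t * t') := by
  interval_cases k
  · exact C.law1 t u t' u'
  · exact C.law2 t u t' u'
  · exact C.law3 t u t' u'
  · exact C.law4 t u t' u'
  · exact C.law5 t u t' u'
  · exact C.law6 t u t' u'
  · exact C.law7 t u t' u'
  · exact C.law8 t u t' u'

lemma cl_zero (k : ℕ) : C.cl k 0 0 = 1 := Subtype.ext (cG_zero C.ax C.φ k)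

lemma cl_inv {k : ℕ} (h1 : 1 ≤ k) (h8 : k ≤ 8) (t u : K) : (C.cl k t u)⁻¹ = C.cl k t (u + C.φ t * t) := by
  rw [inv_eq_iff_mul_eq_one, C.law h1 h8, CharTwo.add_self_eq_zero]
  have h0 : u + (u + C.φ t * t) + C.φ t * t = 0 := by
    have h20 : (2 : K) = 0 := CharTwo.two_eq_zero
    linear_combination (u + C.φ t * t) * h20
  rw [h0, cl_zero]

/-- Odd classes have one parameter. -/
def IsOdd (k : ℕ) : Prop := k = 1 ∨ k = 3 ∨ k = 5 ∨ k = 7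

lemma cl_odd {k : ℕ} (h : IsOdd k) (t u u' : K) : C.cl k t u = C.cl k t u' := by
  rcases h with rfl | rfl | rfl | rfl <;> rfl

/-- Injectivity transfers along conjugations. -/
lemma inj_conj {g : GG K e} {k k' : ℕ} (h : ∀ t u, g * C.cl k t u * g⁻¹ = C.cl k' t u) {t u t' u' : K}
    (e1 : C.cl k' t u = C.cl k' t' u') : C.cl k t u = C.cl k t' u' := by
  rw [← h, ← h] at e1
  simpa using e1

lemma inj1 {t u t' u' : K} (e1 : C.cl 1 t u = C.cl 1 t' u') : t = t' := C.x0_inj e1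
lemma inj8 {t u t' u' : K} (e1 : C.cl 8 t u = C.cl 8 t' u') : t = t' ∧ u = u' := C.x1_inj e1

/-- Injectivity of the classes. -/
theorem inj_t {k : ℕ} (h1 : 1 ≤ k) (h8 : k ≤ 8) {t u t' u' : K} (e1 : C.cl k t u = C.cl k t' u') : t = t' := by
  interval_cases k
  · exact C.inj1 e1
  · exact (C.inj8 (C.inj_conj C.nn_0_8 e1)).1
  · exact C.inj1 (C.inj_conj C.nn_1_1 (C.inj_conj C.nn_0_7 e1))
  · exact (C.inj8 (C.inj_conj C.nn_0_8 (C.inj_conj C.nn_1_2 (C.inj_conj C.nn_0_6 e1)))).1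
  · exact C.inj1 (C.inj_conj C.nn_1_1 (C.inj_conj C.nn_0_7 (C.inj_conj C.nn_1_3 e1)))
  · exact (C.inj8 (C.inj_conj C.nn_0_8 (C.inj_conj C.nn_1_2 e1))).1
  · exact C.inj1 (C.inj_conj C.nn_1_1 e1)
  · exact (C.inj8 e1).1

/-- Even classes have two parameters. -/
def IsEven (k : ℕ) : Prop := k = 2 ∨ k = 4 ∨ k = 6 ∨ k = 8

theorem inj_u {k : ℕ} (h : IsEven k) {t u t' u' : K} (e1 : C.cl k t u = C.cl k t' u') : u = u' := by
  rcases h with rfl | rfl | rfl | rfl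
  · exact (C.inj8 (C.inj_conj C.nn_0_8 e1)).2
  · exact (C.inj8 (C.inj_conj C.nn_0_8 (C.inj_conj C.nn_1_2 (C.inj_conj C.nn_0_6 e1)))).2
  · exact (C.inj8 (C.inj_conj C.nn_0_8 (C.inj_conj C.nn_1_2 e1))).2
  · exact (C.inj8 e1).2

lemma odd_or_even {k : ℕ} (h1 : 1 ≤ k) (h8 : k ≤ 8) : IsOdd k ∨ IsEven k := by
  simp only [IsOdd, IsEven]
  omega

/-- The torus acts on the classes. -/
theorem hh_cl (k : ℕ) (x y : Kˣ) (t u : K) :
    C.hh x y * C.cl k t u * (C.hh x y)⁻¹ = C.cl k ((chv C.φ k x y : K) * t) (C.φ (chv C.φ k x y) * (chv C.φ k x y : K) * u) :=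
  Subtype.ext (tor_cG C.ax C.φ C.hφ2 k x y t u)

/-- Classes as subgroups. -/
noncomputable def clS {k : ℕ} (h1 : 1 ≤ k) (h8 : k ≤ 8) : Subgroup (GG K e) where
  carrier := {g | ∃ t u, g = C.cl k t u}
  one_mem' := ⟨0, 0, (C.cl_zero k).symm⟩
  mul_mem' := by
    rintro _ _ ⟨t, u, rfl⟩ ⟨t', u', rfl⟩
    exact ⟨_, _, C.law h1 h8 t u t' u'⟩
  inv_mem' := by
    rintro _ ⟨t, u, rfl⟩
    exact ⟨_, _, C.cl_inv h1 h8 t u⟩

lemma mem_clS {k : ℕ} {h1 : 1 ≤ k} {h8 : k ≤ 8} {g : GG K e} : g ∈ C.clS h1 h8 ↔ ∃ t u, g = C.cl k t u := Iff.rfl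

/-- Fixed points. -/
theorem fix_cl {k : ℕ} (h1 : 1 ≤ k) (h8 : k ≤ 8) {x y : Kˣ} (hχ : chv C.φ k x y ≠ 1) {t u : K}
    (h : C.hh x y * C.cl k t u * (C.hh x y)⁻¹ = C.cl k t u) : C.cl k t u = 1 := by
  rw [hh_cl] at h
  have hχ' : (chv C.φ k x y : K) ≠ 1 := fun h' => hχ (Units.ext h')
  have ht := C.inj_t h1 h8 h
  have ht0 : t = 0 := by
    have h3 : ((chv C.φ k x y : K) - 1) * t = 0 := by linear_combination ht
    exact (mul_eq_zero.mp h3).resolve_left (sub_ne_zero.mpr hχ')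
  subst ht0
  rcases odd_or_even h1 h8 with h2 | h2
  · rw [C.cl_odd h2 0 u 0, cl_zero]
  · have hu := C.inj_u h2 h
    have h4 : C.φ (chv C.φ k x y) * (chv C.φ k x y : K) ≠ 1 := fun h' => hχ' (C.φmul_eq_one h')
    have hu0 : u = 0 := by
      have h3 : (C.φ (chv C.φ k x y) * (chv C.φ k x y : K) - 1) * u = 0 := by linear_combination hu
      exact (mul_eq_zero.mp h3).resolve_left (sub_ne_zero.mpr h4)
    rw [hu0, cl_zero]

/-- The torus commutes with a class on which its character vanishes. -/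
theorem comm_cl (k : ℕ) {x y : Kˣ} (hχ : chv C.φ k x y = 1) (t u : K) :
    C.hh x y * C.cl k t u = C.cl k t u * C.hh x y := by
  have h := C.hh_cl k x y t u
  rw [hχ] at h
  have e : C.φ ((1 : Kˣ) : K) * ((1 : Kˣ) : K) * u = u := by simp
  rw [e] at h
  simp only [Units.val_one, one_mul] at h
  exact mul_inv_eq_iff_eq_mul.mp h

/-- The order of the torus elements. -/
lemma hh_pow (x y : Kˣ) (k : ℕ) : (C.hh x y) ^ k = C.hh (x ^ k) (y ^ k) := by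
  induction k with
  | zero => simp [hh_one]
  | succ k ih => rw [pow_succ, ih, hh_mul, pow_succ, pow_succ]

lemma hh_pow_card (x y : Kˣ) : (C.hh x y) ^ (Fintype.card K - 1) = 1 := by
  rw [hh_pow]
  have hx : ∀ z : Kˣ, z ^ (Fintype.card K - 1) = 1 := fun z => by
    have := FiniteField.pow_card_sub_one_eq_one (z : K) z.ne_zero
    exact Units.ext (by simpa using this)
  rw [hx, hx, hh_one]

end Cfsg.Agent.Lib.F24.OutF.Ctx
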