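import Cfsg.Agent.Lib.SchF4.B4
import Cfsg.Agent.Lib.SchF4.A3

set_option autoImplicit false
set_option linter.unusedSectionVars false
set_option linter.unusedVariables false
set_option linter.ambiguousOpen false
set_option linter.dupNamespace false
set_option linter.unusedSimpArgs false
set_option maxRecDepth 100000

open scoped MatrixGroups Matrix
open Cfsg _root_.Cfsg.Lie ChevalleyDatum
open Cfsg.Agent.Lib.Chev
open Tables Tables2 Tables3 Raise Basic AxBasic Torus Products Products2 Mono1 Mono2 Mono3 Bn ChevSimple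
open Cfsg.Agent.Lib.Twisted.Fact Cfsg.Agent.Lib.Twisted.Bruhat Cfsg.Agent.Lib.Twisted.Tw
open Cfsg.Agent.Lib.Twisted.Struct Cfsg.Agent.Lib.Twisted.Check Cfsg.Agent.Lib.Twisted.Ortho
open Cfsg.Agent.Lib.Twisted.TorusFix Cfsg.Agent.Lib.Twisted.OutA Cfsg.Agent.Lib.Twisted.OutB
open Cfsg.Agent.Lib.F24.F4Data Cfsg.Agent.Lib.F24.Tw Cfsg.Agent.Lib.F24.WordEq
open Cfsg.Agent.Lib.F24.TD Cfsg.Agent.Lib.F24.Main Cfsg.Agent.Lib.F24.H1 Cfsg.Agent.Lib.F24.PerfF4
open Cfsg.Agent.Lib.F24.Coll Cfsg.Agent.Lib.F24.Cls Cfsg.Agent.Lib.F24.InvCls Cfsg.Agent.Lib.F24.OutF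
open Cfsg.Agent.Lib.SchF4.Cl Cfsg.Agent.Lib.SchF4.Cl2 Cfsg.Agent.Lib.SchF4.Blk
open Cfsg.Agent.Lib.Twisted.Struct.TD
open Cfsg.Agent.Lib.SchD4.Sys (cj cj_mul cj_one cj_inv cj_cj one_cj cj_inv_cj cj_cj_inv map_cj cj_eq_self_iff)
open Cfsg.Agent.Lib.SchF4.Gen
open Cfsg.Agent.Lib.Suzuki.Core (th th_add th_mul)
open Cfsg.Agent.Lib.Suzuki.Elements (uMat hMat wMat)

namespace Cfsg.Agent.Lib.F24.OutF.Ctx

universe u

variable {K : Type u} [Field K] [Fintype K] [CharP K 2] {m : ℕ} (C : Ctx K (2 ^ m))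
variable {E : Type u} [Group E] {σ : E →* GG K (2 ^ m)}

/-- The kernel is trivial. -/
theorem ker_all (C : Ctx K (2 ^ m)) [Finite E] (hs : Function.Surjective σ) (hc : σ.ker ≤ Subgroup.center E)
    (hst : σ.ker ≤ commutator E) (hm : 1 ≤ m) (hF : Fintype.card K = 2 ^ (2 * m + 1)) : σ.ker = ⊥ := by
  have hcard8 : 8 ≤ Fintype.card K := by
    rw [hF]
    calc 8 = 2 ^ 3 := by norm_num
      _ ≤ 2 ^ (2 * m + 1) := Nat.pow_le_pow_right (by norm_num) (by omega)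
  have hn0 : Nat.card σ.ker ≠ 0 := Nat.card_pos.ne'
  obtain ⟨a, b, hb, hn⟩ := Nat.exists_eq_two_pow_mul_odd hn0
  have hcz : ∀ x y : E, x ∈ σ.ker → x * y = y * x := fun x y hx => ker_comm hc hx y
  -- the odd part
  let O : Subgroup E :=
    { carrier := {z | z ∈ σ.ker ∧ z ^ b = 1}
      one_mem' := ⟨Subgroup.one_mem _, one_pow _⟩
      mul_mem' := by
        rintro x y ⟨hx, hx'⟩ ⟨hy, hy'⟩
        refine ⟨Subgroup.mul_mem _ hx hy, ?_⟩
        have hcomm : Commute x y := hcz x y hx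
        rw [hcomm.mul_pow, hx', hy', one_mul]
      inv_mem' := by
        rintro x ⟨hx, hx'⟩
        exact ⟨Subgroup.inv_mem _ hx, by rw [inv_pow, hx', inv_one]⟩ }
  have hOk : O ≤ σ.ker := fun x hx => hx.1
  haveI hOn : O.Normal := by
    constructor
    intro x hx g
    rw [← hcz x g hx.1]
    simpa using hx
  let τ : E ⧸ O →* GG K (2 ^ m) := QuotientGroup.lift O σ (fun x hx => hx.1)
  have hτ : ∀ x : E, τ (x : E ⧸ O) = σ x := fun x => rfl
  have hτs : Function.Surjective τ := by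
    intro g
    obtain ⟨x, rfl⟩ := hs g
    exact ⟨(x : E ⧸ O), rfl⟩
  have hτk : ∀ q ∈ τ.ker, ∃ z ∈ σ.ker, q = (z : E ⧸ O) := by
    intro q hq
    obtain ⟨z, rfl⟩ := QuotientGroup.mk_surjective q
    exact ⟨z, hq, rfl⟩
  have hτc : τ.ker ≤ Subgroup.center (E ⧸ O) := by
    intro q hq
    obtain ⟨z, hz, rfl⟩ := hτk q hq
    rw [Subgroup.mem_center_iff]
    intro g
    obtain ⟨y, rfl⟩ := QuotientGroup.mk_surjective g
    rw [← QuotientGroup.mk_mul, ← QuotientGroup.mk_mul, hcz z y hz]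
  have hτst : τ.ker ≤ commutator (E ⧸ O) := by
    intro q hq
    obtain ⟨z, hz, rfl⟩ := hτk q hq
    have h1 : (commutator E).map (QuotientGroup.mk' O) ≤ commutator (E ⧸ O) := by
      rw [commutator_def, commutator_def, Subgroup.map_commutator]
      exact Subgroup.commutator_mono le_top le_top
    exact h1 ⟨z, hst hz, rfl⟩
  have hτ2 : Ker2 τ := by
    intro q hq
    obtain ⟨z, hz, rfl⟩ := hτk q hq
    refine ⟨a, ?_⟩
    rw [← QuotientGroup.mk_pow]
    rw [QuotientGroup.eq_one_iff]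
    refine ⟨Subgroup.pow_mem _ hz _, ?_⟩
    rw [← pow_mul, ← hn]
    have := pow_card_eq_one' (x := (⟨z, hz⟩ : σ.ker))
    simpa using congrArg Subtype.val this
  have hτ0 := C.kerA hcard8 hτs hτc hτst hτ2
  have hodd : ∀ z ∈ σ.ker, Odd (orderOf z) := by
    intro z hz
    have h1 : (z : E ⧸ O) ∈ τ.ker := hz
    rw [hτ0, Subgroup.mem_bot, QuotientGroup.eq_one_iff] at h1
    exact hb.of_dvd_nat (orderOf_dvd_of_pow_eq_one h1.2)
  exact kerB C hs hc hst hodd hm hF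


end Cfsg.Agent.Lib.F24.OutF.Ctx

namespace Cfsg.Agent.Lib.SchF4

open Cfsg Cfsg.Lie
open Cfsg.Agent.Lib.F24.OutF

universe u

/-- The Schur multiplier of the large Ree groups. -/
theorem schur_F24 {K : Type u} [Field K] [Fintype K] {m : ℕ} (hm : 1 ≤ m) (hK : Fintype.card K = 2 ^ (2 * m + 1)) :
    HasCyclicSchurMultiplier ↥(twistedF4 K (2 ^ m)) 1 := by
  classical
  haveI : CharP K 2 := Cfsg.Agent.Lib.Suzuki.Elements.charP_two_of_card hK
  obtain ⟨C⟩ := mk_ctx hm hK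
  apply Cfsg.Agent.Lib.Schur.Stem.hasCyclicSchurMultiplier_one
  intro Γ _ _ σ hσ
  obtain ⟨hs, hc, hst⟩ := hσ
  rw [C.ker_all hs hc hst hm hK, Subgroup.card_bot]

end Cfsg.Agent.Lib.SchF4
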