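import Cfsg.Agent.Lib.SchF4.B1
import Cfsg.Agent.Lib.SzIso.SchurSz

/-!
A Levi factor of `²F₄` is a Suzuki group.
-/

set_option autoImplicit false
set_option linter.unusedSectionVars false
set_option linter.unusedVariables false
set_option linter.ambiguousOpen false
set_option linter.dupNamespace false
set_option linter.unusedSimpArgs false
set_option maxRecDepth 100000

open scoped MatrixGroups Matrix
open Cfsg _root_.Cfsg.Lie ChevalleyDatum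
open Cfsg.Agent.Lib.Chev
open Tables Tables2 Tables3 Raise Basic AxBasic Torus Products Products2 Mono1 Mono2 Mono3 Bn ChevSimple
open Cfsg.Agent.Lib.Twisted.Fact Cfsg.Agent.Lib.Twisted.Bruhat Cfsg.Agent.Lib.Twisted.Tw
open Cfsg.Agent.Lib.Twisted.Struct Cfsg.Agent.Lib.Twisted.Check Cfsg.Agent.Lib.Twisted.Ortho
open Cfsg.Agent.Lib.Twisted.TorusFix Cfsg.Agent.Lib.Twisted.OutA Cfsg.Agent.Lib.Twisted.OutB
open Cfsg.Agent.Lib.F24.F4Data Cfsg.Agent.Lib.F24.Tw Cfsg.Agent.Lib.F24.WordEq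
open Cfsg.Agent.Lib.F24.TD Cfsg.Agent.Lib.F24.Main Cfsg.Agent.Lib.F24.H1 Cfsg.Agent.Lib.F24.PerfF4
open Cfsg.Agent.Lib.F24.Coll Cfsg.Agent.Lib.F24.Cls Cfsg.Agent.Lib.F24.InvCls Cfsg.Agent.Lib.F24.OutF
open Cfsg.Agent.Lib.SchF4.Cl Cfsg.Agent.Lib.SchF4.Cl2 Cfsg.Agent.Lib.SchF4.Blk
open Cfsg.Agent.Lib.Twisted.Struct.TD
open Cfsg.Agent.Lib.SchD4.Sys (cj cj_mul cj_one cj_inv cj_cj one_cj cj_inv_cj cj_cj_inv map_cj cj_eq_self_iff)
open Cfsg.Agent.Lib.SchF4.Gen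
open Cfsg.Agent.Lib.Suzuki.Core (th th_add th_mul)
open Cfsg.Agent.Lib.Suzuki.Elements (uMat hMat wMat)

namespace Cfsg.Agent.Lib.F24.OutF.Ctx

variable {K : Type*} [Field K] [Fintype K] [CharP K 2] {m : ℕ} (C : Ctx K (2 ^ m))

lemma hthC (x : K) : th m x = (C.φ x) ^ 2 := by
  rw [C.hφ]
  simp only [th]
  rw [← pow_mul, pow_succ]

lemma hs_cl8 (t u : K) : HasSub (C.cl 8 t u).1 (uMat m (C.φ t) (C.φ t * t + u)) :=
  hasSub_A8 C.ax C.φ C.hthC C.hφ2 t u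

lemma hs_nn1 : HasSub (C.nn 1).1 (wMat K) := hasSub_n C.ax

lemma hs_hh (x y : Kˣ) : HasSub (C.hh x y).1
    !![C.φ (chv C.φ 7 x y), 0, 0, 0; 0, C.φ (chv C.φ 6 x y), 0, 0; 0, 0, C.φ (chv C.φ 2 x y), 0; 0, 0, 0, C.φ (chv C.φ 1 x y)] :=
  hasSub_hh C.φ C.hφ2 x y

/-- The torus of the Levi factor. -/
noncomputable def hz (l : Kˣ) : GG K (2 ^ m) := C.hh (θu C.φ l * l)⁻¹ (θu C.φ l)

lemma φθ' (c : K) : C.φ ((C.φ c) ^ 2) = c := by rw [map_pow, C.hφ2]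

lemma hs_hz (l : Kˣ) : HasSub (C.hz l).1 (hMat m l) := by
  have h := C.hs_hh (θu C.φ l * l)⁻¹ (θu C.φ l)
  refine ⟨h.1, h.2.trans ?_⟩
  have hl : (l : K) ≠ 0 := l.ne_zero
  have hφl : C.φ (l : K) ≠ 0 := (map_ne_zero _).mpr hl
  have hp : ∀ z : K, z ^ 2 ^ m = C.φ z := fun z => (C.hφ z).symm
  have hθθ : ((θu C.φ (θu C.φ l) : Kˣ) : K) = (l : K) ^ 2 := by
    rw [θu_θu C.hφ2]
    simp
  have e7 : ((chv C.φ 7 (θu C.φ l * l)⁻¹ (θu C.φ l) : Kˣ) : K) = (C.φ l) ^ 2 * l := by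
    show (((θu C.φ l * l)⁻¹ * (θu C.φ l) ^ 2 * θu C.φ (θu C.φ l) : Kˣ) : K) = _
    push_cast
    rw [hθθ, θu_coe]
    field_simp
  have e6 : ((chv C.φ 6 (θu C.φ l * l)⁻¹ (θu C.φ l) : Kˣ) : K) = l := by
    show (((θu C.φ l * l)⁻¹ * (θu C.φ l * θu C.φ (θu C.φ l)) : Kˣ) : K) = _
    push_cast
    rw [hθθ, θu_coe]
    field_simp
  have e2 : ((chv C.φ 2 (θu C.φ l * l)⁻¹ (θu C.φ l) : Kˣ) : K) = (l : K)⁻¹ := by
    show (((θu C.φ l * l)⁻¹ * θu C.φ l : Kˣ) : K) = _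
    push_cast
    rw [θu_coe]
    field_simp
  have e1 : ((chv C.φ 1 (θu C.φ l * l)⁻¹ (θu C.φ l) : Kˣ) : K) = ((C.φ l) ^ 2 * l)⁻¹ := by
    show (((θu C.φ l * l)⁻¹ : Kˣ) : K) = _
    push_cast
    rw [θu_coe]
  rw [e7, e6, e2, e1]
  simp only [Cfsg.Agent.Lib.Suzuki.Elements.hMat]
  have a1 : (l : K) ^ (2 ^ m + 1) = l * C.φ l := by rw [pow_succ, hp]; ring
  have a2 : (l : K) ^ (2 ^ m) = C.φ l := hp _
  rw [a1, a2]
  have b1 : C.φ ((C.φ (l : K)) ^ 2 * l) = l * C.φ l := by rw [map_mul, C.φθ']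
  have b2 : C.φ (((C.φ (l : K)) ^ 2 * l)⁻¹) = (l * C.φ l)⁻¹ := by rw [map_inv₀, b1]
  have b3 : C.φ ((l : K)⁻¹) = (C.φ l)⁻¹ := map_inv₀ _ _
  rw [b1, b2, b3]
  ext i j
  fin_cases i <;> fin_cases j <;> simp

/-- The Levi factor. -/
noncomputable def L1 : Subgroup (GG K (2 ^ m)) :=
  Subgroup.closure ({g | ∃ t u, g = C.cl 8 t u} ∪ {C.nn 1} ∪ Set.range C.hz)

lemma cl8_mem_L1 (t u : K) : C.cl 8 t u ∈ C.L1 := Subgroup.subset_closure (Or.inl (Or.inl ⟨t, u, rfl⟩))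
lemma nn1_mem_L1 : C.nn 1 ∈ C.L1 := Subgroup.subset_closure (Or.inl (Or.inr rfl))
lemma hz_mem_L1 (l : Kˣ) : C.hz l ∈ C.L1 := Subgroup.subset_closure (Or.inr ⟨l, rfl⟩)

lemma L1_stb : ∀ g ∈ C.L1, g.1 ∈ StbG K := by
  have hle : C.L1 ≤ (StbG K).comap (twistedF4 K (2 ^ m)).subtype := by
    rw [L1, Subgroup.closure_le]
    rintro g ((⟨t, u, rfl⟩ | rfl) | ⟨l, rfl⟩)
    · exact (C.hs_cl8 t u).1
    · exact C.hs_nn1.1
    · exact (C.hs_hz l).1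
  intro g hg
  exact hle hg

/-- The map to the group stabilising the block. -/
noncomputable def mapL : C.L1 →* StbG K where
  toFun g := ⟨g.1.1, C.L1_stb g.1 g.2⟩
  map_one' := rfl
  map_mul' _ _ := rfl

/-- The representation of the Levi factor. -/
noncomputable def ρ₀ : C.L1 →* GL (Fin 4) K := ρ.comp C.mapL

lemma ρ₀_val {g : C.L1} {M : Matrix (Fin 4) (Fin 4) K} (h : HasSub g.1.1 M) : ((C.ρ₀ g : GL (Fin 4) K) : Matrix (Fin 4) (Fin 4) K) = M := h.2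

/-- The coercion of `SL₄`. -/
abbrev toGL4 (g : Matrix.SpecialLinearGroup (Fin 4) K) : GL (Fin 4) K := Matrix.SpecialLinearGroup.toGL g

lemma ρ₀_cl8 (t u : K) : C.ρ₀ ⟨C.cl 8 t u, C.cl8_mem_L1 t u⟩ = toGL4 (Cfsg.Agent.Lib.Suzuki.Elements.uu m (C.φ t) (C.φ t * t + u)) :=
  Units.ext (C.ρ₀_val (C.hs_cl8 t u))

lemma ρ₀_nn1 : C.ρ₀ ⟨C.nn 1, C.nn1_mem_L1⟩ = toGL4 (Cfsg.Agent.Lib.Suzuki.Elements.ww K) :=
  Units.ext (C.ρ₀_val C.hs_nn1)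

lemma ρ₀_hz (l : Kˣ) : C.ρ₀ ⟨C.hz l, C.hz_mem_L1 l⟩ = toGL4 (Cfsg.Agent.Lib.Suzuki.Elements.hh m l) :=
  Units.ext (C.ρ₀_val (C.hs_hz l))

variable (hc : Cfsg.Agent.Lib.Suzuki.Stab.Ctx K m)

include hc in
lemma ρ₀_mem_Sz : ∀ g : C.L1, C.ρ₀ g ∈ Lie.Sz K (2 ^ (m + 1)) := by
  rintro ⟨g, hg⟩
  induction hg using Subgroup.closure_induction with
  | mem x hx =>
    rcases hx with (⟨t, u, rfl⟩ | hx) | ⟨l, rfl⟩
    · rw [C.ρ₀_cl8]
      exact Cfsg.Agent.Lib.InvolChar.SzEmbed.uu_mem hc _ _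
    · rw [Set.mem_singleton_iff] at hx
      subst hx
      rw [C.ρ₀_nn1]
      exact Cfsg.Agent.Lib.InvolChar.SzEmbed.ww_mem hc
    · rw [C.ρ₀_hz]
      exact Cfsg.Agent.Lib.InvolChar.SzEmbed.hh_mem hc _
  | one => exact (map_one C.ρ₀) ▸ Subgroup.one_mem _
  | mul x y hx hy h1 h2 =>
    have e : (⟨x * y, Subgroup.mul_mem _ hx hy⟩ : C.L1) = ⟨x, hx⟩ * ⟨y, hy⟩ := rfl
    rw [e, map_mul]
    exact Subgroup.mul_mem _ h1 h2
  | inv x hx h1 =>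
    have e : (⟨x⁻¹, Subgroup.inv_mem _ hx⟩ : C.L1) = (⟨x, hx⟩ : C.L1)⁻¹ := rfl
    rw [e, map_inv]
    exact Subgroup.inv_mem _ h1

/-- The map onto the Suzuki group. -/
noncomputable def ρ₁ : C.L1 →* Lie.Sz K (2 ^ (m + 1)) := C.ρ₀.codRestrict _ (C.ρ₀_mem_Sz hc)

lemma ρ₁_val (g : C.L1) : ((C.ρ₁ hc g : Lie.Sz K (2 ^ (m + 1))) : GL (Fin 4) K) = C.ρ₀ g := rfl

theorem ρ₁_surj : Function.Surjective (C.ρ₁ hc) := by
  rintro ⟨g, hg⟩
  obtain ⟨g', rfl⟩ := Cfsg.Agent.Lib.SzIso.Basic.exists_preimage hc hg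
  have hU : ∀ a b : K, ∃ p : C.L1, C.ρ₀ p = toGL4 (Cfsg.Agent.Lib.Suzuki.Elements.uu m a b) := by
    intro a b
    refine ⟨⟨C.cl 8 (th m a) (b + a * th m a), C.cl8_mem_L1 _ _⟩, ?_⟩
    rw [C.ρ₀_cl8]
    have e1 : C.φ (th m a) = a := by rw [C.hthC, C.φθ']
    rw [e1]
    have e2 : a * th m a + (b + a * th m a) = b := by
      have := CharTwo.add_self_eq_zero (a * th m a)
      linear_combination this
    rw [e2]
  have hW : ∃ p : C.L1, C.ρ₀ p = toGL4 (Cfsg.Agent.Lib.Suzuki.Elements.ww K) := ⟨_, C.ρ₀_nn1⟩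
  have hH : ∀ l : Kˣ, ∃ p : C.L1, C.ρ₀ p = toGL4 (Cfsg.Agent.Lib.Suzuki.Elements.hh m l) := fun l => ⟨_, C.ρ₀_hz l⟩
  have key : ∃ p : C.L1, C.ρ₀ p = toGL4 (g' : Matrix.SpecialLinearGroup (Fin 4) K) := by
    rcases Cfsg.Agent.Lib.Suzuki.Group.bruhat hc g' with ⟨a, b, l, rfl⟩ | ⟨x, y, a, b, l, rfl⟩
    · obtain ⟨p, hp⟩ := hU a b
      obtain ⟨q, hq⟩ := hH l
      refine ⟨p * q, ?_⟩
      rw [map_mul, hp, hq]
      exact (map_mul Matrix.SpecialLinearGroup.toGL _ _).symm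
    · obtain ⟨p, hp⟩ := hU x y
      obtain ⟨r, hr⟩ := hW
      obtain ⟨p', hp'⟩ := hU a b
      obtain ⟨q, hq⟩ := hH l
      refine ⟨p * r * (p' * q), ?_⟩
      rw [map_mul, map_mul, map_mul, hp, hr, hp', hq]
      show _ = Matrix.SpecialLinearGroup.toGL (Cfsg.Agent.Lib.Suzuki.Elements.uu m x y * Cfsg.Agent.Lib.Suzuki.Elements.ww K *
        (Cfsg.Agent.Lib.Suzuki.Elements.uu m a b * Cfsg.Agent.Lib.Suzuki.Elements.hh m l))
      simp only [map_mul]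
  obtain ⟨p, hp⟩ := key
  exact ⟨p, Subtype.ext hp⟩

/-! ### The structure of the Levi factor -/

/-- The product of the classes. -/
noncomputable def prod12 (p : Fin 12 → K) : GG K (2 ^ m) :=
  C.cl 1 (p 0) 0 * C.cl 2 (p 1) (p 2) * C.cl 3 (p 3) 0 * C.cl 4 (p 4) (p 5) * C.cl 5 (p 6) 0 * C.cl 6 (p 7) (p 8) *
    C.cl 7 (p 9) 0 * C.cl 8 (p 10) (p 11)

lemma exists_prod12 {u : GG K (2 ^ m)} (hu : u ∈ cU chevF4 K (twistedF4 K (2 ^ m))) : ∃ p, u = C.prod12 p := by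
  have hu' : u.1 ∈ chevF4.posUnipotent K ⊓ twistedF4 K (2 ^ m) := ⟨hu, u.2⟩
  obtain ⟨a1, t2, u2, a3, t4, u4, a5, t6, u6, a7, t8, u8, e1⟩ := InvMain.exists_gg C.ax C.φ C.hφ C.hφ2 hu'
  exact ⟨![a1, t2, u2, a3, t4, u4, a5, t6, u6, a7, t8, u8], Subtype.ext e1⟩

include C in
lemma card_cU : Nat.card (cU chevF4 K (twistedF4 K (2 ^ m))) = Nat.card K ^ 12 := by
  rw [← card_U_F4 C.φ C.hφ C.hφ2 C.ax]
  have e2 : (chevF4.posUnipotent K ⊓ twistedF4 K (2 ^ m)).subgroupOf (twistedF4 K (2 ^ m)) =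
      cU chevF4 K (twistedF4 K (2 ^ m)) := Subgroup.inf_subgroupOf_right _ _
  rw [← e2]
  exact Nat.card_congr (Subgroup.subgroupOfEquivOfLe inf_le_right).toEquiv

/-- Uniqueness of the factorisation. -/
theorem prod12_inj : Function.Injective C.prod12 := by
  let f : (Fin 12 → K) → Set.range C.prod12 := fun p => ⟨C.prod12 p, p, rfl⟩
  have hf : Function.Surjective f := by
    rintro ⟨_, p, rfl⟩
    exact ⟨p, rfl⟩
  have hc2 : Nat.card (Fin 12 → K) ≤ Nat.card (Set.range C.prod12) := by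
    have h1 : Nat.card (Fin 12 → K) = Nat.card (cU chevF4 K (twistedF4 K (2 ^ m))) := by
      rw [C.card_cU, Nat.card_fun]
      simp
    rw [h1]
    refine Nat.card_le_card_of_injective (fun u : cU chevF4 K (twistedF4 K (2 ^ m)) =>
      (⟨(u : GG K (2 ^ m)), (C.exists_prod12 u.2).imp (fun p hp => hp.symm)⟩ : Set.range C.prod12)) ?_
    intro a b hab
    exact Subtype.ext (congrArg (fun z : Set.range C.prod12 => (z : GG K (2 ^ m))) hab)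
  have hb := hf.bijective_of_nat_card_le hc2
  intro p q h
  exact hb.1 (Subtype.ext h)

/-- Conjugating a product of classes. -/
lemma conj_prod12 (x y : Kˣ) (p : Fin 12 → K) : ∃ q, C.hh x y * C.prod12 p * (C.hh x y)⁻¹ = C.prod12 q ∧
    C.hh x y * C.cl 1 (p 0) 0 * (C.hh x y)⁻¹ = C.cl 1 (q 0) 0 ∧
    C.hh x y * C.cl 2 (p 1) (p 2) * (C.hh x y)⁻¹ = C.cl 2 (q 1) (q 2) ∧
    C.hh x y * C.cl 3 (p 3) 0 * (C.hh x y)⁻¹ = C.cl 3 (q 3) 0 ∧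
    C.hh x y * C.cl 4 (p 4) (p 5) * (C.hh x y)⁻¹ = C.cl 4 (q 4) (q 5) ∧
    C.hh x y * C.cl 5 (p 6) 0 * (C.hh x y)⁻¹ = C.cl 5 (q 6) 0 ∧
    C.hh x y * C.cl 6 (p 7) (p 8) * (C.hh x y)⁻¹ = C.cl 6 (q 7) (q 8) ∧
    C.hh x y * C.cl 7 (p 9) 0 * (C.hh x y)⁻¹ = C.cl 7 (q 9) 0 ∧
    C.hh x y * C.cl 8 (p 10) (p 11) * (C.hh x y)⁻¹ = C.cl 8 (q 10) (q 11) := by
  have h1 : ∀ (k : ℕ) (hk : IsOdd k) (t : K), C.hh x y * C.cl k t 0 * (C.hh x y)⁻¹ = C.cl k ((chv C.φ k x y : K) * t) 0 := by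
    intro k hk t
    rw [C.hh_cl]
    exact C.cl_odd hk _ _ _
  refine ⟨![(chv C.φ 1 x y : K) * p 0, (chv C.φ 2 x y : K) * p 1, C.φ (chv C.φ 2 x y) * (chv C.φ 2 x y : K) * p 2,
    (chv C.φ 3 x y : K) * p 3, (chv C.φ 4 x y : K) * p 4, C.φ (chv C.φ 4 x y) * (chv C.φ 4 x y : K) * p 5,
    (chv C.φ 5 x y : K) * p 6, (chv C.φ 6 x y : K) * p 7, C.φ (chv C.φ 6 x y) * (chv C.φ 6 x y : K) * p 8,
    (chv C.φ 7 x y : K) * p 9, (chv C.φ 8 x y : K) * p 10, C.φ (chv C.φ 8 x y) * (chv C.φ 8 x y : K) * p 11], ?_,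
    h1 1 (Or.inl rfl) _, C.hh_cl 2 x y _ _, h1 3 (Or.inr (Or.inl rfl)) _, C.hh_cl 4 x y _ _,
    h1 5 (Or.inr (Or.inr (Or.inl rfl))) _, C.hh_cl 6 x y _ _, h1 7 (Or.inr (Or.inr (Or.inr rfl))) _, C.hh_cl 8 x y _ _⟩
  simp only [prod12]
  have h3 : ∀ a b : GG K (2 ^ m), C.hh x y * (a * b) * (C.hh x y)⁻¹ = (C.hh x y * a * (C.hh x y)⁻¹) * (C.hh x y * b * (C.hh x y)⁻¹) := by
    intro a b
    group
  rw [h3, h3, h3, h3, h3, h3, h3, h1 1 (Or.inl rfl), C.hh_cl 2, h1 3 (Or.inr (Or.inl rfl)), C.hh_cl 4,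
    h1 5 (Or.inr (Or.inr (Or.inl rfl))), C.hh_cl 6, h1 7 (Or.inr (Or.inr (Or.inr rfl))), C.hh_cl 8]
  rfl

/-- The central element of the torus of the Levi factor. -/
lemma chv_ne (x : Kˣ) (hx : x ≠ 1) {k : ℕ} (h1 : 1 ≤ k) (h7 : k ≤ 7) : chv C.φ k x 1 ≠ 1 := by
  have hθ1 : θu C.φ (1 : Kˣ) = 1 := map_one _
  have hθ : θu C.φ x ≠ 1 := by
    intro h
    apply hx
    have := φu_θu C.hφ2 x
    rw [h, map_one] at this
    exact this.symm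
  have hxθ : x * θu C.φ x ≠ 1 := by
    intro h
    apply hx
    have h3 : (x : K) * (C.φ x) ^ 2 = 1 := by
      have := congrArg (fun z : Kˣ => (z : K)) h
      simpa [θu_coe] using this
    have h4 := congrArg C.φ h3
    rw [map_mul, C.φθ', map_one] at h4
    have h5 : C.φ (x : K) * x = 1 := by rw [mul_comm]; rw [mul_comm] at h4; exact h4
    exact Units.ext (C.φmul_eq_one h5)
  interval_cases k
  · exact hx
  · simpa [chv] using hx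
  · simpa [chv, hθ1] using hxθ
  · simpa [chv, hθ1] using hθ
  · simpa [chv, hθ1] using hxθ
  · simpa [chv, hθ1] using hx
  · simpa [chv, hθ1] using hx

/-- A fixed point of the torus element in the complement is trivial. -/
theorem fpf_Y {x : Kˣ} (hx : x ≠ 1) {y : GG K (2 ^ m)} (hy : y ∈ C.R.Y (1 : Fin 2)) (hfix : C.hh x 1 * y * (C.hh x 1)⁻¹ = y) : y = 1 := by
  have hyU : y ∈ cU chevF4 K (twistedF4 K (2 ^ m)) := C.R.Y_le (1 : Fin 2) hy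
  obtain ⟨p, rfl⟩ := C.exists_prod12 hyU
  obtain ⟨q, e0, e1, e2, e3, e4, e5, e6, e7, e8⟩ := C.conj_prod12 x 1 p
  rw [e0] at hfix
  have hpq := C.prod12_inj hfix
  rw [hpq] at e1 e2 e3 e4 e5 e6 e7 e8
  have f1 := C.fix_cl (by norm_num) (by norm_num) (C.chv_ne x hx (k := 1) (by norm_num) (by norm_num)) e1
  have f2 := C.fix_cl (by norm_num) (by norm_num) (C.chv_ne x hx (k := 2) (by norm_num) (by norm_num)) e2
  have f3 := C.fix_cl (by norm_num) (by norm_num) (C.chv_ne x hx (k := 3) (by norm_num) (by norm_num)) e3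
  have f4 := C.fix_cl (by norm_num) (by norm_num) (C.chv_ne x hx (k := 4) (by norm_num) (by norm_num)) e4
  have f5 := C.fix_cl (by norm_num) (by norm_num) (C.chv_ne x hx (k := 5) (by norm_num) (by norm_num)) e5
  have f6 := C.fix_cl (by norm_num) (by norm_num) (C.chv_ne x hx (k := 6) (by norm_num) (by norm_num)) e6
  have f7 := C.fix_cl (by norm_num) (by norm_num) (C.chv_ne x hx (k := 7) (by norm_num) (by norm_num)) e7
  have e : C.prod12 p = C.cl 8 (p 10) (p 11) := by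
    simp only [prod12]
    rw [f1, f2, f3, f4, f5, f6, f7]
    group
  rw [e] at hy ⊢
  have ha : C.cl 8 (p 10) (p 11) ∈ C.R.A (1 : Fin 2) := C.mem_A1.mpr ⟨_, _, rfl⟩
  exact C.R.AY (1 : Fin 2) _ ha hy

/-- The elements of the Levi factor commuting with the central torus. -/
lemma L1_comm (x : Kˣ) : ∀ g ∈ C.L1, C.hh x 1 * g = g * C.hh x 1 := by
  have h8 : chv C.φ 8 x 1 = 1 := rfl
  have h7 : chv C.φ 7 x 1 = x := by
    show x * 1 ^ 2 * θu C.φ 1 = x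
    simp
  have hnn : C.hh x 1 * C.nn 1 = C.nn 1 * C.hh x 1 := by
    have := C.nn1_hh x 1
    rw [h7, inv_one] at this
    exact (mul_inv_eq_iff_eq_mul.mp this).symm
  intro g hg
  induction hg using Subgroup.closure_induction with
  | mem z hz =>
    rcases hz with (⟨t, u, rfl⟩ | hz) | ⟨l, rfl⟩
    · exact C.comm_cl 8 h8 t u
    · rw [Set.mem_singleton_iff] at hz
      subst hz
      exact hnn
    · exact C.hh_comm _ _ _ _
  | one => simp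
  | mul a b _ _ h1 h2 =>
    calc C.hh x 1 * (a * b) = (C.hh x 1 * a) * b := by group
      _ = a * (C.hh x 1 * b) := by rw [h1]; group
      _ = _ := by rw [h2]; group
  | inv a _ h1 =>
    have h3 : a⁻¹ * (C.hh x 1 * a) * a⁻¹ = a⁻¹ * (a * C.hh x 1) * a⁻¹ := by rw [h1]
    calc C.hh x 1 * a⁻¹ = a⁻¹ * (a * C.hh x 1) * a⁻¹ := by group
      _ = a⁻¹ * (C.hh x 1 * a) * a⁻¹ := by rw [h1]
      _ = _ := by group

lemma L1_par : C.L1 ≤ C.R.par (1 : Fin 2) := by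
  rw [L1, Subgroup.closure_le]
  rintro g ((⟨t, u, rfl⟩ | rfl) | ⟨l, rfl⟩)
  · exact C.R.B_le_par (1 : Fin 2) (C.R.U_le_B (C.R.A_le (1 : Fin 2) (C.mem_A1.mpr ⟨t, u, rfl⟩)))
  · exact C.R.n_mem_par (1 : Fin 2)
  · exact C.R.B_le_par (1 : Fin 2) (C.R.H_le_B (C.hh_mem _ _))

/-- The Bruhat form in the Levi factor. -/
theorem form_L1 {g : GG K (2 ^ m)} (hg : g ∈ C.L1) :
    (∃ t u x y, g = C.cl 8 t u * C.hh x y) ∨ (∃ t u x y t' u', g = C.cl 8 t u * C.nn 1 * C.hh x y * C.cl 8 t' u') := by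
  obtain ⟨x₀, hx₀, -⟩ := C.exists_unit
  have hx₁ : x₀ ≠ 1 := fun h => hx₀ (by rw [h]; rfl)
  have hc := C.L1_comm x₀ g hg
  have hA : ∀ t u, C.hh x₀ 1 * C.cl 8 t u = C.cl 8 t u * C.hh x₀ 1 := fun t u => C.comm_cl 8 rfl t u
  have hnn : C.hh x₀ 1 * C.nn 1 = C.nn 1 * C.hh x₀ 1 := C.L1_comm x₀ _ C.nn1_mem_L1
  rcases C.R.mem_par (C.L1_par hg) with hB | hD
  · left
    obtain ⟨u, hu, h, hh, rfl⟩ := C.R.B_form g hB
    obtain ⟨a, ha, y, hy, rfl⟩ := C.R.U_fac (1 : Fin 2) u hu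
    obtain ⟨t₁, u₁, rfl⟩ := C.mem_A1.mp ha
    obtain ⟨x, y', hxy⟩ := C.mem_H.mp hh
    have hh' : h = C.hh x y' := Subtype.ext hxy
    subst hh'
    have h1 : C.hh x₀ 1 * y * (C.hh x₀ 1)⁻¹ = y := by
      have e1 : C.hh x₀ 1 * C.hh x y' = C.hh x y' * C.hh x₀ 1 := C.hh_comm _ _ _ _
      have e2 := hA t₁ u₁
      have e3 : C.x1 t₁ u₁ = C.cl 8 t₁ u₁ := rfl
      rw [e3] at hc
      have e4 : C.cl 8 t₁ u₁ * (C.hh x₀ 1 * y) * C.hh x y' = C.cl 8 t₁ u₁ * (y * C.hh x₀ 1) * C.hh x y' := by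
        calc C.cl 8 t₁ u₁ * (C.hh x₀ 1 * y) * C.hh x y' = C.hh x₀ 1 * (C.cl 8 t₁ u₁ * y * C.hh x y') := by
              rw [← mul_assoc, ← mul_assoc, ← e2]; group
          _ = C.cl 8 t₁ u₁ * y * C.hh x y' * C.hh x₀ 1 := hc
          _ = C.cl 8 t₁ u₁ * y * (C.hh x₀ 1 * C.hh x y') := by rw [e1]; group
          _ = _ := by group
      have e5 : C.hh x₀ 1 * y = y * C.hh x₀ 1 := by
        have := mul_right_cancel e4
        exact mul_left_cancel this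
      rw [e5]
      group
    have hy1 := C.fpf_Y hx₁ hy h1
    rw [hy1, mul_one]
    exact ⟨t₁, u₁, x, y', rfl⟩
  · right
    obtain ⟨u, hu, h, hh, a', ha', rfl⟩ := C.R.par_right hD
    obtain ⟨a, ha, y, hy, rfl⟩ := C.R.U_fac (1 : Fin 2) u hu
    obtain ⟨t₁, u₁, rfl⟩ := C.mem_A1.mp ha
    obtain ⟨t₂, u₂, rfl⟩ := C.mem_A1.mp ha'
    obtain ⟨x, y', hxy⟩ := C.mem_H.mp hh
    have hh' : h = C.hh x y' := Subtype.ext hxy
    subst hh'
    have e3 : C.x1 t₁ u₁ = C.cl 8 t₁ u₁ := rfl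
    have e3' : C.x1 t₂ u₂ = C.cl 8 t₂ u₂ := rfl
    have e6 : C.R.n (1 : Fin 2) = C.nn 1 := rfl
    rw [e3, e3', e6] at hc
    rw [e3, e3', e6]
    have h1 : C.hh x₀ 1 * y * (C.hh x₀ 1)⁻¹ = y := by
      set c := C.hh x₀ 1 with hcdef
      have e1 : c * C.hh x y' = C.hh x y' * c := C.hh_comm _ _ _ _
      have e2 := hA t₁ u₁
      have e2' := hA t₂ u₂
      set A := C.cl 8 t₁ u₁
      set A' := C.cl 8 t₂ u₂
      set N := C.nn 1
      set h := C.hh x y'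
      have e4 : A * (c * y) * N * h * A' = A * (y * c) * N * h * A' := by
        calc A * (c * y) * N * h * A' = (c * A) * y * N * h * A' := by rw [e2]; group
          _ = c * (A * y * N * h * A') := by group
          _ = A * y * N * h * A' * c := hc
          _ = A * y * N * h * (c * A') := by rw [e2']; group
          _ = A * y * N * (h * c) * A' := by group
          _ = A * y * N * (c * h) * A' := by rw [e1]
          _ = A * y * (N * c) * h * A' := by group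
          _ = A * y * (c * N) * h * A' := by rw [hnn]
          _ = _ := by group
      have e5 : c * y = y * c := by
        have h2 := mul_right_cancel (mul_right_cancel (mul_right_cancel e4))
        exact mul_left_cancel h2
      rw [e5]
      group
    have hy1 := C.fpf_Y hx₁ hy h1
    rw [hy1, mul_one]
    exact ⟨t₁, u₁, x, y', t₂, u₂, rfl⟩

end Cfsg.Agent.Lib.F24.OutF.Ctx
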